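import Mathlib
import Cfsg.Agent.Lib.MetacyclicP.FPFGroup

/-!
Fixed-point-free automorphisms of finite solvable groups: prime order (nilpotent), order four
(nilpotent derived subgroup), type `p × p` (Fitting height at most two).
-/

set_option autoImplicit false

open scoped IsMulCommutative
open Cfsg
open scoped commutatorElement

namespace CfsgLib.MetacyclicP

variable {A G : Type*} [Group A] [Group G] [Finite A] [Finite G]

/-- Fixed-point-free actions of `q`-groups stay fixed-point-free on quotients. -/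
theorem fpf_quot {q : ℕ} [Fact q.Prime] {φ : A →* MulAut G} (hA : IsPGroup q A)
    (hfix : ∀ g, (∀ a, φ a g = g) → g = 1) (N : Subgroup G) [N.Normal] (hN : Inv φ N)
    (A0 : Subgroup A) (hA0 : ∀ g, (∀ a ∈ A0, φ a g = g) → g = 1) (x : G ⧸ N)
    (hx : ∀ a ∈ A0, quotAct φ N hN a x = x) : x = 1 := by
  obtain ⟨c, hc, hcf⟩ := fixed_quot φ hA (not_dvd_card_of_fpf φ hA hfix) N hN A0 x hx
  rw [← hc, hA0 c hcf, QuotientGroup.mk_one]

theorem fpf_quot' {q : ℕ} [Fact q.Prime] {φ : A →* MulAut G} (hA : IsPGroup q A)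
    (hfix : ∀ g, (∀ a, φ a g = g) → g = 1) (N : Subgroup G) [N.Normal] (hN : Inv φ N)
    (x : G ⧸ N) (hx : ∀ a, quotAct φ N hN a x = x) : x = 1 :=
  fpf_quot hA hfix N hN ⊤ (fun g hg => hfix g fun a => hg a (Subgroup.mem_top a)) x
    fun a _ => hx a

theorem fpf_quot_elt {q : ℕ} [Fact q.Prime] {φ : A →* MulAut G} (hA : IsPGroup q A)
    (hfix : ∀ g, (∀ a, φ a g = g) → g = 1) (N : Subgroup G) [N.Normal] (hN : Inv φ N)
    (a : A) (ha : ∀ g, φ a g = g → g = 1) (x : G ⧸ N) (hx : quotAct φ N hN a x = x) : x = 1 :=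
  fpf_quot hA hfix N hN (Subgroup.zpowers a)
    (fun g hg => ha g (hg a (Subgroup.mem_zpowers a))) x
    fun _ hb => fix_of_mem_zpowers hb hx

theorem quotient_isMinimalFactor [Group.IsSolvable G] {φ : A →* MulAut G} {N M : Subgroup G}
    [N.Normal] (hN : Inv φ N) (h : IsChief φ N M) :
    IsMinimalFactor (quotAct φ N hN) (M.map (QuotientGroup.mk' N)) := by
  obtain ⟨hlt, -, hMn, -, hMi, hmin⟩ := h
  refine IsMinimalFactor.of_solvable (hMn.map _ (QuotientGroup.mk'_surjective N)) ?_ ?_ ?_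
  · rintro a _ ⟨m, hm, rfl⟩
    exact ⟨φ a m, hMi a m hm, rfl⟩
  · intro e
    rw [Subgroup.map_eq_bot_iff, QuotientGroup.ker_mk'] at e
    exact hlt.not_ge e
  · intro K hKn hKi hKM
    have h1 : K.comap (QuotientGroup.mk' N) ≤ M := by
      have := Subgroup.comap_mono (f := QuotientGroup.mk' N) hKM
      rwa [Subgroup.comap_map_eq, QuotientGroup.ker_mk', sup_of_le_left hlt.le] at this
    have h2 : N ≤ K.comap (QuotientGroup.mk' N) := QuotientGroup.le_comap_mk' N K
    have e := Subgroup.map_comap_eq_self_of_surjective (QuotientGroup.mk'_surjective N) K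
    rcases hmin _ (hKn.comap _) (fun a x hx => hKi a _ hx) h2 h1 with h3 | h3
    · left
      rw [← e, h3, QuotientGroup.map_mk'_self]
    · right
      rw [← e, h3]

theorem commutator_le_of_quotient {N M L : Subgroup G} [N.Normal]
    (h : L.map (QuotientGroup.mk' N) ≤
      Subgroup.centralizer (M.map (QuotientGroup.mk' N) : Set (G ⧸ N))) : ⁅M, L⁆ ≤ N := by
  have h1 : ⁅L.map (QuotientGroup.mk' N), M.map (QuotientGroup.mk' N)⁆ = ⊥ :=
    Subgroup.commutator_eq_bot_iff_le_centralizer.2 h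
  rw [Subgroup.commutator_comm, ← Subgroup.map_commutator, Subgroup.map_eq_bot_iff,
    QuotientGroup.ker_mk'] at h1
  exact h1

theorem isUnit_natCast_End {M : Type*} [CommGroup M] [Finite M] {r n : ℕ} [Fact r.Prime]
    (hM : IsPGroup r M) (h : ¬ r ∣ n) : IsUnit (n : AddMonoid.End (Additive M)) := by
  apply End_isUnit_natCast
  obtain ⟨k, hk⟩ := IsPGroup.iff_card.1 hM
  rw [show Nat.card (Additive M) = r ^ k from hk]
  exact ((Fact.out : r.Prime).coprime_iff_not_dvd.2 h).pow_left k

/-- Every nontrivial element fixed point free: `G` centralises each minimal factor. -/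
theorem centralizer_eq_top_of_fpf [Group.IsSolvable G] {q : ℕ} [Fact q.Prime]
    {φ : A →* MulAut G} (hA : IsPGroup q A) (hfix : ∀ g, (∀ a, φ a g = g) → g = 1)
    (hfpf : ∀ a : A, a ≠ 1 → ∀ g, φ a g = g → g = 1) {M : Subgroup G}
    (hM : IsMinimalFactor φ M) : Subgroup.centralizer (M : Set G) = ⊤ := by
  haveI := hM.normal
  haveI := hM.comm
  by_contra hne
  haveI : Nontrivial (G ⧸ Subgroup.centralizer (M : Set G)) :=
    QuotientGroup.nontrivial_iff.2 hne
  obtain ⟨r, hr, hMr, hrd⟩ := exists_prime_exponent M hM.inv hM.ne_bot hM.minimal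
  haveI := Fact.mk hr
  obtain ⟨B, hBc, hB, hBcomm⟩ :=
    exists_comm_characteristic (G ⧸ Subgroup.centralizer (M : Set G))
  haveI := hBcomm
  refine hB (fpf_prime_ring (compat_quotEnd M hM.inv) (quotEnd_injective M)
    (gsum_actEnd_eq_zero M hM.inv hfix) B ?_ (inv_of_characteristic _ B) ?_)
  · exact isUnit_natCast_End hMr (not_dvd_card_of_abelian M hM.inv hM.minimal hrd B inferInstance
      (inv_of_characteristic _ B))
  · intro a ha x _ hx
    exact fpf_quot_elt hA hfix _ (inv_centralizer M hM.inv) a (hfpf a ha) x hx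

/-- A solvable group with a fixed-point-free group of automorphisms, all nontrivial members
fixed point free, is nilpotent. -/
theorem isNilpotent_of_fpf [Group.IsSolvable G] {q : ℕ} [Fact q.Prime]
    {φ : A →* MulAut G} (hA : IsPGroup q A) (hfix : ∀ g, (∀ a, φ a g = g) → g = 1)
    (hfpf : ∀ a : A, a ≠ 1 → ∀ g, φ a g = g → g = 1) : Group.IsNilpotent G := by
  refine Group.isNilpotent_top.1 (isNilpotent_of_chief φ ⊤ fun N M h => ?_)
  haveI := h.2.1
  refine commutator_le_of_quotient (le_top.trans_eq ?_)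
  exact (centralizer_eq_top_of_fpf hA (fpf_quot' hA hfix N h.2.2.2.1)
    (fun a ha => fpf_quot_elt hA hfix N h.2.2.2.1 a (hfpf a ha))
    (quotient_isMinimalFactor h.2.2.2.1 h)).symm

/-! ### Order four -/

theorem isPGroup_two_of_gen {σ : A} (hgen : ∀ a : A, a = 1 ∨ a = σ ∨ a = σ ^ 2 ∨ a = σ ^ 3)
    (h4 : σ ^ 4 = 1) : IsPGroup 2 A := by
  refine IsPGroup.of_card_dvd_pow ?_ (n := 2)
  have hA' : ∀ a : A, a ∈ Subgroup.zpowers σ := by
    intro a
    rcases hgen a with rfl | rfl | rfl | rfl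
    · exact Subgroup.one_mem _
    · exact Subgroup.mem_zpowers _
    all_goals exact Subgroup.npow_mem_zpowers σ _
  rw [← Subgroup.card_top, ← show Subgroup.zpowers σ = ⊤ from eq_top_iff.2 fun a _ => hA' a,
    Nat.card_zpowers]
  exact orderOf_dvd_of_pow_eq_one (by simpa using h4)

theorem commutator_le_centralizer_of_fpf_four [Group.IsSolvable G] {φ : A →* MulAut G} {σ : A}
    (hgen : ∀ a : A, a = 1 ∨ a = σ ∨ a = σ ^ 2 ∨ a = σ ^ 3) (h4 : σ ^ 4 = 1)
    (hfpf : ∀ g, φ σ g = g → g = 1) {M : Subgroup G} (hM : IsMinimalFactor φ M) :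
    commutator G ≤ Subgroup.centralizer (M : Set G) := by
  haveI := hM.normal
  haveI := hM.comm
  have hA : IsPGroup 2 A := isPGroup_two_of_gen hgen h4
  have hfix : ∀ g, (∀ a, φ a g = g) → g = 1 := fun g hg => hfpf g (hg σ)
  have hinvC := inv_centralizer M hM.inv
  have hfpfH : ∀ x, quotAct φ (Subgroup.centralizer (M : Set G)) hinvC σ x = x → x = 1 :=
    fpf_quot_elt hA hfix _ hinvC σ hfpf
  set ψ := quotAct φ (Subgroup.centralizer (M : Set G)) hinvC with hψ
  have hτ : ∀ h, ψ (σ ^ 2) h = h := by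
    rcases subsingleton_or_nontrivial (G ⧸ Subgroup.centralizer (M : Set G)) with hs | hn
    · exact fun h => Subsingleton.elim _ _
    obtain ⟨r, hr, hMr, hrd⟩ := exists_prime_exponent M hM.inv hM.ne_bot hM.minimal
    haveI := Fact.mk hr
    obtain ⟨B, hBc, hB, hBcomm⟩ :=
      exists_comm_characteristic (G ⧸ Subgroup.centralizer (M : Set G))
    haveI := hBcomm
    have hG2 := not_dvd_card_of_fpf φ hA hfix
    refine fpf_four_ring (compat_quotEnd M hM.inv) (quotEnd_injective M)
      (schur_quotEnd M hM.inv hM.minimal) (gsum_actEnd_eq_zero M hM.inv hfix) hgen h4 hfpfH ?_ B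
      inferInstance ?_ hB (inv_of_characteristic _ B) ?_
    · intro h hh
      rw [← orderOf_eq_one_iff]
      have h1 : orderOf h ∣ 2 := orderOf_dvd_of_pow_eq_one hh
      rcases (Nat.dvd_prime Nat.prime_two).1 h1 with h2 | h2
      · exact h2
      · exfalso
        exact hG2 ((h2 ▸ orderOf_dvd_natCard h).trans (Subgroup.card_quotient_dvd_card _))
    · intro x hx y hy
      exact congrArg Subtype.val (mul_comm (⟨x, hx⟩ : B) ⟨y, hy⟩)
    · intro D hD
      exact isUnit_natCast_End hMr fun hd => not_dvd_card_of_abelian M hM.inv hM.minimal hrd B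
        inferInstance (inv_of_characteristic _ B) (hd.trans (Subgroup.card_dvd_of_le hD))
  -- an involutory fixed point free automorphism inverts everything
  have hσσ : ∀ x, ψ σ (ψ σ x) = x := by
    intro x
    rw [← MulAut.mul_apply, ← map_mul, ← sq, hτ]
  have hinj : Function.Injective fun x => x⁻¹ * ψ σ x := by
    intro x y e
    have e' : x⁻¹ * ψ σ x = y⁻¹ * ψ σ y := e
    have h1 : ψ σ (y * x⁻¹) = y * x⁻¹ := by
      have e1 : ψ σ y = y * (x⁻¹ * ψ σ x) := by rw [e']; group
      rw [map_mul, map_inv, e1]; group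
    exact (mul_inv_eq_one.1 (hfpfH _ h1)).symm
  have hinvert : ∀ x, ψ σ x = x⁻¹ := by
    intro x
    obtain ⟨y, rfl⟩ := (Finite.injective_iff_surjective.1 hinj) x
    show ψ σ (y⁻¹ * ψ σ y) = (y⁻¹ * ψ σ y)⁻¹
    rw [map_mul, map_inv, hσσ, mul_inv_rev, inv_inv]
  have hcomm : ∀ x y : G ⧸ Subgroup.centralizer (M : Set G), x * y = y * x := by
    intro x y
    have := map_mul (ψ σ) x y
    rw [hinvert, hinvert, hinvert, mul_inv_rev] at this
    calc x * y = (y⁻¹ * x⁻¹)⁻¹ := by group
      _ = (x⁻¹ * y⁻¹)⁻¹ := by rw [this]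
      _ = y * x := by group
  rw [commutator_def, Subgroup.commutator_le]
  intro a _ b _
  rw [← QuotientGroup.eq_one_iff]
  show QuotientGroup.mk' _ ⁅a, b⁆ = 1
  rw [map_commutatorElement, commutatorElement_eq_one_iff_mul_comm]
  exact hcomm _ _

theorem isNilpotent_commutator_of_fpf_four [Group.IsSolvable G] {φ : A →* MulAut G} {σ : A}
    (hgen : ∀ a : A, a = 1 ∨ a = σ ∨ a = σ ^ 2 ∨ a = σ ^ 3) (h4 : σ ^ 4 = 1)
    (hfpf : ∀ g, φ σ g = g → g = 1) : Group.IsNilpotent (commutator G) := by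
  refine isNilpotent_of_chief φ _ fun N M h => ?_
  haveI := h.2.1
  have hA : IsPGroup 2 A := isPGroup_two_of_gen hgen h4
  refine commutator_le_of_quotient ?_
  rw [commutator_def, Subgroup.map_commutator, Subgroup.map_top_of_surjective _
    (QuotientGroup.mk'_surjective N), ← commutator_def]
  exact commutator_le_centralizer_of_fpf_four hgen h4
    (fpf_quot_elt hA (fun g hg => hfpf g (hg σ)) N h.2.2.2.1 σ hfpf)
    (quotient_isMinimalFactor h.2.2.2.1 h)

/-! ### Type `p × p` -/

variable {p : ℕ}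

theorem IsRankTwo.isPGroup (hA : IsRankTwo A p) : IsPGroup p A :=
  haveI := Fact.mk hA.prime
  fun a => ⟨1, by rw [pow_one]; exact hA.exp a⟩

/-- Coprime generation by fixed points for solvable groups. -/
theorem IsRankTwo.gen_solvable (hA : IsRankTwo A p) [Group.IsSolvable G] (φ : A →* MulAut G)
    (hcop : (Nat.card G).Coprime p) (C : Subgroup G)
    (hC : ∀ a : A, a ≠ 1 → ∀ g, φ a g = g → g ∈ C) : C = ⊤ := by
  haveI := Fact.mk hA.prime
  obtain ⟨a, ha⟩ : ∃ a : A, a ≠ 1 := by
    haveI : Nontrivial A := by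
      rw [← Finite.one_lt_card_iff_nontrivial, hA.card]
      exact Nat.one_lt_pow two_ne_zero hA.prime.one_lt
    exact exists_ne 1
  obtain ⟨b, hb⟩ := hA.exists_indep ha
  obtain ⟨n, hn⟩ := Group.IsSolvable.solvable (G := G)
  suffices ∀ j k, k + j = n → derivedSeries G k ≤ C from
    eq_top_iff.2 (this n 0 (Nat.zero_add n))
  intro j
  induction j with
  | zero => intro k hk; rw [Nat.add_zero] at hk; subst hk; rw [hn]; exact bot_le
  | succ j ih =>
    intro k hk g hg
    have hnext := ih (k + 1) (by omega)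
    set D := derivedSeries G k with hD
    have hDi : Inv φ D := inv_of_characteristic φ D
    have hDcop : ¬ p ∣ Nat.card D := fun h =>
      hA.prime.coprime_iff_not_dvd.1 hcop.symm (h.trans D.card_subgroup_dvd_card)
    have hD'i : Inv (restrictAct φ D hDi) (commutator D) := inv_of_characteristic _ _
    letI : CommGroup (D ⧸ commutator D) := inferInstanceAs (CommGroup (Abelianization D))
    let ψ := quotAct (restrictAct φ D hDi) (commutator D) hD'i
    let C' : Subgroup (D ⧸ commutator D) :=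
      (C.comap D.subtype).map (QuotientGroup.mk' (commutator D))
    have hfixC : ∀ e : A, e ≠ 1 → ∀ z, ψ e z = z → z ∈ C' := by
      intro e he z hz
      obtain ⟨c, hc, hcf⟩ := fixed_quot (restrictAct φ D hDi) hA.isPGroup hDcop (commutator D)
        hD'i (Subgroup.zpowers e) z fun _ hf => fix_of_mem_zpowers hf hz
      exact ⟨c, hC e he _ (congrArg Subtype.val (hcf e (Subgroup.mem_zpowers e))), hc⟩
    have hcard : (Nat.card (D ⧸ commutator D)).Coprime p :=
      (hA.prime.coprime_iff_not_dvd.2 fun h => hDcop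
        (h.trans (Subgroup.card_quotient_dvd_card _))).symm
    have hfixN : ∀ z : D ⧸ commutator D,
        ψ a (∏ f ∈ (Set.toFinite (Subgroup.zpowers a : Set A)).toFinset, ψ f z) =
          ∏ f ∈ (Set.toFinite (Subgroup.zpowers a : Set A)).toFinset, ψ f z := by
      intro z
      rw [map_prod]
      refine Finset.prod_bij (fun f _ => a * f) ?_ ?_ ?_ ?_
      · intro f hf
        simp only [Set.Finite.mem_toFinset, SetLike.mem_coe] at hf ⊢
        exact Subgroup.mul_mem _ (Subgroup.mem_zpowers a) hf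
      · intro f _ f' _ e; exact mul_left_cancel e
      · intro f hf
        refine ⟨a⁻¹ * f, ?_, by group⟩
        simp only [Set.Finite.mem_toFinset, SetLike.mem_coe] at hf ⊢
        exact Subgroup.mul_mem _ (Subgroup.inv_mem _ (Subgroup.mem_zpowers a)) hf
      · intro f _; rw [map_mul, MulAut.mul_apply]
    have hmem := hA.gen_comm ψ hcard C' hb (fun d hd z hz => hfixC d (hA.symm hd).1 z hz)
      (QuotientGroup.mk' _ ⟨g, hg⟩) (fun f => hfixC a ha _ (by
        rw [← MulAut.mul_apply, ← map_mul, hA.comm, map_mul, MulAut.mul_apply, hfixN]))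
    obtain ⟨c, hc, hce⟩ := hmem
    have hcg := QuotientGroup.eq.1 hce
    have h1 : ((c⁻¹ * ⟨g, hg⟩ : D) : G) ∈ C := hnext (by
      rw [derivedSeries_succ, ← hD, ← Subgroup.map_subtype_commutator]
      exact ⟨_, hcg, rfl⟩)
    have := C.mul_mem (show (c : G) ∈ C from hc) h1
    simpa using this

theorem IsRankTwo.gen_solvable_le (hA : IsRankTwo A p) [Group.IsSolvable G] (φ : A →* MulAut G)
    (hcop : (Nat.card G).Coprime p) (K : Subgroup G) (hK : Inv φ K) (C : Subgroup G)
    (hC : ∀ a : A, a ≠ 1 → ∀ g ∈ K, φ a g = g → g ∈ C) : K ≤ C := by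
  have := hA.gen_solvable (restrictAct φ K hK)
    (hcop.coprime_dvd_left K.card_subgroup_dvd_card) (C.comap K.subtype)
    (fun a ha g hg => hC a ha g g.2 (congrArg Subtype.val hg))
  intro g hg
  exact (this.ge (Subgroup.mem_top (⟨g, hg⟩ : K)) :)

theorem lcs_le_centralizer_of_fpf_rankTwo [Group.IsSolvable G] (hA : IsRankTwo A p)
    {φ : A →* MulAut G} (hfix : ∀ g, (∀ a, φ a g = g) → g = 1) {M : Subgroup G}
    (hM : IsMinimalFactor φ M) :
    ∃ k, (⊤ : Subgroup G).lowerCentralSeries k ≤ Subgroup.centralizer (M : Set G) := by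
  haveI := Fact.mk hA.prime
  haveI := hM.normal
  haveI := hM.comm
  have hinvC := inv_centralizer M hM.inv
  have hAp := hA.isPGroup
  have hGp := not_dvd_card_of_fpf φ hAp hfix
  set ψ := quotAct φ (Subgroup.centralizer (M : Set G)) hinvC with hψ
  suffices hnil : Group.IsNilpotent (G ⧸ Subgroup.centralizer (M : Set G)) by
    obtain ⟨k, hk⟩ := Subgroup.nilpotent_iff_lowerCentralSeries.1 hnil
    refine ⟨k, ?_⟩
    rw [← Subgroup.map_top_of_surjective _ (QuotientGroup.mk'_surjective _),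
      ← Subgroup.map_lowerCentralSeries, Subgroup.map_eq_bot_iff, QuotientGroup.ker_mk'] at hk
    exact hk
  rcases subsingleton_or_nontrivial (G ⧸ Subgroup.centralizer (M : Set G)) with hs | hn
  · infer_instance
  have hHp : (Nat.card (G ⧸ Subgroup.centralizer (M : Set G))).Coprime p :=
    (hA.prime.coprime_iff_not_dvd.2 fun h =>
      hGp (h.trans (Subgroup.card_quotient_dvd_card _))).symm
  have hfixH : ∀ x, (∀ a, ψ a x = x) → x = 1 := fun x hx => fpf_quot' hAp hfix _ hinvC x hx
  obtain ⟨r, hr, hMr, hrd⟩ := exists_prime_exponent M hM.inv hM.ne_bot hM.minimal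
  haveI := Fact.mk hr
  set K := fittingSubgroup (G ⧸ Subgroup.centralizer (M : Set G)) with hKdef
  haveI hKnil : Group.IsNilpotent K := CfsgLib.Cores.isNilpotent_fittingSubgroup
  have hKinv : Inv ψ K := inv_of_characteristic _ K
  have hrK : ¬ r ∣ Nat.card K := by
    intro hd
    have hcore : pCore r (G ⧸ Subgroup.centralizer (M : Set G)) = ⊥ :=
      eq_bot_of_isPGroup_quot M hM.inv hM.minimal hrd _ inferInstance (inv_of_characteristic _ _)
        (CfsgLib.Cores.isPGroup_pCore r _)
    obtain ⟨S⟩ : Nonempty (Sylow r K) := inferInstance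
    have h1 : (S : Subgroup K).map K.subtype ≤ pCore r (G ⧸ Subgroup.centralizer (M : Set G)) :=
      (Subgroup.map_mono (CfsgLib.Cores.le_pCore (N := (S : Subgroup K)) S.isPGroup')).trans
        (CfsgLib.Cores.map_subtype_pCore_le (Subgroup.Normal.isSubnormal inferInstance))
    rw [hcore, le_bot_iff, Subgroup.map_eq_bot_iff, Subgroup.ker_subtype, le_bot_iff] at h1
    exact S.ne_bot_of_dvd_card hd h1
  have hKne : K ≠ ⊥ := CfsgLib.Cores.fittingSubgroup_ne_bot
  have hZ : K ⊓ Subgroup.centralizer (K : Set (G ⧸ Subgroup.centralizer (M : Set G))) ≠ ⊥ := by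
    haveI : Nontrivial K := (Subgroup.nontrivial_iff_ne_bot K).2 hKne
    intro e
    apply Group.IsNilpotent.center_ne_bot (G := K)
    rw [Subgroup.eq_bot_iff_forall]
    intro z hz
    have hzm : (z : G ⧸ Subgroup.centralizer (M : Set G)) ∈
        K ⊓ Subgroup.centralizer (K : Set (G ⧸ Subgroup.centralizer (M : Set G))) :=
      ⟨z.2, fun w hw => congrArg Subtype.val (Subgroup.mem_center_iff.1 hz ⟨w, hw⟩)⟩
    rw [e, Subgroup.mem_bot] at hzm
    exact Subtype.ext hzm
  obtain ⟨a, ha, hafix⟩ := ward_ring hA (compat_quotEnd M hM.inv) (quotEnd_injective M)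
    (schur_quotEnd M hM.inv hM.minimal) (gsum_actEnd_eq_zero M hM.inv hfix)
    (isUnit_natCast_End hMr fun hd => hGp (by
      have := (Nat.prime_dvd_prime_iff_eq hr hA.prime).1 hd
      exact (this ▸ hrd).trans M.card_subgroup_dvd_card))
    hfixH (fun C hC => hA.gen_solvable ψ hHp C hC) K inferInstance hKinv
    (fun D hD => isUnit_natCast_End hMr fun hd => hrK (hd.trans (Subgroup.card_dvd_of_le hD)))
    (hHp.coprime_dvd_left K.card_subgroup_dvd_card)
    CfsgLib.Cores.centralizer_fittingSubgroup_le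
    (fun C hC => hA.gen_solvable_le ψ hHp K hKinv C hC) hZ
  obtain ⟨b, hb⟩ := hA.exists_indep ha
  refine isNilpotent_of_fpf (φ := ψ.comp (Subgroup.zpowers b).subtype)
    (hAp.to_subgroup (Subgroup.zpowers b)) ?_ ?_
  · intro x hx
    exact hfixH x (hA.fix_both hb (hafix x) (hx ⟨b, Subgroup.mem_zpowers b⟩))
  · intro c hc x hx
    refine hfixH x (hA.fix_both hb (hafix x) ?_)
    exact hA.fix_of_pow_fix (hA.symm hb).1 c.2 (fun e => hc (Subtype.ext e)) hx

/-- Ward: a fixed-point-free elementary abelian group of order `p ^ 2` forces Fitting height `≤ 2`. -/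
theorem fittingHeight_of_fpf_rankTwo [Group.IsSolvable G] (hA : IsRankTwo A p)
    {φ : A →* MulAut G} (hfix : ∀ g, (∀ a, φ a g = g) → g = 1) :
    ∃ L : Subgroup G, L.Normal ∧ (∃ k, L.lowerCentralSeries k = ⊥) ∧
      ∃ k, (⊤ : Subgroup G).lowerCentralSeries k ≤ L := by
  haveI := Fact.mk hA.prime
  obtain ⟨k0, hk0⟩ : ∃ k0, ∀ j, (⊤ : Subgroup G).lowerCentralSeries k0 ≤
      (⊤ : Subgroup G).lowerCentralSeries j := by
    obtain ⟨_, ⟨k, rfl⟩, hmin⟩ := wellFounded_lt.has_min
      (Set.range ((⊤ : Subgroup G).lowerCentralSeries)) ⟨_, 0, rfl⟩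
    refine ⟨k, fun j => ?_⟩
    rcases le_total j k with h | h
    · exact Subgroup.lowerCentralSeries_antitone _ h
    · rcases eq_or_lt_of_le (Subgroup.lowerCentralSeries_antitone (⊤ : Subgroup G) h) with e | e
      · exact e.ge
      · exact absurd e (hmin _ ⟨j, rfl⟩)
  refine ⟨(⊤ : Subgroup G).lowerCentralSeries k0, inferInstance,
    exists_lcs_eq_bot φ _ fun N M h => ?_, k0, le_rfl⟩
  haveI := h.2.1
  obtain ⟨k, hk⟩ := lcs_le_centralizer_of_fpf_rankTwo hA
    (fpf_quot' hA.isPGroup hfix N h.2.2.2.1) (quotient_isMinimalFactor h.2.2.2.1 h)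
  refine commutator_le_of_quotient ((Subgroup.map_mono (hk0 k)).trans ?_)
  rw [Subgroup.map_lowerCentralSeries, Subgroup.map_top_of_surjective _
    (QuotientGroup.mk'_surjective N)]
  exact hk

end CfsgLib.MetacyclicP
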