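import Mathlib
import Cfsg.Agent.Lib.MetacyclicP.ExpBound
import Cfsg.Agent.Lib.Amalgams.SymFour

/-!
Cyclic normal subgroups of a Sylow `p`-subgroup of a `p`-soluble group lie in `O_{p',p}`.
-/

set_option autoImplicit false
set_option linter.style.haveILetI false

open scoped Pointwise

namespace CfsgLib.MetacyclicP

open Cfsg CfsgLib.Cores CfsgLib.PSolvable

variable {G : Type*} [Group G] [Finite G] {p : ℕ} [hp : Fact p.Prime]

theorem conj_three {H : Type*} [Group H] {q v w : H} (h : q * v * q⁻¹ = v * w) :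
    q * (q * (q * v * q⁻¹) * q⁻¹) * q⁻¹ = v * (w * (q * w * q⁻¹ * (q * (q * w * q⁻¹) * q⁻¹))) := by
  calc q * (q * (q * v * q⁻¹) * q⁻¹) * q⁻¹ = q * (q * (v * w) * q⁻¹) * q⁻¹ := by rw [h]
    _ = q * ((q * v * q⁻¹) * (q * w * q⁻¹)) * q⁻¹ := by group
    _ = q * ((v * w) * (q * w * q⁻¹)) * q⁻¹ := by rw [h]
    _ = (q * v * q⁻¹) * (q * w * q⁻¹) * (q * (q * w * q⁻¹) * q⁻¹) := by group
    _ = _ := by rw [h]; simp only [mul_assoc]

/-- The elementary case: `O_p(G)` elementary abelian and self-centralising. -/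
theorem le_pCore_of_cyclic_normal (hG : IsPSolvable p G)
    (hVc : ∀ u ∈ pCore p G, ∀ v ∈ pCore p G, u * v = v * u) (hVp : ∀ v ∈ pCore p G, v ^ p = 1)
    (hC : Subgroup.centralizer (pCore p G : Set G) ≤ pCore p G) (P : Sylow p G) (A : Subgroup G)
    (hAP : A ≤ (P : Subgroup G)) (hAn : (P : Subgroup G) ≤ Subgroup.normalizer (A : Set G))
    (hA : IsCyclic A) (h : p ≠ 2 ∨ ¬ Involves (Equiv.Perm (Fin 4)) G) : A ≤ pCore p G := by
  classical
  set V := pCore p G with hV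
  obtain ⟨a₀, ha₀⟩ := (Subgroup.isCyclic_iff_exists_zpowers_eq_top A).1 hA
  by_contra hAV
  have haV : a₀ ∉ V := fun h' => hAV (ha₀ ▸ Subgroup.zpowers_le.2 h')
  have haA : a₀ ∈ A := ha₀ ▸ Subgroup.mem_zpowers a₀
  have hVP : V ≤ (P : Subgroup G) := pCore_le_sylow P
  have hAcomm : ∀ x ∈ A, ∀ y ∈ A, x * y = y * x := by
    intro x hx y hy
    rw [← ha₀] at hx hy
    obtain ⟨i, rfl⟩ := Subgroup.mem_zpowers_iff.1 hx
    obtain ⟨j, rfl⟩ := Subgroup.mem_zpowers_iff.1 hy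
    exact (Commute.zpow_zpow_self a₀ i j).eq
  have hVn : V.Normal := inferInstance
  -- displacements
  let e : G → G := fun v => a₀ * v * a₀⁻¹ * v⁻¹
  have heA : ∀ v ∈ V, e v ∈ A := by
    intro v hv
    have h1 := (Subgroup.mem_normalizer_iff.1 (hAn (hVP hv)) a₀⁻¹).1 (A.inv_mem haA)
    rw [show e v = a₀ * (v * a₀⁻¹ * v⁻¹) by simp only [e]; group]
    exact A.mul_mem haA h1
  have heV : ∀ v ∈ V, e v ∈ V := fun v hv => V.mul_mem (hVn.conj_mem v hv a₀) (V.inv_mem hv)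
  have hce : ∀ v ∈ V, a₀ * v * a₀⁻¹ = v * e v := by
    intro v hv
    rw [← hVc _ (heV v hv) v hv]
    simp only [e]; group
  have hefix : ∀ v ∈ V, a₀ * e v * a₀⁻¹ = e v := fun v hv => by
    rw [hAcomm a₀ haA _ (heA v hv), mul_inv_cancel_right]
  have hpow : ∀ v ∈ V, ∀ i : ℕ, a₀ ^ i * v * (a₀ ^ i)⁻¹ = v * e v ^ i := by
    intro v hv i
    induction i with
    | zero => simp
    | succ i ih =>
      calc a₀ ^ (i + 1) * v * (a₀ ^ (i + 1))⁻¹ = a₀ * (a₀ ^ i * v * (a₀ ^ i)⁻¹) * a₀⁻¹ := by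
            rw [pow_succ' a₀ i]; group
        _ = a₀ * (v * e v ^ i) * a₀⁻¹ := by rw [ih]
        _ = (a₀ * v * a₀⁻¹) * (a₀ * e v * a₀⁻¹) ^ i := by rw [conj_pow]; group
        _ = _ := by rw [hefix v hv, hce v hv, mul_assoc, ← pow_succ']
  set c := a₀ ^ p with hc
  have hcA : c ∈ A := A.pow_mem haA p
  have hcV : c ∈ V := hC (Subgroup.mem_centralizer_iff.2 fun v hv => by
    have h1 := hpow v hv p
    rw [hVp _ (heV v hv), mul_one] at h1
    exact (mul_inv_eq_iff_eq_mul.1 h1).symm)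
  have hAVc : ∀ y ∈ A, y ∈ V → y ∈ Subgroup.zpowers c := by
    intro y hy hyV
    rw [← ha₀] at hy
    obtain ⟨i, rfl⟩ := Subgroup.mem_zpowers_iff.1 hy
    by_cases hd : (p : ℤ) ∣ i
    · obtain ⟨j, rfl⟩ := hd
      exact Subgroup.mem_zpowers_iff.2 ⟨j, by rw [hc, ← zpow_natCast, ← zpow_mul]⟩
    · exfalso
      apply haV
      have hco : IsCoprime i (p : ℤ) := ((Nat.prime_iff_prime_int.1 hp.out).coprime_iff_not_dvd.2 hd).symm
      obtain ⟨s, t, hst⟩ := hco
      rw [← zpow_one a₀, ← hst, zpow_add, mul_comm s, zpow_mul, mul_comm t, zpow_mul, zpow_natCast]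
      exact V.mul_mem (V.zpow_mem hyV s) (V.zpow_mem hcV t)
  have hec : ∀ v ∈ V, e v ∈ Subgroup.zpowers c := fun v hv => hAVc _ (heA v hv) (heV v hv)
  -- the `p'`-core of the quotient
  set π := QuotientGroup.mk' V with hπ
  set N := (pPrimeCore p (G ⧸ V)).comap π with hN
  haveI hNn : N.Normal := Subgroup.Normal.comap inferInstance π
  have hVN : V ≤ N := QuotientGroup.le_comap_mk' V _
  have hrel : (V.relIndex N).Coprime p := by
    rw [relIndex_eq_card_map, hN, hπ,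
      Subgroup.map_comap_eq_self_of_surjective (QuotientGroup.mk'_surjective V)]
    exact card_pPrimeCore_coprime p
  obtain ⟨nV, hnV⟩ := IsPGroup.iff_card.1 (isPGroup_pCore p G)
  obtain ⟨K', hK'⟩ := Subgroup.exists_right_complement'_of_coprime (N := V.subgroupOf N) (by
    rw [Nat.card_congr (Subgroup.subgroupOfEquivOfLe hVN).toEquiv, hV, hnV]
    exact (hrel.symm.pow_left nV))
  set K := K'.map N.subtype with hK
  have hKcop : (Nat.card K).Coprime p := by
    rw [hK, Subgroup.card_subtype, ← hK'.symm.index_eq_card]; exact hrel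
  have hKord : ∀ k ∈ K, (orderOf k).Coprime p := fun k hk =>
    hKcop.coprime_dvd_left (Subgroup.orderOf_mk k hk ▸ orderOf_dvd_natCard _)
  have hKV : ∀ k ∈ K, k ∈ V → k = 1 := by
    intro k hk hkV
    obtain ⟨j, hj⟩ := IsPGroup.iff_orderOf.1 (isPGroup_pCore p G) ⟨k, hkV⟩
    rw [Subgroup.orderOf_mk] at hj
    exact orderOf_eq_one_iff.1 (Nat.eq_one_of_dvd_coprimes ((hKord k hk).pow_right j) dvd_rfl (hj ▸ dvd_rfl))
  have hKN : K ≤ N := Subgroup.map_subtype_le _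
  have hNle : N ≤ V ⊔ K := by
    intro y hy
    obtain ⟨⟨u, w⟩, huw⟩ := hK'.2 ⟨y, hy⟩
    rw [← show ((u : N) : G) * ((w : N) : G) = y from congrArg Subtype.val huw]
    exact Subgroup.mul_mem_sup u.2 ⟨w, w.2, rfl⟩
  obtain ⟨v₀, hv₀, hn⟩ : ∃ v₀ ∈ V, v₀⁻¹ * a₀ ∈ Subgroup.normalizer (K : Set G) := by
    have hB : (MulAut.conj a₀ • K : Subgroup G) ≤ V ⊔ K := by
      refine le_trans ?_ hNle
      rintro _ ⟨l, hl, rfl⟩
      exact hNn.conj_mem l (hKN hl) a₀
    obtain ⟨q, hq, hle⟩ := CfsgLib.CoprimeAction.exists_le_conj_of_coprime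
      (by rw [Subgroup.normalizer_eq_top_iff.2 hVn]; exact le_top) hB
      (by rw [CfsgLib.CoprimeAction.card_conj_smul, hV, hnV]; exact hKcop.pow_right nV)
      (Or.inr (by
        haveI := (isPGroup_pCore p G).isNilpotent
        exact (inferInstance : Group.IsSolvable (pCore p G))))
    have heq : (MulAut.conj a₀ • K : Subgroup G) = MulAut.conj q • K :=
      Subgroup.eq_of_le_of_card_ge hle (by
        rw [CfsgLib.CoprimeAction.card_conj_smul, CfsgLib.CoprimeAction.card_conj_smul])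
    refine ⟨q, hq, ?_⟩
    rw [← CfsgLib.CoprimeAction.conj_smul_eq_self, map_mul, mul_smul, heq, map_inv, inv_smul_smul]
  set n := v₀⁻¹ * a₀ with hndef
  have hna : ∀ v ∈ V, n * v * n⁻¹ = v * e v := by
    intro v hv
    rw [hndef, mul_inv_rev, inv_inv,
      show v₀⁻¹ * a₀ * v * (a₀⁻¹ * v₀) = v₀⁻¹ * (a₀ * v * a₀⁻¹) * v₀ by group, hce v hv]
    have hm : v * e v ∈ V := V.mul_mem hv (heV v hv)
    rw [mul_assoc, hVc _ hm _ hv₀, inv_mul_cancel_left]
  -- no element of `K` moves all of `V` inside a fixed subgroup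
  have htriv : ∀ d ∈ K, (∀ v ∈ V, ∃ f ∈ V, d * f * d⁻¹ = f ∧ d * v * d⁻¹ = v * f) → d = 1 := by
    intro d hd hdv
    refine hKV d hd (hC (Subgroup.mem_centralizer_iff.2 fun v hv => ?_))
    obtain ⟨f, hfV, hff, hdf⟩ := hdv v hv
    have hm : ∀ m : ℕ, d ^ m * v * (d ^ m)⁻¹ = v * f ^ m := by
      intro m
      induction m with
      | zero => simp
      | succ m ih =>
        calc d ^ (m + 1) * v * (d ^ (m + 1))⁻¹ = d * (d ^ m * v * (d ^ m)⁻¹) * d⁻¹ := by
              rw [pow_succ' d m]; group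
          _ = d * (v * f ^ m) * d⁻¹ := by rw [ih]
          _ = (d * v * d⁻¹) * (d * f * d⁻¹) ^ m := by rw [conj_pow]; group
          _ = _ := by rw [hff, hdf, mul_assoc, ← pow_succ']
    have h1 := hm (orderOf d)
    rw [pow_orderOf_eq_one, one_mul, inv_one, mul_one] at h1
    have h2 : f = 1 := orderOf_eq_one_iff.1 (Nat.eq_one_of_dvd_coprimes (hKord d hd)
      (orderOf_dvd_of_pow_eq_one (mul_eq_left.1 h1.symm)) (orderOf_dvd_of_pow_eq_one (hVp f hfV)))
    rw [h2, mul_one] at hdf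
    exact (mul_inv_eq_iff_eq_mul.1 hdf).symm
  -- `n` does not centralise `K`
  have hKn : ∃ k ∈ K, n * k * n⁻¹ ≠ k := by
    by_contra hno
    push Not at hno
    apply haV
    have hcent : π a₀ ∈ Subgroup.centralizer (pPrimeCore p (G ⧸ V) : Set (G ⧸ V)) := by
      refine Subgroup.mem_centralizer_iff.2 fun z hz => ?_
      obtain ⟨y, rfl⟩ := QuotientGroup.mk'_surjective V z
      have hy : y ∈ N := hz
      obtain ⟨⟨u, w⟩, huw⟩ := hK'.2 ⟨y, hy⟩
      have hyw : π y = π ((w : N) : G) := by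
        rw [← show ((u : N) : G) * ((w : N) : G) = y from congrArg Subtype.val huw, map_mul,
          show π ((u : N) : G) = 1 from (QuotientGroup.eq_one_iff _).2 u.2, one_mul]
      have hn' : π a₀ = π n := by
        rw [hndef, map_mul, map_inv, show π v₀ = 1 from (QuotientGroup.eq_one_iff _).2 hv₀, inv_one, one_mul]
      rw [hn', hyw, ← map_mul, ← map_mul]
      exact congrArg π (mul_inv_eq_iff_eq_mul.1 (hno _ ⟨w, w.2, rfl⟩)).symm
    have h1 := centralizer_pPrimeCore_le_self (isPSolvable_quotient hG V) (pCore_quotient_pCore p G) hcent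
    obtain ⟨j, hj⟩ := IsPGroup.iff_orderOf.1 P.isPGroup' ⟨a₀, hAP haA⟩
    rw [Subgroup.orderOf_mk] at hj
    have h2 : orderOf (π a₀) = 1 := Nat.eq_one_of_dvd_coprimes
      (((card_pPrimeCore_coprime (G := G ⧸ V) p)).pow_right j)
      (Subgroup.orderOf_mk (π a₀) h1 ▸ orderOf_dvd_natCard _) (hj ▸ orderOf_map_dvd π a₀)
    exact (QuotientGroup.eq_one_iff a₀).1 (orderOf_eq_one_iff.1 h2)
  -- if `c` is centralised by `K`, so is `n`
  have hKc : ¬ ∀ k ∈ K, k * c * k⁻¹ = c := by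
    intro hcK
    obtain ⟨k, hk, hnk⟩ := hKn
    apply hnk
    have hk' : n * k * n⁻¹ ∈ K := (Subgroup.mem_normalizer_iff.1 hn k).1 hk
    have hfixK : ∀ v ∈ V, ∀ l ∈ K, l * e v * l⁻¹ = e v := by
      intro v hv l hl
      obtain ⟨i, hi⟩ := Subgroup.mem_zpowers_iff.1 (hec v hv)
      rw [← hi, ← conj_zpow, hcK l hl]
    set k' := n * k * n⁻¹ with hk'def
    have h1 : k⁻¹ * k' = 1 := by
      refine htriv _ (K.mul_mem (K.inv_mem hk) hk') fun v hv => ?_
      have hkv : k * v * k⁻¹ ∈ V := hVn.conj_mem v hv k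
      refine ⟨e (k * v * k⁻¹) * (e v)⁻¹, V.mul_mem (heV _ hkv) (V.inv_mem (heV v hv)), ?_, ?_⟩
      · have hm := K.mul_mem (K.inv_mem hk) hk'
        rw [show k⁻¹ * k' * (e (k * v * k⁻¹) * (e v)⁻¹) * (k⁻¹ * k')⁻¹ =
          (k⁻¹ * k' * e (k * v * k⁻¹) * (k⁻¹ * k')⁻¹) * (k⁻¹ * k' * e v * (k⁻¹ * k')⁻¹)⁻¹ by group,
          hfixK _ hkv _ hm, hfixK _ hv _ hm]
      · have h2 : n * (k * v * k⁻¹) * n⁻¹ = k' * (v * e v) * k'⁻¹ := by
          rw [← hna v hv, hk'def]; group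
        rw [hna _ hkv, show k' * (v * e v) * k'⁻¹ = (k' * v * k'⁻¹) * (k' * e v * k'⁻¹) by group,
          hfixK v hv k' hk'] at h2
        have h3 : k' * v * k'⁻¹ = k * v * k⁻¹ * e (k * v * k⁻¹) * (e v)⁻¹ := by
          rw [h2, mul_inv_cancel_right]
        calc k⁻¹ * k' * v * (k⁻¹ * k')⁻¹ = k⁻¹ * (k' * v * k'⁻¹) * k := by group
          _ = v * (k⁻¹ * (e (k * v * k⁻¹) * (e v)⁻¹) * k) := by rw [h3]; group
          _ = v * (e (k * v * k⁻¹) * (e v)⁻¹) := by
            congr 1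
            rw [show k⁻¹ * (e (k * v * k⁻¹) * (e v)⁻¹) * k =
              (k⁻¹ * e (k * v * k⁻¹) * k⁻¹⁻¹) * (k⁻¹ * e v * k⁻¹⁻¹)⁻¹ by group,
              hfixK _ hkv _ (K.inv_mem hk), hfixK _ hv _ (K.inv_mem hk)]
    exact (inv_mul_eq_one.1 h1).symm
  have hv₀' : v₀⁻¹ ∈ V := V.inv_mem hv₀
  have hnpV : n ^ p ∈ V → ∀ k ∈ K, k * n ^ p * k⁻¹ = n ^ p := by
    intro hnp k hk
    have h1 : n ^ p ∈ Subgroup.normalizer (K : Set G) := Subgroup.pow_mem _ hn p
    have h2 : k * n ^ p * k⁻¹ * (n ^ p)⁻¹ ∈ K := by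
      rw [show k * n ^ p * k⁻¹ * (n ^ p)⁻¹ = k * (n ^ p * k⁻¹ * (n ^ p)⁻¹) by group]
      exact K.mul_mem hk ((Subgroup.mem_normalizer_iff.1 h1 k⁻¹).1 (K.inv_mem hk))
    exact mul_inv_eq_one.1 (hKV _ h2 (V.mul_mem (hVn.conj_mem _ hnp k) (V.inv_mem hnp)))
  by_cases hp2 : p = 2
  swap
  · -- odd primes
    apply hKc
    have hnp : n ^ p = c := by
      have hm : ∀ m : ℕ, n ^ m = v₀⁻¹ ^ m * e v₀⁻¹ ^ (m.choose 2) * a₀ ^ m := by
        intro m
        induction m with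
        | zero => simp
        | succ m ih =>
          have hec' := heV _ hv₀'
          have h1 : a₀ ^ m * v₀⁻¹ = v₀⁻¹ * e v₀⁻¹ ^ m * a₀ ^ m := mul_inv_eq_iff_eq_mul.1 (hpow _ hv₀' m)
          have hchoose : (m + 1).choose 2 = m.choose 2 + m := by
            rw [Nat.choose_succ_succ' m 1, Nat.choose_one_right, Nat.add_comm]
          calc n ^ (m + 1) = v₀⁻¹ ^ m * e v₀⁻¹ ^ m.choose 2 * (a₀ ^ m * v₀⁻¹) * a₀ := by
                rw [pow_succ n m, ih, hndef]; simp only [mul_assoc]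
            _ = v₀⁻¹ ^ m * (e v₀⁻¹ ^ m.choose 2 * v₀⁻¹) * e v₀⁻¹ ^ m * (a₀ ^ m * a₀) := by
                rw [h1]; simp only [mul_assoc]
            _ = _ := by
                rw [hVc _ (V.pow_mem hec' _) _ hv₀', hchoose, pow_succ v₀⁻¹ m, pow_succ a₀ m, pow_add]
                simp only [mul_assoc]
      obtain ⟨j, hj⟩ := hp.out.dvd_choose_self (k := 2) two_ne_zero
        (by have := hp.out.two_le; omega)
      rw [hm p, hVp _ hv₀', hj, pow_mul, hVp _ (heV _ hv₀'), one_pow, one_mul, one_mul]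
    exact hnp ▸ hnpV (hnp ▸ hcV)
  · subst hp2
    have hS4 : ¬ Involves (Equiv.Perm (Fin 4)) G := h.resolve_left (fun h' => h' rfl)
    have hsq : ∀ v ∈ V, v * v = 1 := fun v hv => by rw [← sq]; exact hVp v hv
    have hinvV : ∀ v ∈ V, v⁻¹ = v := fun v hv => inv_eq_of_mul_eq_one_right (hsq v hv)
    have hc2 : c * c = 1 := hsq c hcV
    have hec2 : ∀ v ∈ V, e v = 1 ∨ e v = c := by
      intro v hv
      obtain ⟨i, hi⟩ := Subgroup.mem_zpowers_iff.1 (hec v hv)
      rcases Int.even_or_odd' i with ⟨j, rfl | rfl⟩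
      · left; rw [← hi, zpow_mul, zpow_two, hc2, one_zpow]
      · right; rw [← hi, zpow_add, zpow_mul, zpow_two, hc2, one_zpow, one_mul, zpow_one]
    have hn2' : n * n = e v₀⁻¹ * c := by
      rw [hndef, show v₀⁻¹ * a₀ * (v₀⁻¹ * a₀) = v₀⁻¹ * (a₀ * v₀⁻¹ * a₀⁻¹) * (a₀ * a₀) by group,
        hce _ hv₀', show ∀ z : G, v₀⁻¹ * (v₀⁻¹ * z) = (v₀⁻¹ * v₀⁻¹) * z from fun z => (mul_assoc _ _ _).symm,
        hsq _ hv₀', one_mul, ← sq a₀, hc]
    have hn2 : n * n = 1 := by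
      rcases hec2 _ hv₀' with h1 | h1
      · exfalso
        apply hKc
        have hnc : n ^ 2 = c := by rw [sq, hn2', h1, one_mul]
        exact hnc ▸ hnpV (hnc ▸ hcV)
      · rw [hn2', h1, hc2]
    have hni : n⁻¹ = n := inv_eq_of_mul_eq_one_right hn2
    have hn1 : n ∉ V := fun h' => haV (by
      have := V.mul_mem hv₀ h'
      rwa [hndef, mul_inv_cancel_left] at this)
    obtain ⟨x, hx, hnx⟩ := hKn
    set k := x⁻¹ * (n * x * n⁻¹) with hkdef
    have hkK : k ∈ K := K.mul_mem (K.inv_mem hx) ((Subgroup.mem_normalizer_iff.1 hn x).1 hx)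
    have hk1 : k ≠ 1 := fun h' => hnx (inv_mul_eq_one.1 h').symm
    have hkinv : n * k * n⁻¹ = k⁻¹ := by
      rw [hkdef, hni]
      calc n * (x⁻¹ * (n * x * n)) * n = n * x⁻¹ * n * x * (n * n) := by group
        _ = n * x⁻¹ * n * x := by rw [hn2, mul_one]
        _ = (n⁻¹ * x * n⁻¹)⁻¹ * x := by group
        _ = (n * x * n)⁻¹ * x := by rw [hni]
        _ = _ := by group
    have hkodd : Odd (orderOf k) := Nat.coprime_two_right.1 (hKord k hkK)
    set c' := k * c * k⁻¹ with hc'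
    have hc'V : c' ∈ V := hVn.conj_mem c hcV k
    have hkk : k * k = (k * n * k⁻¹) * n := by
      have h1 : n * k⁻¹ * n = k := by
        have h2 := congrArg (·⁻¹) hkinv
        simp only [mul_inv_rev, inv_inv] at h2
        rw [hni] at h2
        rwa [← mul_assoc] at h2
      calc k * k = k * (n * k⁻¹ * n) := by rw [h1]
        _ = _ := by group
    let W : G → Prop := fun w => w = 1 ∨ w = c ∨ w = c' ∨ w = c * c'
    have hdisp2 : ∀ v ∈ V, ∃ w, W w ∧ k * k * v * (k * k)⁻¹ = v * w := by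
      intro v hv
      have hnv : n * v * n⁻¹ ∈ V := hVn.conj_mem v hv n
      have hkv : k⁻¹ * (n * v * n⁻¹) * k⁻¹⁻¹ ∈ V := hVn.conj_mem _ hnv k⁻¹
      rw [inv_inv] at hkv
      refine ⟨e v * (k * e (k⁻¹ * (n * v * n⁻¹) * k) * k⁻¹), ?_, ?_⟩
      · rcases hec2 v hv with h1 | h1 <;> rcases hec2 _ hkv with h2 | h2 <;> rw [h1, h2]
        · exact Or.inl (by group)
        · exact Or.inr (Or.inr (Or.inl (by rw [one_mul])))
        · exact Or.inr (Or.inl (by group))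
        · exact Or.inr (Or.inr (Or.inr rfl))
      · rw [← mul_assoc v, ← hna v hv]
        calc k * k * v * (k * k)⁻¹ = k * n * k⁻¹ * n * v * (k * n * k⁻¹ * n)⁻¹ := by rw [hkk]
          _ = k * (n * (k⁻¹ * (n * v * n⁻¹) * k) * n⁻¹) * k⁻¹ := by group
          _ = k * (k⁻¹ * (n * v * n⁻¹) * k * e (k⁻¹ * (n * v * n⁻¹) * k)) * k⁻¹ := by rw [hna _ hkv]
          _ = _ := by group
    have hkmem : k ∈ Subgroup.zpowers (k * k) := by
      obtain ⟨m, hm⟩ := hkodd
      refine Subgroup.mem_zpowers_iff.2 ⟨(m : ℤ) + 1, ?_⟩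
      rw [show ((m : ℤ) + 1) = ((m + 1 : ℕ) : ℤ) by push_cast; ring, zpow_natCast, ← sq, ← pow_mul,
        show 2 * (m + 1) = orderOf k + 1 by omega, pow_succ, pow_orderOf_eq_one, one_mul]
    -- `k` moves `c`
    have hc'ne : c' ≠ c := by
      intro heq
      apply hk1
      have hkk1 : k * k = 1 := by
        refine htriv _ (K.mul_mem hkK hkK) fun v hv => ?_
        obtain ⟨w, hw, hwv⟩ := hdisp2 v hv
        have hfixc : k * k * c * (k * k)⁻¹ = c := by
          rw [show k * k * c * (k * k)⁻¹ = k * (k * c * k⁻¹) * k⁻¹ by group, ← hc', heq, ← hc', heq]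
        rcases hw with rfl | rfl | rfl | rfl
        · exact ⟨1, V.one_mem, by group, hwv⟩
        · exact ⟨c, hcV, hfixc, hwv⟩
        · exact ⟨c', hc'V, by rw [heq]; exact hfixc, hwv⟩
        · exact ⟨c * c', V.mul_mem hcV hc'V, by rw [heq, hc2]; group, hwv⟩
      rw [hkk1, Subgroup.zpowers_one_eq_bot] at hkmem
      exact Subgroup.mem_bot.1 hkmem
    have hc1 : c ≠ 1 := fun h' => hc'ne (by rw [hc', h']; group)
    set c'' := k * c' * k⁻¹ with hc''
    have hkkc : k * k * c * (k * k)⁻¹ = c'' := by rw [hc'', hc']; group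
    have hc''ne : c'' ≠ c := by
      intro heq
      apply hc'ne
      have hle : Subgroup.zpowers (k * k) ≤ Subgroup.centralizer ({c} : Set G) :=
        Subgroup.zpowers_le.2 (Subgroup.mem_centralizer_singleton_iff.2
          (mul_inv_eq_iff_eq_mul.1 (hkkc.trans heq)))
      rw [hc', Subgroup.mem_centralizer_singleton_iff.1 (hle hkmem), mul_inv_cancel_right]
    have hc''ne' : c'' ≠ c' := fun heq => hc'ne (by
      rw [hc''] at heq
      conv_lhs at heq => rw [hc']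
      calc c' = k⁻¹ * (k * (k * c * k⁻¹) * k⁻¹) * k := by rw [hc']; group
        _ = k⁻¹ * c' * k := by rw [heq]
        _ = c := by rw [hc']; group)
    have hc''1 : c'' ≠ 1 := fun h' => hc1 (by
      rw [← hkkc] at h'; exact conj_eq_one_iff.1 h')
    have hc''eq : c'' = c * c' := by
      obtain ⟨w, hw, hwv⟩ := hdisp2 c hcV
      rw [hkkc] at hwv
      rcases hw with rfl | rfl | rfl | rfl
      · exact absurd (hwv.trans (mul_one c)) hc''ne
      · exact absurd (hwv.trans hc2) hc''1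
      · exact hwv
      · exact absurd (hwv.trans (by rw [← mul_assoc, hc2, one_mul])) hc''ne'
    have hk3c : k ^ 3 * c * (k ^ 3)⁻¹ = c := by
      rw [show k ^ 3 * c * (k ^ 3)⁻¹ = k * c'' * k⁻¹ by rw [hc'', hc', pow_succ, pow_two]; group,
        hc''eq, show k * (c * c') * k⁻¹ = (k * c * k⁻¹) * (k * c' * k⁻¹) by group, ← hc', ← hc'', hc''eq,
        hVc c hcV c' hc'V, ← mul_assoc, hsq c' hc'V, one_mul]
    have hWk : ∀ w, W w → W (k * k * w * (k * k)⁻¹) := by
      have h2 : k * k * c' * (k * k)⁻¹ = c := by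
        rw [show k * k * c' * (k * k)⁻¹ = k ^ 3 * c * (k ^ 3)⁻¹ by rw [hc', pow_succ, pow_two]; group, hk3c]
      intro w hw
      rcases hw with rfl | rfl | rfl | rfl
      · exact Or.inl (by group)
      · exact Or.inr (Or.inr (Or.inr (hkkc.trans hc''eq)))
      · exact Or.inr (Or.inl h2)
      · refine Or.inr (Or.inr (Or.inl ?_))
        rw [show k * k * (c * c') * (k * k)⁻¹ = (k * k * c * (k * k)⁻¹) * (k * k * c' * (k * k)⁻¹) by group,
          hkkc, h2, hc''eq, hVc c hcV c' hc'V, mul_assoc, hc2, mul_one]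
    have hWV : ∀ w, W w → w ∈ V := by
      rintro w (rfl | rfl | rfl | rfl)
      · exact V.one_mem
      · exact hcV
      · exact hc'V
      · exact V.mul_mem hcV hc'V
    have hWmul : ∀ w w', W w → W w' → W (w * w') := by
      have h1 := hsq c' hc'V
      have h3 := hVc c hcV c' hc'V
      have h4 : ∀ z, c * (c * z) = z := fun z => by rw [← mul_assoc, hc2, one_mul]
      have h5 : ∀ z, c' * (c * z) = c * (c' * z) := fun z => by rw [← mul_assoc, ← h3, mul_assoc]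
      rintro w w' (rfl | rfl | rfl | rfl) (rfl | rfl | rfl | rfl) <;>
        simp [W, mul_assoc, hc2, h1, h3.symm, h4, h5]
    have hd6 : k ^ 6 = 1 := by
      refine htriv _ (K.pow_mem hkK 6) fun v hv => ?_
      obtain ⟨w1, hw1, hwv⟩ := hdisp2 v hv
      have hw2 := hWk _ hw1
      have hw3 := hWk _ hw2
      refine ⟨_, hWV _ (hWmul _ _ hw1 (hWmul _ _ hw2 hw3)), ?_, ?_⟩
      · have hfix : ∀ w, W w → k ^ 6 * w * (k ^ 6)⁻¹ = w := by
          have hc6 : k ^ 6 * c * (k ^ 6)⁻¹ = c := by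
            rw [show k ^ 6 * c * (k ^ 6)⁻¹ = k ^ 3 * (k ^ 3 * c * (k ^ 3)⁻¹) * (k ^ 3)⁻¹ by group, hk3c, hk3c]
          have hc6' : k ^ 6 * c' * (k ^ 6)⁻¹ = c' := by
            rw [hc', show k ^ 6 * (k * c * k⁻¹) * (k ^ 6)⁻¹ = k * (k ^ 6 * c * (k ^ 6)⁻¹) * k⁻¹ by group, hc6]
          rintro w (rfl | rfl | rfl | rfl)
          · group
          · exact hc6
          · exact hc6'
          · rw [show k ^ 6 * (c * c') * (k ^ 6)⁻¹ = (k ^ 6 * c * (k ^ 6)⁻¹) * (k ^ 6 * c' * (k ^ 6)⁻¹) by group,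
              hc6, hc6']
        exact hfix _ (hWmul _ _ hw1 (hWmul _ _ hw2 hw3))
      · calc k ^ 6 * v * (k ^ 6)⁻¹ =
            k * k * (k * k * (k * k * v * (k * k)⁻¹) * (k * k)⁻¹) * (k * k)⁻¹ := by
              simp only [pow_succ, pow_zero, one_mul, mul_inv_rev, mul_assoc]
          _ = _ := conj_three hwv
    have hord : orderOf k ∣ 3 := by
      refine (Nat.coprime_two_right.2 hkodd).dvd_of_dvd_mul_right ?_
      exact orderOf_dvd_of_pow_eq_one hd6
    have hk3 : orderOf k = 3 := ((Nat.dvd_prime Nat.prime_three).1 hord).resolve_left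
      (fun h' => hk1 (orderOf_eq_one_iff.1 h'))
    refine hS4 (CfsgLib.Amalgams.involves_perm_four_of_elementary (U := V) hsq
      (P := Subgroup.zpowers k) (IsPGroup.of_card (n := 1) (by rw [Nat.card_zpowers, hk3, pow_one]))
      (z := n) (y := k) ?_ ?_ (Subgroup.mem_zpowers k) (fun hy => hk1 (hKV k hkK (hC hy))) ?_ ?_)
    · obtain ⟨j, -, hj⟩ := (Nat.dvd_prime_pow Nat.prime_two).1
        (show orderOf n ∣ 2 ^ 1 from orderOf_dvd_of_pow_eq_one (by rw [pow_one, sq, hn2]))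
      exact ⟨j, hj⟩
    · refine CfsgLib.CoprimeAction.mem_normalizer_of_conj_mem fun y hy => ?_
      obtain ⟨i, rfl⟩ := Subgroup.mem_zpowers_iff.1 hy
      rw [← conj_zpow, hkinv]
      exact Subgroup.zpow_mem _ (Subgroup.inv_mem _ (Subgroup.mem_zpowers k)) i
    · rw [show k ^ 3 = 1 from hk3 ▸ pow_orderOf_eq_one k]; exact Subgroup.one_mem _
    · rw [hkinv, inv_mul_cancel]; exact Subgroup.one_mem _

/-- A cyclic normal subgroup of a Sylow `p`-subgroup of a `p`-soluble group lies in `O_{p',p}`. -/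
theorem le_pPrimePCore_of_cyclic_normal (hG : IsPSolvable p G) (P : Sylow p G) (A : Subgroup G)
    (hAP : A ≤ (P : Subgroup G)) (hAn : (P : Subgroup G) ≤ Subgroup.normalizer (A : Set G))
    (hA : IsCyclic A) (h : p ≠ 2 ∨ ¬ Involves (Equiv.Perm (Fin 4)) G) : A ≤ pPrimePCore p G := by
  classical
  set O := pPrimeCore p G with hO
  set π := QuotientGroup.mk' O with hπ
  have hπs : Function.Surjective π := QuotientGroup.mk'_surjective O
  set P0 := pCore p (G ⧸ O) with hP0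
  have hP0p : IsPGroup p P0 := isPGroup_pCore p _
  set Φ := (frattini P0).map P0.subtype with hΦ
  haveI hΦn : Φ.Normal := normal_map_subtype P0 _
  have hΦP : Φ ≤ P0 := Subgroup.map_subtype_le _
  set ψ := QuotientGroup.mk' Φ with hψ
  have hψs : Function.Surjective ψ := QuotientGroup.mk'_surjective Φ
  have hcore : (pCore p ((G ⧸ O) ⧸ Φ)).comap ψ = P0 := comap_pCore_quotient Φ (hP0p.to_le hΦP)
  have hmem : ∀ y, ψ y ∈ pCore p ((G ⧸ O) ⧸ Φ) ↔ y ∈ P0 := fun y => by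
    rw [← Subgroup.mem_comap, hcore]
  have hsol := isPSolvable_quotient hG O
  have hO1 : pPrimeCore p (G ⧸ O) = ⊥ := pPrimeCore_quotient_pPrimeCore p
  set C1 := (Subgroup.centralizer (pCore p ((G ⧸ O) ⧸ Φ) : Set ((G ⧸ O) ⧸ Φ))).comap ψ with hC1
  haveI hC1n : C1.Normal := by
    haveI : (Subgroup.centralizer (pCore p ((G ⧸ O) ⧸ Φ) : Set ((G ⧸ O) ⧸ Φ))).Normal :=
      Subgroup.normal_centralizer
    exact Subgroup.Normal.comap inferInstance ψ
  have hC1le : C1 ≤ P0 := by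
    refine le_pCore (fun y => ?_)
    obtain ⟨b, c, hbc, ⟨k, hbk⟩, hc⟩ :=
      CfsgLib.NormalPComplement.exists_pParts (p := p) (isOfFinOrder_of_finite (y : G ⧸ O))
    have hc1 : ((y : G ⧸ O)) ^ c ∈ P0 := by
      refine centralizer_pCore_le hsol hO1 ?_
      refine CfsgLib.CoprimeAction.le_centralizer_of_frattini (A := Subgroup.zpowers ((y : G ⧸ O) ^ c))
        (by rw [Subgroup.normalizer_eq_top_iff.2 (inferInstance : P0.Normal)]; exact le_top) ?_ ?_
        (Subgroup.mem_zpowers _)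
      · obtain ⟨m, hm⟩ := IsPGroup.iff_card.1 (hP0p.to_subgroup (frattini P0))
        rw [Nat.card_zpowers, hm]; exact hc.pow_right m
      · intro z hz x hx
        have hzC : z ∈ C1 := (Subgroup.zpowers_le.2 (C1.pow_mem y.2 c)) hz
        have h2 : ψ x * ψ z = ψ z * ψ x := Subgroup.mem_centralizer_iff.1 hzC _ ((hmem x).2 hx)
        refine (QuotientGroup.eq_one_iff _).1 (show ψ (x⁻¹ * (z * x * z⁻¹)) = 1 from ?_)
        rw [map_mul, map_inv, map_mul, map_mul, map_inv, ← h2, mul_inv_cancel_right, inv_mul_cancel]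
    obtain ⟨j, hj⟩ := IsPGroup.iff_orderOf.1 hP0p ⟨_, hc1⟩
    rw [Subgroup.orderOf_mk] at hj
    have hc0 : (y : G ⧸ O) ^ c = 1 := orderOf_eq_one_iff.1
      (Nat.eq_one_of_dvd_coprimes (hc.pow_right j) dvd_rfl (hj ▸ dvd_rfl))
    refine ⟨k, Subtype.ext ?_⟩
    rw [SubmonoidClass.coe_pow, ← hbc, hc0, mul_one]
    exact orderOf_dvd_iff_pow_eq_one.1 hbk
  set θ := ψ.comp π with hθ
  have hθs : Function.Surjective θ := hψs.comp hπs
  have hmain : A.map θ ≤ pCore p ((G ⧸ O) ⧸ Φ) := by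
    refine le_pCore_of_cyclic_normal (isPSolvable_quotient hsol Φ) ?_ ?_ ?_ (P.mapSurjective hθs) _
      (Subgroup.map_mono hAP) ?_ ?_ ?_
    · intro u hu v hv
      obtain ⟨x, rfl⟩ := hψs u
      obtain ⟨y, rfl⟩ := hψs v
      rw [hmem] at hu hv
      have hc := CfsgLib.PGroups.commutator_le_frattini hP0p (Subgroup.commutator_mem_commutator
        (Subgroup.mem_top (⟨x, hu⟩ : P0)) (Subgroup.mem_top (⟨y, hv⟩ : P0)))
      rw [← commutatorElement_eq_one_iff_mul_comm, ← map_commutatorElement]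
      exact (QuotientGroup.eq_one_iff _).2 ⟨_, hc, rfl⟩
    · intro v hv
      obtain ⟨x, rfl⟩ := hψs v
      rw [hmem] at hv
      rw [← map_pow]
      exact (QuotientGroup.eq_one_iff _).2 ⟨_, CfsgLib.PGroups.pow_mem_frattini hP0p ⟨x, hv⟩, rfl⟩
    · intro u hu
      obtain ⟨x, rfl⟩ := hψs u
      exact (hmem x).2 (hC1le hu)
    · rintro _ ⟨g, hg, rfl⟩
      exact CfsgLib.CoprimeAction.mem_normalizer_of_conj_mem fun z ⟨a, ha, haz⟩ =>
        ⟨g * a * g⁻¹, (Subgroup.mem_normalizer_iff.1 (hAn hg) a).1 ha, by rw [map_mul, map_mul, map_inv, haz]⟩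
    · haveI := hA
      exact isCyclic_of_surjective (θ.subgroupMap A) (θ.subgroupMap_surjective A)
    · refine h.imp_right fun hni hinv => hni ?_
      exact CfsgLib.Amalgams.involves_of_involves_image (θ.comp (⊤ : Subgroup G).subtype) hinv
        fun y => by obtain ⟨g, hg⟩ := hθs y; exact ⟨⟨g, trivial⟩, hg⟩
  intro a ha
  exact (hmem (π a)).1 (hmain ⟨a, ha, rfl⟩)

end CfsgLib.MetacyclicP
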