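import Mathlib
import Cfsg.Agent.Lib.MetacyclicP.FPFGroup
import Cfsg.Agent.Lib.CoprimeAction.Aut

/-!
Fixed-point-free groups of automorphisms: invariant cosets, fixed orbits, and the decomposition of
a module along an abelian invariant normal subgroup.
-/

set_option autoImplicit false

namespace CfsgLib.MetacyclicP

section coset

variable {A H : Type*} [Group A] [Group H] [Finite A] [Finite H]

/-- A fixed-point-free coprime action stays fixed-point-free on invariant left cosets. -/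
theorem mem_of_invariant_coset [Group.IsSolvable A] {φ : A →* MulAut H}
    (hcop : (Nat.card A).Coprime (Nat.card H))
    (hfix : ∀ h, (∀ a, φ a h = h) → h = 1) {K : Subgroup H} (hK : Inv φ K) {h : H}
    (hh : ∀ a, h⁻¹ * φ a h ∈ K) : h ∈ K := by
  obtain ⟨c, hc, hcf⟩ := CfsgLib.CoprimeAction.exists_fixed_mem_coset φ hK
    (hcop.coprime_dvd_right K.card_subgroup_dvd_card) (Or.inl inferInstance) hh
  rw [hfix c hcf, mul_one] at hc
  exact (inv_mem_iff).1 hc

omit [Finite A] [Finite H] in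
/-- The automorphisms acting trivially modulo a normal subgroup are closed under products. -/
theorem trivial_mod_mul (φ : A →* MulAut H) {L : Subgroup H} {a b : A}
    (ha : ∀ h, h⁻¹ * φ a h ∈ L) (hb : ∀ h, h⁻¹ * φ b h ∈ L) (h : H) :
    h⁻¹ * φ (a * b) h ∈ L := by
  rw [map_mul, MulAut.mul_apply,
    show h⁻¹ * φ a (φ b h) = (h⁻¹ * φ b h) * ((φ b h)⁻¹ * φ a (φ b h)) by group]
  exact mul_mem (hb h) (ha _)

omit [Finite A] [Finite H] in
theorem inv_of_trivial_mod {φ : A →* MulAut H} {L : Subgroup H}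
    (h : ∀ a, ∀ x, x⁻¹ * φ a x ∈ L) : Inv φ L := fun a x hx => by
  have := L.mul_mem hx (h a x)
  rwa [mul_inv_cancel_left] at this

end coset

section cover

variable {A H : Type*} [Group A] [Group H] [Finite A] [Finite H]
variable {M : Type*} [AddCommGroup M] [Finite M]
variable {ρ : H →* AddMonoid.End M} {ε : A →* AddMonoid.End M} {φ : A →* MulAut H}

theorem End_sum_apply {ι V : Type*} [AddCommGroup V] (s : Finset ι) (f : ι → AddMonoid.End V)
    (v : V) : (∑ i ∈ s, f i) v = ∑ i ∈ s, f i v :=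
  map_sum (AddMonoidHom.eval (M := V) (N := V) v) f s

/-- The points fixed by `K`. -/
def fixPts (ρ : H →* AddMonoid.End M) (K : Subgroup H) : AddSubgroup M where
  carrier := {v | ∀ k ∈ K, ρ k v = v}
  zero_mem' := fun k _ => map_zero (ρ k)
  add_mem' := fun {v w} hv hw k hk => by rw [map_add, hv k hk, hw k hk]
  neg_mem' := fun {v} hv k hk => by rw [map_neg, hv k hk]

omit [Finite H] [Finite M] in
theorem fixPts_anti {K L : Subgroup H} (h : K ≤ L) : fixPts ρ L ≤ fixPts ρ K :=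
  fun _ hv k hk => hv k (h hk)

/-- `K` carries a constituent of the module. -/
def Occurs (ρ : H →* AddMonoid.End M) (U K : Subgroup H) : Prop :=
  K ≤ U ∧ ¬ fixPts ρ K ≤ ⨆ L : {L : Subgroup H // L ≤ U ∧ K < L}, fixPts ρ L.1

omit [Finite M] in
theorem fixPts_le_occurs (U : Subgroup H) : ∀ K : Subgroup H, K ≤ U →
    fixPts ρ K ≤ ⨆ L : {L : Subgroup H // Occurs ρ U L}, fixPts ρ L.1 := by
  intro K
  induction K using WellFoundedGT.induction with
  | _ K ih =>
    intro hKU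
    by_cases hK : Occurs ρ U K
    · exact le_iSup (fun L : {L : Subgroup H // Occurs ρ U L} => fixPts ρ L.1) ⟨K, hK⟩
    · have h := not_not.1 (fun e => hK ⟨hKU, e⟩)
      exact h.trans (iSup_le fun L => ih L.1 L.2.2 L.2.1)

omit [Finite M] in
/-- An element lying in every occurring subgroup acts trivially. -/
theorem rho_eq_one_of_occurs {U : Subgroup H} {u : H}
    (h : ∀ K, Occurs ρ U K → u ∈ K) : ρ u = 1 := by
  refine AddMonoidHom.ext fun v => ?_
  have hv : v ∈ fixPts ρ (⊥ : Subgroup H) := fun k hk => by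
    rw [Subgroup.mem_bot.1 hk, map_one]; rfl
  have hle : (⨆ L : {L : Subgroup H // Occurs ρ U L}, fixPts ρ L.1) ≤
      fixPts ρ (Subgroup.zpowers u) :=
    iSup_le fun L => fixPts_anti (Subgroup.zpowers_le.2 (h L.1 L.2))
  exact hle (fixPts_le_occurs U ⊥ bot_le hv) u (Subgroup.mem_zpowers u)

omit [Finite H] [Finite M] in
theorem occurs_map (g : H) {U K : Subgroup H} (hU : U.Normal) (hK : Occurs ρ U K) :
    Occurs ρ U (K.map (MulAut.conj g).toMonoidHom) := by
  have hmap : ∀ (g : H) (L : Subgroup H), L ≤ U → L.map (MulAut.conj g).toMonoidHom ≤ U := by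
    rintro g L hL _ ⟨x, hx, rfl⟩
    exact hU.conj_mem x (hL hx) g
  refine ⟨hmap g K hK.1, fun hle => hK.2 fun v hv => ?_⟩
  have hgv : ρ g v ∈ fixPts ρ (K.map (MulAut.conj g).toMonoidHom) := by
    rintro _ ⟨k, hk, rfl⟩
    show ρ (g * k * g⁻¹) (ρ g v) = ρ g v
    show (ρ (g * k * g⁻¹) * ρ g) v = ρ g v
    rw [← map_mul, inv_mul_cancel_right, map_mul]
    exact congrArg (fun z => ρ g z) (hv k hk)
  have h1 : ρ g⁻¹ (ρ g v) ∈ (⨆ L : {L : Subgroup H // L ≤ U ∧
      K.map (MulAut.conj g).toMonoidHom < L}, fixPts ρ L.1).map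
      (show M →+ M from ρ g⁻¹) := AddSubgroup.mem_map_of_mem _ (hle hgv)
  rw [AddSubgroup.map_iSup] at h1
  have hv' : ρ g⁻¹ (ρ g v) = v := by
    show (ρ g⁻¹ * ρ g) v = v
    rw [← map_mul, inv_mul_cancel, map_one]; rfl
  rw [hv'] at h1
  refine (iSup_le fun L => ?_ : _ ≤ ⨆ L : {L : Subgroup H // L ≤ U ∧ K < L}, fixPts ρ L.1) h1
  set L' := L.1.map (MulAut.conj g⁻¹).toMonoidHom
  have hKL : K < L' := by
    refine lt_of_le_of_ne (fun k hk => ?_) (fun e => L.2.2.ne ?_)
    · refine ⟨g * k * g⁻¹, L.2.2.le ⟨k, hk, rfl⟩, ?_⟩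
      show g⁻¹ * (g * k * g⁻¹) * g⁻¹⁻¹ = k
      group
    · conv_lhs => rw [e, Subgroup.map_map]
      conv_rhs => rw [← Subgroup.map_id L.1]
      congr 1
      ext x
      simp [mul_assoc]
  refine le_trans ?_ (le_iSup
    (fun L : {L : Subgroup H // L ≤ U ∧ K < L} => fixPts ρ L.1) ⟨L', hmap g⁻¹ L.1 L.2.1, hKL⟩)
  rintro _ ⟨w, hw, rfl⟩ _ ⟨l, hl, rfl⟩
  show (ρ (g⁻¹ * l * g⁻¹⁻¹) * ρ g⁻¹) w = ρ g⁻¹ w
  rw [← map_mul, inv_inv, mul_assoc, mul_inv_cancel, mul_one, map_mul]
  show ρ g⁻¹ (ρ l w) = _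
  rw [hw l hl]

/-- An occurring subgroup absorbs `[U, a]` for some nontrivial `a`. -/
theorem exists_trivial_mod (hc : Compat ρ ε φ) (hfix : ∀ v, (∀ a, ε a v = v) → v = 0)
    {U K : Subgroup H} (hUc : ∀ x ∈ U, ∀ y ∈ U, x * y = y * x) (hUi : Inv φ U)
    (hu : ∀ D : Subgroup H, D ≤ U → IsUnit (Nat.card D : AddMonoid.End M))
    (hK : Occurs ρ U K) : ∃ a : A, a ≠ 1 ∧ ∀ u ∈ U, u * φ a u⁻¹ ∈ K := by
  classical
  by_contra hcon
  refine hK.2 fun v hv => ?_
  set S := ⨆ L : {L : Subgroup H // L ≤ U ∧ K < L}, fixPts ρ L.1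
  set As := (Set.toFinite ((⊤ : Subgroup A) : Set A)).toFinset
  set Us := (Set.toFinite (U : Set H)).toFinset
  have hN : gsum ε ⊤ = 0 := by
    refine AddMonoidHom.ext fun w => ?_
    exact hfix _ fun a => DFunLike.congr_fun (gsum_mul_left ε (Subgroup.mem_top a)) w
  have hsum : (Nat.card U : AddMonoid.End M) +
      ∑ a ∈ As.erase 1, (∑ β ∈ Us, ρ (β * φ a β⁻¹)) * ε a = 0 := by
    have h0 := fpf_identity hc (⊤ : Subgroup A) U
    rw [hN] at h0
    simp only [mul_zero, zero_mul, Finset.sum_const_zero] at h0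
    rw [← Finset.add_sum_erase _ _
      (show (1 : A) ∈ (Set.toFinite ((⊤ : Subgroup A) : Set A)).toFinset by simp)] at h0
    rw [h0]
    congr 1
    simp [gsum_card]
  -- every term contributes to a larger fixed space
  have hmem : ∀ a : A, a ≠ 1 → gsum ρ K ((∑ β ∈ Us, ρ (β * φ a β⁻¹)) (ε a v)) ∈ S := by
    intro a ha
    obtain ⟨u, hu', huK⟩ : ∃ u ∈ U, u * φ a u⁻¹ ∉ K := by
      by_contra h'
      exact hcon ⟨a, ha, fun u hu' => not_not.1 fun e => h' ⟨u, hu', e⟩⟩
    let D : Subgroup H :=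
      { carrier := {d | ∃ u ∈ U, u * φ a u⁻¹ = d}
        one_mem' := ⟨1, U.one_mem, by simp⟩
        mul_mem' := by
          rintro _ _ ⟨x, hx, rfl⟩ ⟨y, hy, rfl⟩
          refine ⟨x * y, U.mul_mem hx hy, ?_⟩
          rw [mul_inv_rev, map_mul, hUc (φ a y⁻¹) (hUi a _ (U.inv_mem hy)) (φ a x⁻¹)
            (hUi a _ (U.inv_mem hx)), mul_assoc x y, ← mul_assoc y,
            hUc y hy (φ a x⁻¹) (hUi a _ (U.inv_mem hx))]
          simp [mul_assoc]
        inv_mem' := by
          rintro _ ⟨x, hx, rfl⟩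
          refine ⟨x⁻¹, U.inv_mem hx, ?_⟩
          rw [mul_inv_rev, hUc x⁻¹ (U.inv_mem hx) (φ a x⁻¹⁻¹) (hUi a _ (by simpa using hx))]
          simp }
    have hDU : D ≤ U := by
      rintro _ ⟨x, hx, rfl⟩
      exact U.mul_mem hx (hUi a _ (U.inv_mem hx))
    refine le_iSup (fun L : {L : Subgroup H // L ≤ U ∧ K < L} => fixPts ρ L.1)
      ⟨K ⊔ D, sup_le hK.1 hDU, lt_of_le_of_ne le_sup_left fun e => huK
        (e.ge ((le_sup_right : D ≤ K ⊔ D) ⟨u, hu', rfl⟩))⟩ ?_
    set w := (∑ β ∈ Us, ρ (β * φ a β⁻¹)) (ε a v) with hw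
    have hD : ∀ d ∈ D, ρ d w = w := by
      rintro _ ⟨x, hx, rfl⟩
      show (ρ (x * φ a x⁻¹) * ∑ β ∈ Us, ρ (β * φ a β⁻¹)) (ε a v) = w
      refine congrArg (fun f : AddMonoid.End M => f (ε a v)) ?_ |>.trans hw.symm
      rw [Finset.mul_sum]
      refine Finset.sum_bij (fun β _ => x * β) ?_ ?_ ?_ ?_
      · intro β hβ
        simp only [Us, Set.Finite.mem_toFinset, SetLike.mem_coe] at hβ ⊢
        exact U.mul_mem hx hβ
      · intro β _ γ _ e; exact mul_left_cancel e
      · intro β hβ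
        refine ⟨x⁻¹ * β, ?_, by group⟩
        simp only [Us, Set.Finite.mem_toFinset, SetLike.mem_coe] at hβ ⊢
        exact U.mul_mem (U.inv_mem hx) hβ
      · intro β hβ
        simp only [Us, Set.Finite.mem_toFinset, SetLike.mem_coe] at hβ
        rw [← map_mul, mul_inv_rev, map_mul (φ a),
          hUc (φ a β⁻¹) (hUi a _ (U.inv_mem hβ)) (φ a x⁻¹) (hUi a _ (U.inv_mem hx)),
          mul_assoc x β, ← mul_assoc β, hUc β hβ (φ a x⁻¹) (hUi a _ (U.inv_mem hx))]
        simp [mul_assoc]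
    intro y hy
    refine (sup_le ?_ ?_ : K ⊔ D ≤
      ({ carrier := {y | ρ y (gsum ρ K w) = gsum ρ K w}
         one_mem' := by simp
         mul_mem' := fun {x y} hx hy => by
          show ρ (x * y) (gsum ρ K w) = gsum ρ K w
          rw [map_mul]; show ρ x (ρ y _) = _; rw [hy, hx]
         inv_mem' := fun {x} (hx : ρ x _ = _) => by
          show ρ x⁻¹ (gsum ρ K w) = gsum ρ K w
          conv_lhs => rw [← hx]
          show (ρ x⁻¹ * ρ x) _ = _
          rw [← map_mul, inv_mul_cancel, map_one]; rfl } : Subgroup H)) hy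
    · exact fun k hk => DFunLike.congr_fun (gsum_mul_left ρ hk) w
    · intro d hd
      show (ρ d * gsum ρ K) w = _
      rw [← (commute_gsum_of_conj ρ (h := d) fun β hβ => by
        rw [hUc d (hDU hd) β (hK.1 hβ), mul_inv_cancel_right]; exact hβ).eq]
      exact congrArg (fun z => gsum ρ K z) (hD d hd)
  -- the term of the identity element
  have h1 : gsum ρ K ((Nat.card U : AddMonoid.End M) v) ∈ S := by
    have h2 : ((Nat.card U : AddMonoid.End M) +
        ∑ a ∈ As.erase 1, (∑ β ∈ Us, ρ (β * φ a β⁻¹)) * ε a) v = 0 := by rw [hsum]; rfl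
    change (Nat.card U : AddMonoid.End M) v +
      (∑ a ∈ As.erase 1, (∑ β ∈ Us, ρ (β * φ a β⁻¹)) * ε a) v = 0 at h2
    rw [add_eq_zero_iff_eq_neg] at h2
    rw [h2, map_neg, End_sum_apply, map_sum]
    exact S.neg_mem (S.sum_mem fun a ha => hmem a (Finset.ne_of_mem_erase ha))
  have h3 : gsum ρ K ((Nat.card U : AddMonoid.End M) v) = (Nat.card K * Nat.card U) • v := by
    rw [AddMonoid.End.natCast_apply, map_nsmul]
    have : gsum ρ K v = Nat.card K • v := by
      rw [gsum, End_sum_apply, Finset.sum_congr rfl fun k hk => hv k (by simpa using hk),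
        Finset.sum_const, gsum_card]
    rw [this, smul_smul, mul_comm]
  rw [h3] at h1
  -- divide by the unit
  obtain ⟨e, he⟩ := (hu U le_rfl).mul (hu K hK.1)
  have hgen : ∀ n : ℕ, IsUnit (n : AddMonoid.End M) → ∀ x : M, n • x ∈ S → x ∈ S := by
    intro n hn x hx
    have hinj : Function.Injective fun y : S => n • y := by
      intro y z hyz
      refine Subtype.ext ?_
      obtain ⟨i, hi⟩ := hn
      have e1 : ∀ y : M, (↑i⁻¹ : AddMonoid.End M) (n • y) = y := fun y => by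
        rw [← AddMonoid.End.natCast_apply, ← hi]
        show ((↑i⁻¹ : AddMonoid.End M) * ↑i) y = y
        rw [Units.inv_mul]; rfl
      have e2 := congrArg (fun y : S => (↑i⁻¹ : AddMonoid.End M) (y : M)) hyz
      simpa only [AddSubmonoidClass.coe_nsmul, e1] using e2
    obtain ⟨y, hy⟩ := (Finite.injective_iff_surjective.1 hinj) ⟨n • x, hx⟩
    obtain ⟨i, hi⟩ := hn
    have e1 : ∀ y : M, (↑i⁻¹ : AddMonoid.End M) (n • y) = y := fun y => by
      rw [← AddMonoid.End.natCast_apply, ← hi]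
      show ((↑i⁻¹ : AddMonoid.End M) * ↑i) y = y
      rw [Units.inv_mul]; rfl
    have e2 : (n • (y : M)) = n • x := congrArg Subtype.val hy
    have e3 := congrArg (↑i⁻¹ : AddMonoid.End M) e2
    rw [e1, e1] at e3
    exact e3 ▸ y.2
  refine hgen _ ?_ v h1
  rw [Nat.cast_mul, (Nat.cast_commute _ _).eq]
  exact (hu U le_rfl).mul (hu K hK.1)

end cover

end CfsgLib.MetacyclicP
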