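import Mathlib
import Cfsg.Agent.Lib.MetacyclicP.FPFCover
import Cfsg.Agent.Lib.CoprimeAction.Glauberman

/-!
Fixed-point-free `S₃`: orbits in a module all of whose points have nontrivial stabilisers are
trivial, and abelian invariant normal subgroups of a faithfully represented group are central.
-/

set_option autoImplicit false
set_option linter.style.haveILetI false

namespace CfsgLib.MetacyclicP

/-- The rotation. -/
def s3q : Equiv.Perm (Fin 3) := finRotate 3

set_option synthInstance.maxSize 2000 in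
theorem s3_gen : ∀ a b c : Equiv.Perm (Fin 3), a ≠ 1 → b ≠ 1 → ¬ (a ^ 3 = 1 ∧ b ^ 3 = 1) → a ≠ b →
    c = 1 ∨ c = a ∨ c = b ∨ c = a * b ∨ c = b * a ∨ c = a * b * a ∨ c = b * a * b ∨ c = a * a ∨
      c = b * b := by decide

theorem s3_three : ∀ a : Equiv.Perm (Fin 3), a ≠ 1 → a ^ 3 = 1 → a = s3q ∨ a = s3q * s3q := by
  decide

set_option synthInstance.maxSize 2000 in
theorem s3_two : ∀ a : Equiv.Perm (Fin 3), a ≠ 1 → ¬ a ^ 3 = 1 →
    a * a = 1 ∧ a * s3q = s3q * s3q * a ∧ s3q * a * s3q⁻¹ ≠ a ∧ s3q * a * s3q⁻¹ ≠ 1 ∧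
      s3q * s3q * a * (s3q * s3q)⁻¹ ≠ a ∧ s3q * s3q * a * (s3q * s3q)⁻¹ ≠ 1 := by
  decide

theorem s3q_cube : s3q * s3q * s3q = 1 ∧ s3q ≠ 1 ∧ s3q ^ 3 = 1 := by decide

theorem solvable_perm_three : Group.IsSolvable (Equiv.Perm (Fin 3)) := by
  let f : Equiv.Perm (Fin 3) →* ℤˣ := Equiv.Perm.sign
  haveI : Group.IsSolvable f.ker := Group.isSolvable_of_comm fun x y => by
    have h : ∀ a b : Equiv.Perm (Fin 3), Equiv.Perm.sign a = 1 → Equiv.Perm.sign b = 1 →
        a * b = b * a := by decide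
    exact Subtype.ext (h x y x.2 y.2)
  haveI : Group.IsSolvable ℤˣ := Group.isSolvable_of_comm fun a b => mul_comm a b
  exact Group.isSolvable_of_ker_le_range f.ker.subtype f (by rw [Subgroup.range_subtype])

/-- A property closed under products that holds for two generators holds everywhere. -/
theorem s3_closure (P : Equiv.Perm (Fin 3) → Prop) {a b : Equiv.Perm (Fin 3)} (h1 : P 1)
    (hm : ∀ x y, P x → P y → P (x * y)) (ha : P a) (hb : P b) (ha1 : a ≠ 1) (hb1 : b ≠ 1)
    (h3 : ¬ (a ^ 3 = 1 ∧ b ^ 3 = 1)) (hne : a ≠ b) (c : Equiv.Perm (Fin 3)) : P c := by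
  rcases s3_gen a b c ha1 hb1 h3 hne with rfl | rfl | rfl | rfl | rfl | rfl | rfl | rfl | rfl
  · exact h1
  · exact ha
  · exact hb
  · exact hm _ _ ha hb
  · exact hm _ _ hb ha
  · exact hm _ _ (hm _ _ ha hb) ha
  · exact hm _ _ (hm _ _ hb ha) hb
  · exact hm _ _ ha ha
  · exact hm _ _ hb hb

section orbit

variable {A H V : Type*} [Group A] [Group H] [AddCommGroup V]
variable {ρ : H →* AddMonoid.End V} {ε : A →* AddMonoid.End V} {φ : A →* MulAut H}

theorem End_mul_apply (f : A →* AddMonoid.End V) (a b : A) (v : V) :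
    f (a * b) v = f a (f b v) := by rw [map_mul]; rfl

theorem End_one_apply (f : A →* AddMonoid.End V) (v : V) : f 1 v = v := by rw [map_one]; rfl

theorem compat_apply (hc : Compat ρ ε φ) (a : A) (h : H) (v : V) :
    ε a (ρ h v) = ρ (φ a h) (ε a v) :=
  DFunLike.congr_fun (hc a h) v

/-- An orbit invariant under a coprime group of automorphisms has a fixed point. -/
theorem exists_fixed_orbit [Finite A] [Finite H] [Group.IsSolvable A] (hc : Compat ρ ε φ)
    (hcop : (Nat.card A).Coprime (Nat.card H)) {ω : V}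
    (horb : ∀ a, ∃ h, ε a ω = ρ h ω) : ∃ h, ∀ a, ε a (ρ h ω) = ρ h ω := by
  haveI := CfsgLib.CoprimeAction.finite_semidirect φ
  let f : H ⋊[φ] A →* (AddMonoid.End V)ˣ := SemidirectProduct.lift ρ.toHomUnits ε.toHomUnits
    fun g => MonoidHom.ext fun x => by
      show ρ.toHomUnits (φ g x) = ε.toHomUnits g * ρ.toHomUnits x * (ε.toHomUnits g)⁻¹
      rw [eq_mul_inv_iff_mul_eq]
      exact Units.ext (hc g x).symm
  letI : MulAction (H ⋊[φ] A) V :=
    { smul := fun g v => (f g : AddMonoid.End V) v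
      one_smul := fun v => by show (f 1 : AddMonoid.End V) v = v; rw [map_one]; rfl
      mul_smul := fun g g' v => by
        show (f (g * g') : AddMonoid.End V) v = (f g : AddMonoid.End V) ((f g' : AddMonoid.End V) v)
        rw [map_mul]; rfl }
  let i : H →* H ⋊[φ] A := SemidirectProduct.inl
  let j : A →* H ⋊[φ] A := SemidirectProduct.inr
  have hi : ∀ (h : H) (v : V), i h • v = ρ h v := fun h v => by
    show (f (i h) : AddMonoid.End V) v = _
    rw [SemidirectProduct.lift_inl]; rfl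
  have hj : ∀ (a : A) (v : V), j a • v = ε a v := fun a v => by
    show (f (j a) : AddMonoid.End V) v = _
    rw [SemidirectProduct.lift_inr]; rfl
  haveI : (i.range).Normal := by
    rw [SemidirectProduct.range_inl_eq_ker_rightHom]; exact MonoidHom.normal_ker _
  obtain ⟨k, ⟨h, rfl⟩, hk⟩ := CfsgLib.CoprimeAction.exists_fixed (A := j.range) (K := i.range)
    (ω := ω) (by rw [Subgroup.normalizer_eq_top]; exact le_top)
    (by
      rwa [← Nat.card_congr (MonoidHom.ofInjective (f := j) SemidirectProduct.inr_injective).toEquiv,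
        ← Nat.card_congr (MonoidHom.ofInjective (f := i) SemidirectProduct.inl_injective).toEquiv])
    (Or.inl (Group.isSolvable_of_surjective j.rangeRestrict_surjective))
    (by
      rintro _ ⟨a, rfl⟩
      obtain ⟨h, hh⟩ := horb a
      exact ⟨i h, ⟨h, rfl⟩, by rw [hi, hj, hh]⟩)
  refine ⟨h, fun a => ?_⟩
  have := hk (j a) ⟨a, rfl⟩
  rwa [hi, hj] at this

end orbit

section s3

variable {H V : Type*} [Group H] [Finite H] [AddCommGroup V]
variable {ρ : H →* AddMonoid.End V} {ε : Equiv.Perm (Fin 3) →* AddMonoid.End V}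
  {φ : Equiv.Perm (Fin 3) →* MulAut H}

/-- The stabiliser of a vector. -/
def vecStab (ρ : H →* AddMonoid.End V) (ω : V) : Subgroup H where
  carrier := {h | ρ h ω = ω}
  one_mem' := End_one_apply ρ ω
  mul_mem' := fun {a b} (ha : ρ a ω = ω) (hb : ρ b ω = ω) => show ρ (a * b) ω = ω by
    rw [End_mul_apply, hb, ha]
  inv_mem' := fun {a} (ha : ρ a ω = ω) => show ρ a⁻¹ ω = ω by
    conv_lhs => rw [← ha]
    rw [← End_mul_apply, inv_mul_cancel, End_one_apply]

/-- The elements fixing a whole orbit. -/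
def orbStab (ρ : H →* AddMonoid.End V) (ω : V) : Subgroup H :=
  ⨅ h : H, vecStab ρ (ρ h ω)

omit [Finite H] in
theorem mem_orbStab {ω : V} {k : H} : k ∈ orbStab ρ ω ↔ ∀ h, ρ k (ρ h ω) = ρ h ω :=
  Subgroup.mem_iInf

omit [Finite H] in
theorem orbStab_normal (ω : V) : (orbStab ρ ω).Normal := ⟨fun k hk g => mem_orbStab.2 fun h => by
  rw [End_mul_apply, End_mul_apply, ← End_mul_apply ρ g⁻¹ h, mem_orbStab.1 hk, ← End_mul_apply,
    mul_inv_cancel_left]⟩

variable (hc : Compat ρ ε φ) (hfix : ∀ v, (∀ a, ε a v = v) → v = 0)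
  (hcop : (Nat.card (Equiv.Perm (Fin 3))).Coprime (Nat.card H))
  (hfixH : ∀ h, (∀ a, φ a h = h) → h = 1)

include hc hfix hcop hfixH

/-- Points with nontrivial stabilisers throughout their orbit are fixed. -/
theorem orbit_fixed_s3 {ω : V} (hstab : ∀ h, ∃ a, a ≠ 1 ∧ ε a (ρ h ω) = ρ h ω) :
    ∀ h, ρ h ω = ω := by
  haveI : Group.IsSolvable (Equiv.Perm (Fin 3)) := solvable_perm_three
  by_cases hω : ω = 0
  · subst hω; intro h; exact map_zero (ρ h)
  obtain ⟨a, ha1, ha⟩ := hstab 1
  rw [End_one_apply] at ha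
  -- any two stabilisers are of the same type
  have hpair : ∀ h b, b ≠ 1 → ε b (ρ h ω) = ρ h ω → (a ^ 3 = 1 ∧ b ^ 3 = 1) ∨ a = b := by
    intro h b hb1 hb
    by_contra hcon
    push Not at hcon
    have horb : ∀ c, ∃ g, ε c ω = ρ g ω := by
      refine s3_closure _ ⟨1, by rw [End_one_apply, End_one_apply]⟩ ?_ ⟨1, by rw [ha, End_one_apply]⟩ ?_
        ha1 hb1 (fun e => hcon.1 e.1 e.2) hcon.2
      · rintro x y ⟨g, hg⟩ ⟨g', hg'⟩
        exact ⟨φ x g' * g, by rw [End_mul_apply, hg', compat_apply hc, hg, ← End_mul_apply]⟩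
      · refine ⟨φ b h⁻¹ * h, ?_⟩
        rw [End_mul_apply, ← hb, ← compat_apply hc, ← End_mul_apply ρ, inv_mul_cancel, End_one_apply]
    obtain ⟨g, hg⟩ := exists_fixed_orbit hc hcop horb
    apply hω
    have h0 : ρ g ω = 0 := hfix _ hg
    rw [← End_one_apply ρ ω, ← inv_mul_cancel g, End_mul_apply, h0, map_zero]
  by_cases h3 : a ^ 3 = 1
  · -- the rotation fixes the whole orbit
    have hq : ∀ h, ε s3q (ρ h ω) = ρ h ω := by
      intro h
      obtain ⟨b, hb1, hb⟩ := hstab h
      have hb3 : b ^ 3 = 1 := by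
        rcases hpair h b hb1 hb with e | e
        · exact e.2
        · exact e ▸ h3
      rcases s3_three b hb1 hb3 with rfl | rfl
      · exact hb
      · conv_lhs => rw [← hb]
        rw [← End_mul_apply ε, ← mul_assoc, s3q_cube.1, End_one_apply]
    set p : Equiv.Perm (Fin 3) := Equiv.swap 0 1
    have hp : p ≠ 1 ∧ ¬ (s3q ^ 3 = 1 ∧ p ^ 3 = 1) ∧ s3q ≠ p ∧ p * p = 1 ∧
        s3q * p = p * (s3q * s3q) := by decide
    have hneg : ∀ h, ε p (ρ h ω) = - ρ h ω := by
      intro h
      rw [eq_neg_iff_add_eq_zero]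
      refine hfix _ (s3_closure _ (End_one_apply ε _) (fun x y hx hy => ?_) ?_ ?_
        s3q_cube.2.1 hp.1 hp.2.1 hp.2.2.1)
      · rw [End_mul_apply, hy, hx]
      · rw [map_add, ← End_mul_apply ε, hp.2.2.2.2, End_mul_apply, End_mul_apply, hq, hq]
      · rw [map_add, ← End_mul_apply ε, hp.2.2.2.1, End_one_apply, add_comm]
    have hω' : ε p ω = -ω := by simpa [End_one_apply] using hneg 1
    have hqω : ε s3q ω = ω := by simpa [End_one_apply] using hq 1
    -- every generator acts trivially modulo the stabiliser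
    intro h
    have hmod : ∀ c, ∀ x, x⁻¹ * φ c x ∈ vecStab ρ ω := by
      refine s3_closure _ (fun x => ?_) (fun x y hx hy => trivial_mod_mul φ hx hy) ?_ ?_
        s3q_cube.2.1 hp.1 hp.2.1 hp.2.2.1
      · simp
      · intro x
        show ρ (x⁻¹ * φ s3q x) ω = ω
        have e := compat_apply hc s3q x ω
        rw [hq, hqω] at e
        rw [End_mul_apply, ← e, ← End_mul_apply, inv_mul_cancel, End_one_apply]
      · intro x
        show ρ (x⁻¹ * φ p x) ω = ω
        have e := compat_apply hc p x ω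
        rw [hneg, hω', map_neg, neg_inj] at e
        rw [End_mul_apply, ← e, ← End_mul_apply, inv_mul_cancel, End_one_apply]
    exact mem_of_invariant_coset hcop hfixH (inv_of_trivial_mod hmod) fun c => hmod c h
  · -- the involution fixes the whole orbit
    obtain ⟨haa, haq, hne1, hne2, hne3, hne4⟩ := s3_two a ha1 h3
    have hall : ∀ h, ε a (ρ h ω) = ρ h ω := by
      intro h
      obtain ⟨b, hb1, hb⟩ := hstab h
      rcases hpair h b hb1 hb with e | e
      · exact absurd e.1 h3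
      · rw [← e] at hb; exact hb
    set q := s3q
    set b := q * a * q⁻¹
    set ω₁ := ε q ω
    set ω₂ := ε (q * q) ω
    -- the conjugate involution fixes the second orbit
    have hb1 : ∀ h, ε b (ρ h ω₁) = ρ h ω₁ := by
      intro h
      have e : ρ h ω₁ = ε q (ρ (φ q⁻¹ h) ω) := by
        rw [compat_apply hc, ← MulAut.mul_apply, ← map_mul φ, mul_inv_cancel, map_one,
          MulAut.one_apply]
      rw [e, ← End_mul_apply ε, inv_mul_cancel_right, End_mul_apply, hall]
    have hb2 : ∀ h, ε (q * q * a * (q * q)⁻¹) (ρ h ω₂) = ρ h ω₂ := by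
      intro h
      have e : ρ h ω₂ = ε (q * q) (ρ (φ (q * q)⁻¹ h) ω) := by
        rw [compat_apply hc, ← MulAut.mul_apply, ← map_mul φ, mul_inv_cancel, map_one,
          MulAut.one_apply]
      rw [e, ← End_mul_apply ε, inv_mul_cancel_right, End_mul_apply, hall]
    have hN0 : ∀ x, x⁻¹ * φ a x ∈ orbStab ρ ω := fun x => mem_orbStab.2 fun h => by
      have e := compat_apply hc a x (ρ h ω)
      rw [hall, ← End_mul_apply, hall] at e
      rw [End_mul_apply, ← e, ← End_mul_apply ρ x⁻¹, inv_mul_cancel_left]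
    have hN1 : ∀ x, x⁻¹ * φ b x ∈ orbStab ρ ω₁ := fun x => mem_orbStab.2 fun h => by
      have e := compat_apply hc b x (ρ h ω₁)
      rw [hb1, ← End_mul_apply, hb1] at e
      rw [End_mul_apply, ← e, ← End_mul_apply ρ x⁻¹, inv_mul_cancel_left]
    haveI := orbStab_normal (ρ := ρ) ω
    haveI := orbStab_normal (ρ := ρ) ω₁
    set L := orbStab ρ ω ⊔ orbStab ρ ω₁
    have hL : ∀ c, ∀ x, x⁻¹ * φ c x ∈ L :=
      s3_closure _ (fun x => by simp) (fun x y hx hy => trivial_mod_mul φ hx hy)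
        (fun x => (le_sup_left : orbStab ρ ω ≤ L) (hN0 x))
        (fun x => (le_sup_right : orbStab ρ ω₁ ≤ L) (hN1 x))
        ha1 hne2 (fun e => h3 e.1) (Ne.symm hne1)
    -- the second orbit stabiliser fixes `ω`
    have hs : ω + ω₁ + ω₂ = 0 := by
      refine hfix _ (s3_closure _ (End_one_apply ε _) (fun x y hx hy => ?_) ?_ ?_
        s3q_cube.2.1 ha1 (fun e => h3 e.2) (fun e => h3 (e ▸ s3q_cube.2.2)))
      · rw [End_mul_apply, hy, hx]
      · rw [map_add, map_add, ← End_mul_apply ε, ← End_mul_apply ε, ← mul_assoc, s3q_cube.1,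
          End_one_apply, add_comm (ε q ω + ε (q * q) ω) ω, ← add_assoc]
      · have e1 : a * (q * q) = q * a := by
          have hq3 : q * q * q = 1 := s3q_cube.1
          rw [← mul_assoc, haq, mul_assoc, haq]
          simp only [← mul_assoc, hq3, one_mul]
        rw [map_add, map_add, ← End_mul_apply ε, ← End_mul_apply ε, haq, e1, End_mul_apply _ _ a,
          End_mul_apply _ _ a, ha]
        abel
    have hK1 : ∀ k ∈ orbStab ρ ω₁, ρ k ω = ω := by
      intro k hk
      rw [← sub_eq_zero]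
      refine hfix _ (s3_closure _ (End_one_apply ε _) (fun x y hx hy => ?_) ?_ ?_
        ha1 hne4 (fun e => h3 e.1) (Ne.symm hne3))
      · rw [End_mul_apply, hy, hx]
      · rw [map_sub, hall, ha]
      · have hk1 : ρ k ω₁ = ω₁ := by simpa [End_one_apply] using mem_orbStab.1 hk 1
        have e1 : ρ k ω + ω₁ + ρ k ω₂ = 0 := by
          have := congrArg (fun v => ρ k v) hs
          simpa [map_add, hk1] using this
        have e2 : ρ k ω - ω = ω₂ - ρ k ω₂ := by
          rw [sub_eq_sub_iff_add_eq_add]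
          calc ρ k ω + ρ k ω₂ = (ρ k ω + ω₁ + ρ k ω₂) - ω₁ := by abel
            _ = (ω + ω₁ + ω₂) - ω₁ := by rw [e1, hs]
            _ = ω₂ + ω := by abel
        rw [e2, map_sub, hb2]
        congr 1
        simpa [End_one_apply] using hb2 1
    intro h
    have hh : h ∈ L := mem_of_invariant_coset hcop hfixH (inv_of_trivial_mod hL) fun c => hL c h
    obtain ⟨k₀, hk₀, k₁, hk₁, rfl⟩ := Subgroup.mem_sup_of_normal_left.1 hh
    rw [End_mul_apply, hK1 k₁ hk₁]
    simpa [End_one_apply] using mem_orbStab.1 hk₀ 1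

end s3

section dual

variable {X U : Type*} [Group X] [Group U]

/-- The linear characters of a group, written additively. -/
def LinChar (U : Type*) [Group U] := Additive (U →* ℂˣ)

noncomputable instance : AddCommGroup (LinChar U) :=
  inferInstanceAs (AddCommGroup (Additive (U →* ℂˣ)))

/-- The contragredient action on the linear characters. -/
noncomputable def dualEnd (ψ : X →* MulAut U) :
    X →* AddMonoid.End (LinChar U) where
  toFun x :=
    { toFun := fun w => Additive.ofMul ((Additive.toMul w).comp (ψ x⁻¹).toMonoidHom)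
      map_zero' := rfl
      map_add' := fun _ _ => rfl }
  map_one' := by
    refine AddMonoidHom.ext fun w => ?_
    show Additive.ofMul ((Additive.toMul w).comp (ψ (1 : X)⁻¹).toMonoidHom) = w
    rw [inv_one, map_one]; rfl
  map_mul' x y := by
    refine AddMonoidHom.ext fun w => ?_
    show Additive.ofMul ((Additive.toMul w).comp (ψ (x * y)⁻¹).toMonoidHom) = _
    rw [mul_inv_rev, map_mul]; rfl

theorem dualEnd_apply (ψ : X →* MulAut U) (x : X) (w : LinChar U) (u : U) :
    Additive.toMul (dualEnd ψ x w) u = Additive.toMul w (ψ x⁻¹ u) := rfl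

end dual

section center

variable {H M : Type*} [Group H] [Finite H] [AddCommGroup M] [Finite M]
variable {ρ : H →* AddMonoid.End M} {ε : Equiv.Perm (Fin 3) →* AddMonoid.End M}
  {φ : Equiv.Perm (Fin 3) →* MulAut H}

/-- An abelian invariant normal subgroup of coprime order is central. -/
theorem center_of_abelian_normal_s3 (hc : Compat ρ ε φ) (hinj : Function.Injective ρ)
    (hfix : ∀ v, (∀ a, ε a v = v) → v = 0) (hfixH : ∀ h, (∀ a, φ a h = h) → h = 1)
    (hcop : (Nat.card (Equiv.Perm (Fin 3))).Coprime (Nat.card H))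
    {U : Subgroup H} (hUn : U.Normal) (hUi : Inv φ U) (hUc : ∀ x ∈ U, ∀ y ∈ U, x * y = y * x)
    (hu : ∀ D : Subgroup H, D ≤ U → IsUnit (Nat.card D : AddMonoid.End M)) :
    U ≤ Subgroup.center H := by
  intro u hu'
  rw [Subgroup.mem_center_iff]
  intro h
  haveI := hUn
  set ρ' := dualEnd (MulAut.conjNormal : H →* MulAut U)
  set ε' := dualEnd (restrictAct φ U hUi)
  have hc' : Compat ρ' ε' φ := by
    intro a x
    refine AddMonoidHom.ext fun w => congrArg Additive.ofMul (MonoidHom.ext fun y => ?_)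
    show Additive.toMul w (MulAut.conjNormal x⁻¹ (restrictAct φ U hUi a⁻¹ y)) =
      Additive.toMul w (restrictAct φ U hUi a⁻¹ (MulAut.conjNormal (φ a x)⁻¹ y))
    congr 1
    refine Subtype.ext (?_ : _ = _)
    show _ = φ a⁻¹ ((MulAut.conjNormal (φ a x)⁻¹ y : U) : H)
    rw [MulAut.conjNormal_apply, MulAut.conjNormal_apply]
    show x⁻¹ * φ a⁻¹ (y : H) * x⁻¹⁻¹ = _
    simp only [map_mul (φ a⁻¹), map_inv (φ a⁻¹), ← MulAut.mul_apply, ← map_mul φ, inv_mul_cancel,
      map_one φ, MulAut.one_apply]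
  haveI : Group.IsSolvable U := Group.isSolvable_of_comm fun x y =>
    Subtype.ext (hUc _ x.2 _ y.2)
  have hfix' : ∀ w, (∀ a, ε' a w = w) → w = 0 := by
    intro w hw
    have hker : ∀ (a : Equiv.Perm (Fin 3)) (y : U),
        Additive.toMul w (restrictAct φ U hUi a y) = Additive.toMul w y := by
      intro a y
      have := DFunLike.congr_fun (congrArg Additive.toMul (hw a⁻¹)) y
      rwa [dualEnd_apply, inv_inv] at this
    refine (Additive.toMul (α := U →* ℂˣ)).injective (MonoidHom.ext fun y => ?_)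
    set K := (Additive.toMul w : U →* ℂˣ).ker.map U.subtype
    have hKi : Inv φ K := by
      rintro a _ ⟨z, hz, rfl⟩
      exact ⟨restrictAct φ U hUi a z, (hker a z).trans hz, rfl⟩
    haveI : Group.IsSolvable (Equiv.Perm (Fin 3)) := solvable_perm_three
    obtain ⟨z, hz, hzy⟩ := mem_of_invariant_coset hcop hfixH hKi (h := (y : H)) fun a =>
      ⟨y⁻¹ * restrictAct φ U hUi a y, by
        show Additive.toMul w (y⁻¹ * restrictAct φ U hUi a y) = 1
        rw [map_mul, map_inv, hker, inv_mul_cancel], rfl⟩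
    rw [← show z = y from Subtype.ext hzy]
    exact hz
  by_contra hne
  -- a character separating the commutator from an occurring subgroup
  have hd : h * u * h⁻¹ * u⁻¹ ∈ U := U.mul_mem (hUn.conj_mem u hu' h) (U.inv_mem hu')
  obtain ⟨K, hK, hdK⟩ : ∃ K, Occurs ρ U K ∧ h * u * h⁻¹ * u⁻¹ ∉ K := by
    by_contra hcon
    push Not at hcon
    have e := rho_eq_one_of_occurs (ρ := ρ) (U := U) hcon
    rw [← map_one ρ] at e
    exact hne (mul_inv_eq_iff_eq_mul.1 (mul_inv_eq_one.1 (hinj e)))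
  letI : CommGroup U := { (inferInstance : Group U) with
    mul_comm := fun x y => Subtype.ext (hUc _ x.2 _ y.2) }
  set K' := K.subgroupOf U
  haveI : HasEnoughRootsOfUnity ℂ (Monoid.exponent (U ⧸ K')) := inferInstance
  have hd1 : ((⟨_, hd⟩ : U) : U ⧸ K') ≠ 1 := fun e =>
    hdK (Subgroup.mem_subgroupOf.1 ((QuotientGroup.eq_one_iff _).1 e))
  obtain ⟨χ, hχ⟩ := CommGroup.exists_apply_ne_one_of_hasEnoughRootsOfUnity (U ⧸ K') ℂ hd1
  set w : LinChar U := Additive.ofMul (χ.comp (QuotientGroup.mk' K'))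
  have hstab : ∀ g, ∃ a, a ≠ 1 ∧ ε' a (ρ' g w) = ρ' g w := by
    intro g
    obtain ⟨a, ha, hau⟩ :=
      exists_trivial_mod hc hfix hUc hUi hu (occurs_map g hUn hK)
    refine ⟨a⁻¹, inv_ne_one.2 ha, ?_⟩
    refine congrArg Additive.ofMul (MonoidHom.ext fun y => ?_)
    show χ (QuotientGroup.mk' K' (MulAut.conjNormal g⁻¹ (restrictAct φ U hUi a⁻¹⁻¹ y))) =
      χ (QuotientGroup.mk' K' (MulAut.conjNormal g⁻¹ y))
    rw [inv_inv]
    congr 1
    rw [eq_comm, QuotientGroup.mk'_apply, QuotientGroup.mk'_apply, QuotientGroup.eq,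
      Subgroup.mem_subgroupOf]
    obtain ⟨k, hk, hkk⟩ := hau ((y : H)⁻¹) (U.inv_mem y.2)
    have hk' : g * k * g⁻¹ = (y : H)⁻¹ * φ a y := by simpa using hkk
    have : k = g⁻¹ * ((y : H)⁻¹ * φ a y) * g := by rw [← hk']; group
    simp only [Subgroup.coe_mul, InvMemClass.coe_inv, MulAut.conjNormal_apply, inv_inv]
    rw [show (g⁻¹ * (y : H) * g)⁻¹ * (g⁻¹ * ((restrictAct φ U hUi a y : U) : H) * g) =
      g⁻¹ * ((y : H)⁻¹ * φ a y) * g by
        show (g⁻¹ * (y : H) * g)⁻¹ * (g⁻¹ * φ a y * g) = _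
        group, ← this]
    exact hk
  have h1 := orbit_fixed_s3 hc' hfix' hcop hfixH hstab h⁻¹
  have h2 := DFunLike.congr_fun (congrArg Additive.toMul h1) ⟨u, hu'⟩
  rw [dualEnd_apply, inv_inv] at h2
  apply hχ
  show Additive.toMul w ⟨_, hd⟩ = 1
  have e : (⟨_, hd⟩ : U) = MulAut.conjNormal h ⟨u, hu'⟩ * (⟨u, hu'⟩ : U)⁻¹ :=
    Subtype.ext (by simp [MulAut.conjNormal_apply])
  rw [e, map_mul, map_inv, h2, mul_inv_cancel]

end center

end CfsgLib.MetacyclicP
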