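import Mathlib
import Cfsg.Agent.Lib.MetacyclicP.FPFS3Orbit
import Cfsg.Agent.Lib.BGRep.Weights

/-!
Fixed-point-free groups of order `p * q` (nonabelian): generalities, the orbit lemma, and the
centralisation of abelian groups.
-/

set_option autoImplicit false
set_option linter.style.haveILetI false

namespace CfsgLib.MetacyclicP

/-- A nonabelian group of order `p * q`, `p < q` primes. -/
structure PQ (A : Type*) [Group A] (p q : ℕ) : Prop where
  prime_p : p.Prime
  prime_q : q.Prime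
  lt : p < q
  card : Nat.card A = p * q
  na : ¬ IsMulCommutative A

section pq

variable {A : Type*} [Group A] [Finite A] {p q : ℕ}

omit [Finite A] in
theorem PQ.card_cases (hA : PQ A p q) {S : Subgroup A} (hb : S ≠ ⊥) (ht : S ≠ ⊤) :
    Nat.card S = p ∨ Nat.card S = q := by
  haveI : Finite A := Nat.finite_of_card_ne_zero (by
    rw [hA.card]; exact Nat.mul_ne_zero hA.prime_p.ne_zero hA.prime_q.ne_zero)
  have h := S.card_subgroup_dvd_card
  rw [hA.card, Nat.dvd_mul] at h
  obtain ⟨d, e, hd, he, hde⟩ := h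
  rcases (Nat.dvd_prime hA.prime_p).1 hd with rfl | rfl <;>
    rcases (Nat.dvd_prime hA.prime_q).1 he with rfl | rfl
  · exact absurd (Subgroup.card_eq_one.1 hde.symm) hb
  · exact Or.inr (by rw [← hde, one_mul])
  · exact Or.inl (by rw [← hde, mul_one])
  · exact absurd ((Subgroup.card_eq_iff_eq_top S).1 (by rw [hA.card, hde])) ht

omit [Finite A] in
theorem PQ.normal_q (hA : PQ A p q) {S : Subgroup A} (h : Nat.card S = q) : S.Normal := by
  refine Subgroup.normal_of_index_eq_minFac_card ?_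
  have h1 := S.card_mul_index
  rw [h, hA.card, mul_comm p q] at h1
  rw [Nat.eq_of_mul_eq_mul_left hA.prime_q.pos h1]
  refine le_antisymm ?_ (Nat.minFac_le_of_dvd hA.prime_p.two_le (by rw [hA.card]; exact dvd_mul_right p q))
  have hne : Nat.card A ≠ 1 := by
    rw [hA.card]
    exact fun e => hA.prime_p.ne_one (Nat.eq_one_of_mul_eq_one_right e)
  have h2 := Nat.minFac_prime hne
  have h3 := Nat.minFac_dvd (Nat.card A)
  generalize Nat.minFac (Nat.card A) = m at h2 h3 ⊢
  rw [hA.card] at h3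
  rcases h2.dvd_mul.1 h3 with h4 | h4
  · exact ((Nat.prime_dvd_prime_iff_eq h2 hA.prime_p).1 h4).ge
  · exact ((Nat.prime_dvd_prime_iff_eq h2 hA.prime_q).1 h4) ▸ hA.lt.le

theorem PQ.eq_of_card_q (hA : PQ A p q) {S T : Subgroup A} (hS : Nat.card S = q)
    (hT : Nat.card T = q) : S = T := by
  haveI := hA.normal_q hS
  symm
  refine Subgroup.eq_of_le_of_card_ge ?_ (by rw [hS, hT])
  have h1 : Nat.card (T.map (QuotientGroup.mk' S)) ∣ q := hT ▸ Subgroup.card_map_dvd T _
  have h2 : Nat.card (T.map (QuotientGroup.mk' S)) ∣ p := by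
    have h3 := (T.map (QuotientGroup.mk' S)).card_subgroup_dvd_card
    have h4 := S.card_eq_card_quotient_mul_card_subgroup
    rw [hS, hA.card] at h4
    rwa [← Nat.eq_of_mul_eq_mul_right hA.prime_q.pos h4] at h3
  have h5 := Nat.eq_one_of_dvd_coprimes
    ((Nat.coprime_primes hA.prime_p hA.prime_q).2 hA.lt.ne) h2 h1
  rwa [Subgroup.card_eq_one, Subgroup.map_eq_bot_iff, QuotientGroup.ker_mk'] at h5

theorem PQ.sup_eq_top (hA : PQ A p q) {S T : Subgroup A} (hS : S ≠ ⊥) (hT : T ≠ ⊥)
    (hne : S ≠ T) : S ⊔ T = ⊤ := by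
  by_contra h
  have hS' : S ≠ ⊤ := fun e => h (by rw [e, top_sup_eq])
  have hT' : T ≠ ⊤ := fun e => h (by rw [e, sup_top_eq])
  have h3 := hA.card_cases (fun e => hS (le_bot_iff.1 (e ▸ le_sup_left))) h
  have e : ∀ R : Subgroup A, R ≤ S ⊔ T → R ≠ ⊥ → R ≠ ⊤ → R = S ⊔ T := by
    intro R hR hb ht
    refine Subgroup.eq_of_le_of_card_ge hR (le_of_eq ?_)
    have hd := Subgroup.card_dvd_of_le hR
    rcases h3 with h3 | h3 <;> rcases hA.card_cases hb ht with h4 | h4 <;> rw [h3, h4] at hd <;>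
      rw [h3, h4]
    · exact absurd ((Nat.prime_dvd_prime_iff_eq hA.prime_q hA.prime_p).1 hd) hA.lt.ne'
    · exact absurd ((Nat.prime_dvd_prime_iff_eq hA.prime_p hA.prime_q).1 hd) hA.lt.ne
  exact hne ((e S le_sup_left hS hS').trans (e T le_sup_right hT hT').symm)

theorem PQ.exists_q (hA : PQ A p q) : ∃ Q : Subgroup A, Nat.card Q = q := by
  haveI := Fact.mk hA.prime_q
  obtain ⟨x, hx⟩ := exists_prime_orderOf_dvd_card' (G := A) q (by rw [hA.card]; exact dvd_mul_left q p)
  exact ⟨Subgroup.zpowers x, by rw [Nat.card_zpowers, hx]⟩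

theorem PQ.exists_p (hA : PQ A p q) : ∃ P : Subgroup A, Nat.card P = p := by
  haveI := Fact.mk hA.prime_p
  obtain ⟨x, hx⟩ := exists_prime_orderOf_dvd_card' (G := A) p (by rw [hA.card]; exact dvd_mul_right p q)
  exact ⟨Subgroup.zpowers x, by rw [Nat.card_zpowers, hx]⟩

omit [Finite A] in
theorem PQ.ne_bot_of_card (hA : PQ A p q) {S : Subgroup A}
    (h : Nat.card S = p ∨ Nat.card S = q) : S ≠ ⊥ := by
  rintro rfl
  rw [Subgroup.card_bot] at h
  rcases h with h | h
  · exact hA.prime_p.ne_one h.symm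
  · exact hA.prime_q.ne_one h.symm

omit [Finite A] in
theorem PQ.ne_of_card (hA : PQ A p q) {S T : Subgroup A} (hS : Nat.card S = p)
    (hT : Nat.card T = q) : S ≠ T := fun e => hA.lt.ne (by rw [← hS, e, hT])

theorem PQ.isSolvable (hA : PQ A p q) : Group.IsSolvable A := by
  obtain ⟨Q, hQ⟩ := hA.exists_q
  haveI := hA.normal_q hQ
  haveI := Fact.mk hA.prime_p
  haveI := Fact.mk hA.prime_q
  haveI := isCyclic_of_prime_card hQ
  have h4 := Q.card_eq_card_quotient_mul_card_subgroup
  rw [hQ, hA.card] at h4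
  haveI := isCyclic_of_prime_card (Nat.eq_of_mul_eq_mul_right hA.prime_q.pos h4).symm
  haveI : IsMulCommutative Q := IsCyclic.isMulCommutative
  haveI : IsMulCommutative (A ⧸ Q) := IsCyclic.isMulCommutative
  haveI : Group.IsSolvable Q := Group.isSolvable_of_comm fun a b => mul_comm' a b
  haveI : Group.IsSolvable (A ⧸ Q) := Group.isSolvable_of_comm fun a b => mul_comm' a b
  exact Group.isSolvable_of_ker_le_range Q.subtype (QuotientGroup.mk' Q)
    (by rw [QuotientGroup.ker_mk', Subgroup.range_subtype])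

/-- A complement does not centralise the normal subgroup of order `q`. -/
theorem PQ.not_comm (hA : PQ A p q) {P Q : Subgroup A} (hP : Nat.card P = p) (hQ : Nat.card Q = q) :
    ¬ ∀ b ∈ P, ∀ x ∈ Q, b * x = x * b := by
  intro h
  apply hA.na
  haveI := Fact.mk hA.prime_p
  haveI := Fact.mk hA.prime_q
  haveI := isCyclic_of_prime_card hP
  haveI := isCyclic_of_prime_card hQ
  haveI : IsMulCommutative P := IsCyclic.isMulCommutative
  haveI : IsMulCommutative Q := IsCyclic.isMulCommutative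
  have hall : ∀ x ∈ ((P : Set A) ∪ Q), ∀ y ∈ ((P : Set A) ∪ Q), x * y = y * x := by
    rintro x (hx | hx) y (hy | hy)
    · exact congrArg Subtype.val (mul_comm' (⟨x, hx⟩ : P) ⟨y, hy⟩)
    · exact h x hx y hy
    · exact (h y hy x hx).symm
    · exact congrArg Subtype.val (mul_comm' (⟨x, hx⟩ : Q) ⟨y, hy⟩)
  haveI := Subgroup.isMulCommutative_closure hall
  have htop : Subgroup.closure ((P : Set A) ∪ Q) = ⊤ := by
    rw [Subgroup.closure_union, Subgroup.closure_eq, Subgroup.closure_eq]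
    exact hA.sup_eq_top (hA.ne_bot_of_card (Or.inl hP)) (hA.ne_bot_of_card (Or.inr hQ))
      (hA.ne_of_card hP hQ)
  refine ⟨⟨fun x y => ?_⟩⟩
  exact congrArg Subtype.val (mul_comm' (⟨x, htop ▸ Subgroup.mem_top x⟩ :
    Subgroup.closure ((P : Set A) ∪ Q)) ⟨y, htop ▸ Subgroup.mem_top y⟩)

theorem PQ.p_dvd (hA : PQ A p q) : p ∣ q - 1 := by
  obtain ⟨Q, hQ⟩ := hA.exists_q
  obtain ⟨P, hP⟩ := hA.exists_p
  haveI := hA.normal_q hQ
  haveI := Fact.mk hA.prime_p
  haveI := Fact.mk hA.prime_q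
  haveI := isCyclic_of_prime_card hQ
  let f : P →* MulAut Q := (MulAut.conjNormal (H := Q)).comp P.subtype
  have hd : Nat.card f.range ∣ q - 1 := by
    refine (Subgroup.card_subgroup_dvd_card _).trans ?_
    rw [IsCyclic.card_mulAut, hQ, Nat.totient_prime hA.prime_q]
  rcases (Nat.dvd_prime hA.prime_p).1 (hP ▸ Subgroup.card_range_dvd f) with h | h
  · exfalso
    refine hA.not_comm hP hQ fun b hb x hx => ?_
    have h1 : f ⟨b, hb⟩ = 1 := Subgroup.mem_bot.1
      (Subgroup.card_eq_one.1 h ▸ ⟨⟨b, hb⟩, rfl⟩)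
    have h2 := congrArg Subtype.val (DFunLike.congr_fun h1 ⟨x, hx⟩)
    simp only [f, MonoidHom.comp_apply, Subgroup.coe_subtype, MulAut.conjNormal_apply,
      MulAut.one_apply] at h2
    exact mul_inv_eq_iff_eq_mul.1 h2
  · exact h ▸ hd

/-- Distinct conjugates of a complement. -/
theorem PQ.conj_ne (hA : PQ A p q) {T Q : Subgroup A} (hT : Nat.card T = p) (hQ : Nat.card Q = q)
    {x : A} (hx : x ∈ Q) (hx1 : x ≠ 1) : T.map (MulAut.conj x).toMonoidHom ≠ T := by
  intro e
  haveI := hA.normal_q hQ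
  haveI := Fact.mk hA.prime_q
  haveI := isCyclic_of_prime_card hQ
  refine hA.not_comm hT hQ fun b hb y hy => ?_
  have h1 : x * b * x⁻¹ ∈ T := e.le ⟨b, hb, rfl⟩
  have h2 : x * b * x⁻¹ * b⁻¹ ∈ T := T.mul_mem h1 (T.inv_mem hb)
  have h3 : x * b * x⁻¹ * b⁻¹ ∈ Q := by
    rw [show x * b * x⁻¹ * b⁻¹ = x * (b * x⁻¹ * b⁻¹) by group]
    exact Q.mul_mem hx ((hA.normal_q hQ).conj_mem _ (Q.inv_mem hx) b)
  have h4 : T ⊓ Q = ⊥ := Subgroup.inf_eq_bot_of_coprime
    (by rw [hT, hQ]; exact (Nat.coprime_primes hA.prime_p hA.prime_q).2 hA.lt.ne)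
  have h5 : x * b * x⁻¹ * b⁻¹ = 1 := Subgroup.mem_bot.1 (h4 ▸ ⟨h2, h3⟩)
  have h6 : x ∈ Subgroup.centralizer ({b} : Set A) := Subgroup.mem_centralizer_singleton_iff.2
    (mul_inv_eq_iff_eq_mul.1 (mul_inv_eq_one.1 h5)).symm.symm
  obtain ⟨n, hn⟩ := mem_powers_iff_mem_zpowers.2
    (mem_zpowers_of_prime_card hQ (g := (⟨x, hx⟩ : Q)) (g' := ⟨y, hy⟩)
      fun e => hx1 (congrArg Subtype.val e))
  have h7 : y = x ^ n := (congrArg Subtype.val hn).symm
  rw [h7]
  exact ((show Commute x b from Subgroup.mem_centralizer_singleton_iff.1 h6).pow_left n).symm.eq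

end pq

section orbit

variable {A S V : Type*} [Group A] [Finite A] [Group S] [Finite S] [AddCommGroup V]
variable {p q : ℕ} {ρ : S →* AddMonoid.End V} {ε : A →* AddMonoid.End V} {φ : A →* MulAut S}

/-- The elements mapping `ω` into its orbit form a subgroup. -/
def orbitStab (hc : Compat ρ ε φ) (ω : V) : Subgroup A where
  carrier := {a | ∃ g, ε a ω = ρ g ω}
  one_mem' := ⟨1, by rw [End_one_apply, End_one_apply]⟩
  mul_mem' := by
    rintro x y ⟨g, hg⟩ ⟨g', hg'⟩
    exact ⟨φ x g' * g, by rw [End_mul_apply, hg', compat_apply hc, hg, ← End_mul_apply]⟩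
  inv_mem' := by
    rintro x ⟨g, hg⟩
    refine ⟨φ x⁻¹ g⁻¹, ?_⟩
    have h := congrArg (fun v => ε x⁻¹ v) (show ρ g⁻¹ (ε x ω) = ω by
      rw [hg, ← End_mul_apply, inv_mul_cancel, End_one_apply])
    simp only [compat_apply hc, ← End_mul_apply, inv_mul_cancel, End_one_apply] at h
    exact h.symm

/-- The stabiliser of a vector in the acting group. -/
abbrev fixStab (ε : A →* AddMonoid.End V) (v : V) : Subgroup A := vecStab ε v

omit [Finite A] [Finite S] in
theorem fixed_of_nsmul {n : ℕ} (hn : IsUnit (n : AddMonoid.End V)) {v : V} {s : S}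
    (h : ρ s (n • v) = n • v) : ρ s v = v := by
  rw [map_nsmul] at h
  obtain ⟨i, hi⟩ := hn
  have e1 : ∀ y : V, (↑i⁻¹ : AddMonoid.End V) (n • y) = y := fun y => by
    rw [← AddMonoid.End.natCast_apply, ← hi]
    show ((↑i⁻¹ : AddMonoid.End V) * ↑i) y = y
    rw [Units.inv_mul]; rfl
  have e2 := congrArg (↑i⁻¹ : AddMonoid.End V) h
  rwa [e1, e1] at e2

variable (hA : PQ A p q) (hc : Compat ρ ε φ) (hfix : ∀ v, (∀ a, ε a v = v) → v = 0)
  (hcop : (Nat.card A).Coprime (Nat.card S)) (hfixS : ∀ s, (∀ a, φ a s = s) → s = 1)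
  (hu : ∀ D : Subgroup S, IsUnit (Nat.card D : AddMonoid.End V))

include hA hc hfix hcop hfixS hu

/-- If all points of an orbit have nontrivial stabilisers, the orbit is a point. -/
theorem orbit_fixed_pq {ω : V} (hstab : ∀ h, ∃ a, a ≠ 1 ∧ ε a (ρ h ω) = ρ h ω) :
    ∀ h, ρ h ω = ω := by
  classical
  haveI := hA.isSolvable
  by_cases hω : ω = 0
  · subst hω; intro h; exact map_zero (ρ h)
  set T := fixStab ε ω
  have hT : T ≠ ⊤ := fun e => hω (hfix ω fun a => (e.ge (Subgroup.mem_top a) :))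
  have hne : ∀ h, fixStab ε (ρ h ω) ≠ ⊥ := fun h e => by
    obtain ⟨a, ha, hfa⟩ := hstab h
    exact ha (Subgroup.mem_bot.1 (e ▸ hfa))
  have hT0 : T ≠ ⊥ := by
    have := hne 1
    rwa [End_one_apply] at this
  -- all stabilisers coincide
  have hsame : ∀ h, fixStab ε (ρ h ω) = T := by
    intro h
    by_contra hn
    have htop := hA.sup_eq_top (hne h) hT0 hn
    have hle : fixStab ε (ρ h ω) ⊔ T ≤ orbitStab hc ω := by
      refine sup_le (fun b hb => ?_) fun a (ha : ε a ω = ω) => ⟨1, by rw [ha, End_one_apply]⟩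
      refine ⟨φ b h⁻¹ * h, ?_⟩
      rw [End_mul_apply, ← show ε b (ρ h ω) = ρ h ω from hb, ← compat_apply hc,
        ← End_mul_apply ρ, inv_mul_cancel, End_one_apply]
    obtain ⟨g, hg⟩ := exists_fixed_orbit hc hcop fun a => hle (htop.ge (Subgroup.mem_top a))
    apply hω
    rw [← End_one_apply ρ ω, ← inv_mul_cancel g, End_mul_apply, hfix _ hg, map_zero]
  have hall : ∀ a ∈ T, ∀ h, ε a (ρ h ω) = ρ h ω := fun a ha h => ((hsame h).ge ha :)
  obtain ⟨Q, hQ⟩ := hA.exists_q
  haveI := hA.normal_q hQ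
  -- orbits of translates
  have hmove : ∀ (b : A) (h : S), ρ h (ε b ω) = ε b (ρ (φ b⁻¹ h) ω) := fun b h => by
    rw [compat_apply hc, ← MulAut.mul_apply, ← map_mul φ, mul_inv_cancel, map_one,
      MulAut.one_apply]
  rcases hA.card_cases hT0 hT with hTc | hTc
  · -- a complement fixes the orbit
    have hN : ∀ x, ∀ a ∈ T, ∀ g, g⁻¹ * φ (x * a * x⁻¹) g ∈ orbStab ρ (ε x ω) := by
      intro x a ha g
      refine mem_orbStab.2 fun h => ?_
      have hfx : ∀ h, ε (x * a * x⁻¹) (ρ h (ε x ω)) = ρ h (ε x ω) := fun h => by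
        rw [hmove, ← End_mul_apply ε, inv_mul_cancel_right, End_mul_apply, hall a ha]
      have e := compat_apply hc (x * a * x⁻¹) g (ρ h (ε x ω))
      rw [hfx, ← End_mul_apply ρ, hfx] at e
      rw [End_mul_apply, ← e, ← End_mul_apply ρ g⁻¹, inv_mul_cancel_left]
    haveI := fun x => orbStab_normal (ρ := ρ) (ε x ω)
    haveI := orbStab_normal (ρ := ρ) ω
    set B := orbStab ρ ω
    set Qs := (Set.toFinite (Q : Set A)).toFinset
    have hsum : gsum ε Q ω = 0 := by
      refine hfix _ fun a => ?_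
      have hle : T ⊔ Q ≤ fixStab ε (gsum ε Q ω) := by
        refine sup_le (fun a ha => ?_) fun x hx =>
          DFunLike.congr_fun (gsum_mul_left ε hx) ω
        show (ε a * gsum ε Q) ω = gsum ε Q ω
        rw [← (commute_gsum_of_conj ε (h := a)
          fun β hβ => (hA.normal_q hQ).conj_mem β hβ a).eq]
        exact congrArg (fun v => gsum ε Q v) (show ε a ω = ω from ha)
      exact hle ((hA.sup_eq_top hT0 (hA.ne_bot_of_card (Or.inr hQ))
        (hA.ne_of_card hTc hQ)).ge (Subgroup.mem_top a))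
    have hfixB : ∀ x ∈ Qs.erase 1, ∀ s, ρ s (gsum ρ B (ε x ω)) = gsum ρ B (ε x ω) := by
      intro x hx
      obtain ⟨hx1, hxQ⟩ := Finset.mem_erase.1 hx
      replace hxQ : x ∈ Q := by simpa [Qs] using hxQ
      set L := B ⊔ orbStab ρ (ε x ω)
      have hL : ∀ c g, g⁻¹ * φ c g ∈ L := by
        intro c
        have hgen : ∀ c ∈ T ⊔ T.map (MulAut.conj x).toMonoidHom, ∀ g, g⁻¹ * φ c g ∈ L := by
          intro c hc'
          rw [Subgroup.sup_eq_closure, ← Subgroup.mem_toSubmonoid,
            Subgroup.closure_toSubmonoid_of_finite] at hc'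
          induction hc' using Submonoid.closure_induction with
          | mem c hc'' =>
            intro g
            rcases hc'' with hc'' | ⟨a, ha, rfl⟩
            · have := hN 1 c hc'' g
              rw [one_mul, inv_one, mul_one, End_one_apply] at this
              exact (le_sup_left : B ≤ L) this
            · exact (le_sup_right : orbStab ρ (ε x ω) ≤ L) (hN x a ha g)
          | one => intro g; simp
          | mul a b _ _ ha hb => exact trivial_mod_mul φ ha hb
        refine hgen c ((hA.sup_eq_top hT0 ?_ (hA.conj_ne hTc hQ hxQ hx1).symm).ge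
          (Subgroup.mem_top c))
        intro e
        exact hT0 ((Subgroup.map_eq_bot_iff_of_injective _ (MulAut.conj x).injective).1 e)
      intro s
      obtain ⟨b, hb, k, hk, rfl⟩ := Subgroup.mem_sup_of_normal_left.1
        (mem_of_invariant_coset hcop hfixS (inv_of_trivial_mod hL) fun c => hL c s :)
      rw [End_mul_apply]
      have h1 : ρ k (gsum ρ B (ε x ω)) = gsum ρ B (ε x ω) := by
        show (ρ k * gsum ρ B) (ε x ω) = _
        rw [← (commute_gsum_of_conj ρ (h := k)
          fun β hβ => (orbStab_normal (ρ := ρ) ω).conj_mem β hβ k).eq]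
        refine congrArg (fun v => gsum ρ B v) ?_
        have h2 := mem_orbStab.1 hk 1
        rw [End_one_apply] at h2
        exact h2
      rw [h1]
      exact DFunLike.congr_fun (gsum_mul_left ρ hb) _
    intro s
    refine fixed_of_nsmul (hu B) ?_
    have hBω : gsum ρ B ω = Nat.card B • ω := by
      rw [gsum, End_sum_apply, Finset.sum_congr rfl (fun b hb => (?_ : ρ b ω = ω)),
        Finset.sum_const, gsum_card]
      simpa [End_one_apply] using mem_orbStab.1 (show b ∈ B by simpa using hb) 1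
    have h0 : gsum ρ B ω + ∑ x ∈ Qs.erase 1, gsum ρ B (ε x ω) = 0 := by
      have h := congrArg (fun v => gsum ρ B v) hsum
      simp only [map_zero] at h
      rw [← h]
      show _ = gsum ρ B (gsum ε Q ω)
      conv_rhs => rw [show gsum ε Q ω = ∑ x ∈ Qs, ε x ω from End_sum_apply _ _ _, map_sum,
        ← Finset.add_sum_erase Qs _ (show (1 : A) ∈ Qs by simp [Qs]), End_one_apply]
    rw [← hBω, eq_neg_of_add_eq_zero_left h0, map_neg, map_sum]
    exact congrArg Neg.neg (Finset.sum_congr rfl fun x hx => hfixB x hx s)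
  · -- the normal subgroup fixes every translated orbit
    have hTQ : T = Q := hA.eq_of_card_q hTc hQ
    have hQall : ∀ x ∈ Q, ∀ (b : A) h, ε x (ρ h (ε b ω)) = ρ h (ε b ω) := by
      intro x hx b h
      rw [hmove]
      calc ε x (ε b (ρ (φ b⁻¹ h) ω)) = ε b (ε (b⁻¹ * x * b) (ρ (φ b⁻¹ h) ω)) := by
            rw [← End_mul_apply ε, ← End_mul_apply ε]; congr 2; group
        _ = ε b (ρ (φ b⁻¹ h) ω) := by
            rw [hall _ (hTQ ▸ by simpa using (hA.normal_q hQ).conj_mem x hx b⁻¹)]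
    obtain ⟨P, hP⟩ := hA.exists_p
    have hPQ : P ⊔ Q = ⊤ := hA.sup_eq_top (hA.ne_bot_of_card (Or.inl hP))
      (hA.ne_bot_of_card (Or.inr hQ)) (hA.ne_of_card hP hQ)
    have hPzero : ∀ h, gsum ε P (ρ h ω) = 0 := by
      intro h
      refine hfix _ fun a => ?_
      have hle : P ⊔ Q ≤ fixStab ε (gsum ε P (ρ h ω)) := by
        refine sup_le (fun b hb => DFunLike.congr_fun (gsum_mul_left ε hb) _) fun x hx => ?_
        show ε x (gsum ε P (ρ h ω)) = _
        rw [gsum, End_sum_apply, map_sum]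
        refine Finset.sum_congr rfl fun b _ => ?_
        calc ε x (ε b (ρ h ω)) = ε b (ε (b⁻¹ * x * b) (ρ h ω)) := by
              rw [← End_mul_apply ε, ← End_mul_apply ε]; congr 2; group
          _ = ε b (ρ h ω) := by
              rw [hall _ (hTQ ▸ by simpa using (hA.normal_q hQ).conj_mem x hx b⁻¹)]
      exact hle (hPQ.ge (Subgroup.mem_top a))
    set N : Subgroup S := ⨅ b : A, orbStab ρ (ε b ω)
    haveI hNn : N.Normal := Subgroup.normal_iInf_normal fun b => orbStab_normal _
    have hNQ : ∀ x ∈ Q, ∀ g, g⁻¹ * φ x g ∈ N := by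
      intro x hx g
      refine Subgroup.mem_iInf.2 fun b => mem_orbStab.2 fun h => ?_
      have e := compat_apply hc x g (ρ h (ε b ω))
      rw [hQall x hx, ← End_mul_apply ρ, hQall x hx] at e
      rw [End_mul_apply, ← e, ← End_mul_apply ρ g⁻¹, inv_mul_cancel_left]
    have hNi : Inv φ N := by
      intro a n hn
      refine Subgroup.mem_iInf.2 fun b => mem_orbStab.2 fun h => ?_
      have hm : ρ h (ε b ω) = ε a (ρ (φ a⁻¹ h) (ε (a⁻¹ * b) ω)) := by
        rw [compat_apply hc, ← MulAut.mul_apply, ← map_mul φ, mul_inv_cancel, map_one,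
          MulAut.one_apply, ← End_mul_apply ε, mul_inv_cancel_left]
      rw [hm, ← compat_apply hc, mem_orbStab.1 (Subgroup.mem_iInf.1 hn _)]
    -- the complement is fixed point free modulo `N`
    have hfpN : ∀ b ∈ P, b ≠ 1 → ∀ g, g⁻¹ * φ b g ∈ N → g ∈ N := by
      intro b hb hb1 g hg
      refine mem_of_invariant_coset hcop hfixS hNi fun c => ?_
      have hmem : c ∈ Subgroup.closure ({b} ∪ (Q : Set A)) := by
        rw [Subgroup.closure_union, Subgroup.closure_eq, ← Subgroup.zpowers_eq_closure]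
        have : Subgroup.zpowers b ≠ ⊥ := by simpa using hb1
        have hne' : Subgroup.zpowers b ≠ Q := fun e => hA.lt.not_ge (Nat.le_of_dvd hA.prime_p.pos
          (hQ ▸ e ▸ (hP ▸ Subgroup.card_dvd_of_le (Subgroup.zpowers_le.2 hb))))
        exact (hA.sup_eq_top this (hA.ne_bot_of_card (Or.inr hQ)) hne').ge (Subgroup.mem_top c)
      rw [← Subgroup.mem_toSubmonoid, Subgroup.closure_toSubmonoid_of_finite] at hmem
      induction hmem using Submonoid.closure_induction with
      | mem c hc' =>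
        rcases hc' with hc' | hc'
        · rw [Set.mem_singleton_iff] at hc'; rw [hc']; exact hg
        · exact hNQ c hc' g
      | one => simp
      | mul x y _ _ hx hy =>
        rw [map_mul, MulAut.mul_apply,
          show g⁻¹ * φ x (φ y g) = (g⁻¹ * φ x g) * φ x (g⁻¹ * φ y g) by rw [map_mul, map_inv]; group]
        exact mul_mem hx (hNi x _ hy)
    intro s
    refine fixed_of_nsmul (n := Nat.card (⊤ : Subgroup S)) (hu ⊤) ?_
    set Ss := (Set.toFinite ((⊤ : Subgroup S) : Set S)).toFinset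
    set Ps := (Set.toFinite (P : Set A)).toFinset
    have h0 : ((∑ β ∈ Ss, ρ β * gsum ε P * ρ β⁻¹) : AddMonoid.End V) ω = 0 := by
      rw [End_sum_apply]
      refine Finset.sum_eq_zero fun β _ => ?_
      show ρ β (gsum ε P (ρ β⁻¹ ω)) = 0
      rw [hPzero, map_zero]
    rw [fpf_identity hc P ⊤, End_sum_apply,
      ← Finset.add_sum_erase Ps _ (show (1 : A) ∈ Ps by simp [Ps])] at h0
    have h1 : ((∑ β ∈ Ss, ρ (β * φ 1 β⁻¹)) * ε 1 : AddMonoid.End V) ω =
        Nat.card (⊤ : Subgroup S) • ω := by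
      rw [Finset.sum_congr rfl (fun β _ => (?_ : ρ (β * φ 1 β⁻¹) = 1)), Finset.sum_const,
        gsum_card, map_one ε, mul_one]
      · rfl
      · simp
    rw [h1] at h0
    rw [eq_neg_of_add_eq_zero_left h0, map_neg, map_sum]
    refine congrArg Neg.neg (Finset.sum_congr rfl fun b hb => ?_)
    obtain ⟨hb1, hbP⟩ := Finset.mem_erase.1 hb
    replace hbP : b ∈ P := by simpa [Ps] using hbP
    -- the twisted sum is the sum over the whole group
    let F : S ⧸ N → S ⧸ N := fun z => z * quotAct φ N hNi b z⁻¹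
    have hFinj : Function.Injective F := by
      intro z w e
      refine (inv_mul_eq_one (a := w) (b := z)).1 ?_ |>.symm
      have e' : z * quotAct φ N hNi b z⁻¹ = w * quotAct φ N hNi b w⁻¹ := e
      have hfx : quotAct φ N hNi b (w⁻¹ * z) = w⁻¹ * z := by
        rw [map_inv, map_inv] at e'
        rw [map_mul, map_inv]
        calc (quotAct φ N hNi b w)⁻¹ * quotAct φ N hNi b z
            = w⁻¹ * (w * (quotAct φ N hNi b w)⁻¹) * quotAct φ N hNi b z := by group
          _ = w⁻¹ * (z * (quotAct φ N hNi b z)⁻¹) * quotAct φ N hNi b z := by rw [e']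
          _ = w⁻¹ * z := by group
      obtain ⟨g, hg⟩ := QuotientGroup.mk_surjective (w⁻¹ * z)
      rw [← hg] at hfx ⊢
      rw [QuotientGroup.eq_one_iff]
      refine hfpN b hbP hb1 g ?_
      rw [quotAct_mk, eq_comm, QuotientGroup.eq] at hfx
      exact hfx
    let e := Subgroup.groupEquivQuotientProdSubgroup (s := N)
    have hconst : ∀ β γ : S, (β : S ⧸ N) = γ → ρ β (ε b ω) = ρ γ (ε b ω) := by
      intro β γ h
      rw [QuotientGroup.eq] at h
      have h' := mem_orbStab.1 (Subgroup.mem_iInf.1 h b) 1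
      rw [End_one_apply] at h'
      conv_lhs => rw [← h']
      rw [← End_mul_apply, mul_inv_cancel_left]
    have hkey : ((∑ β ∈ Ss, ρ (β * φ b β⁻¹)) * ε b : AddMonoid.End V) ω =
        gsum ρ (⊤ : Subgroup S) (ε b ω) := by
      show (∑ β ∈ Ss, ρ (β * φ b β⁻¹)) (ε b ω) = _
      rw [gsum, End_sum_apply, End_sum_apply]
      let lift : S ≃ S := (e.trans
        ((Equiv.ofBijective F ⟨hFinj, Finite.injective_iff_surjective.1 hFinj⟩).prodCongr
          (Equiv.refl _))).trans e.symm
      have hfst : ∀ x : S, (e x).1 = (x : S ⧸ N) := fun x => rfl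
      refine Finset.sum_equiv lift (fun β => by simp [Ss]) fun β _ => hconst _ _ ?_
      have h2 : (e (lift β)).1 = F (e β).1 := by
        show (e (e.symm (F (e β).1, (e β).2))).1 = _
        rw [Equiv.apply_symm_apply]
      rw [hfst, hfst] at h2
      rw [h2]
      rfl
    rw [hkey]
    exact DFunLike.congr_fun (gsum_mul_left ρ (Subgroup.mem_top s)) _

end orbit

section dual

variable {X U : Type*} [Group X] [Group U] {Z : Type*} [CommGroup Z]

/-- The homomorphisms into a commutative group, written additively. -/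
def HomChar (U : Type*) [Group U] (Z : Type*) [CommGroup Z] := Additive (U →* Z)

noncomputable instance : AddCommGroup (HomChar U Z) :=
  inferInstanceAs (AddCommGroup (Additive (U →* Z)))

/-- A homomorphism as a vector. -/
def HomChar.of (f : U →* Z) : HomChar U Z := Additive.ofMul f

/-- A vector as a homomorphism. -/
def HomChar.val (w : HomChar U Z) : U →* Z := Additive.toMul w

theorem HomChar.ext {w w' : HomChar U Z} (h : ∀ u, w.val u = w'.val u) : w = w' :=
  (Additive.toMul (α := U →* Z)).injective (MonoidHom.ext h)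

theorem HomChar.val_zero (u : U) : (0 : HomChar U Z).val u = 1 := rfl

theorem HomChar.val_sum {ι : Type*} (s : Finset ι) (w : ι → HomChar U Z) (u : U) :
    (∑ i ∈ s, w i).val u = ∏ i ∈ s, (w i).val u := by
  classical
  induction s using Finset.induction with
  | empty => rfl
  | insert i s hi ih => rw [Finset.sum_insert hi, Finset.prod_insert hi, ← ih]; rfl

/-- The contragredient action. -/
noncomputable def homEnd (ψ : X →* MulAut U) : X →* AddMonoid.End (HomChar U Z) where
  toFun x :=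
    { toFun := fun w => HomChar.of (w.val.comp (ψ x⁻¹).toMonoidHom)
      map_zero' := rfl
      map_add' := fun _ _ => rfl }
  map_one' := by
    refine AddMonoidHom.ext fun w => HomChar.ext fun u => ?_
    show w.val (ψ (1 : X)⁻¹ u) = w.val u
    rw [inv_one, map_one]; rfl
  map_mul' x y := by
    refine AddMonoidHom.ext fun w => HomChar.ext fun u => ?_
    show w.val (ψ (x * y)⁻¹ u) = w.val (ψ y⁻¹ (ψ x⁻¹ u))
    rw [mul_inv_rev, map_mul]; rfl

theorem homEnd_val (ψ : X →* MulAut U) (x : X) (w : HomChar U Z) (u : U) :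
    (homEnd ψ x w).val u = w.val (ψ x⁻¹ u) := rfl

/-- The order of the group annihilates its homomorphisms. -/
theorem HomChar.natCast_card_eq_zero [Finite U] :
    (Nat.card U : AddMonoid.End (HomChar U Z)) = 0 := by
  refine AddMonoidHom.ext fun w => ?_
  show Nat.card U • w = 0
  refine HomChar.ext fun u => ?_
  have h : (Nat.card U • w).val u = (w.val u) ^ Nat.card U := rfl
  rw [h, ← map_pow, pow_card_eq_one', map_one]
  rfl

/-- A fixed-point-free coprime action has no nonzero fixed homomorphism. -/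
theorem HomChar.eq_zero_of_fixed {A : Type*} [Group A] [Finite A] [Group.IsSolvable A] [Finite U]
    {φ : A →* MulAut U} (hcop : (Nat.card A).Coprime (Nat.card U))
    (hfix : ∀ u, (∀ a, φ a u = u) → u = 1) {w : HomChar U Z}
    (hw : ∀ a, homEnd φ a w = w) : w = 0 := by
  have hker : ∀ a y, w.val (φ a y) = w.val y := by
    intro a y
    have := congrArg (fun w : HomChar U Z => w.val y) (hw a⁻¹)
    simpa [homEnd_val] using this
  refine HomChar.ext fun y => ?_
  have hK : Inv φ w.val.ker := fun a z hz => by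
    rw [MonoidHom.mem_ker] at hz ⊢
    rw [hker, hz]
  have hy := mem_of_invariant_coset hcop hfix hK (h := y) fun a => by
    rw [MonoidHom.mem_ker, map_mul, map_inv, hker, inv_mul_cancel]
  exact hy

end dual

theorem isUnit_cast_of_coprime {R : Type*} [Ring R] {n N : ℕ} (hN : (N : R) = 0)
    (h : n.Coprime N) : IsUnit (n : R) := by
  have h1 := congrArg (fun z : ℤ => (z : R)) (Nat.gcd_eq_gcd_ab n N)
  simp only [h.gcd_eq_one, Nat.cast_one, Int.cast_one, Int.cast_add, Int.cast_mul, Int.cast_natCast,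
    hN, zero_mul, add_zero] at h1
  refine ⟨⟨n, ((Nat.gcdA n N : ℤ) : R), h1.symm, ?_⟩, rfl⟩
  rw [← (Nat.cast_commute n _).eq, ← h1]

section linear

open CfsgLib.BGRep

variable {k : Type*} [Field k] {W : Type*} [AddCommGroup W] [Module k W]
variable {A U : Type*} [Group A] [Finite A] [CommGroup U] [Finite U]
variable {ρ : U →* Module.End k W} {ε : A →* Module.End k W} {φ : A →* MulAut U}

/-- The stabiliser of a character. -/
def charStab (φ : A →* MulAut U) {Z : Type*} [CommGroup Z] (ω : U →* Z) : Subgroup A where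
  carrier := {a | ∀ u, ω (φ a u) = ω u}
  one_mem' := fun u => by rw [map_one]; rfl
  mul_mem' := fun {a b} ha hb u => by rw [map_mul, MulAut.mul_apply, ha, hb]
  inv_mem' := fun {a} ha u => by
    have := ha (φ a⁻¹ u)
    rwa [← MulAut.mul_apply, ← map_mul, mul_inv_cancel, map_one, MulAut.one_apply, eq_comm] at this

omit [Finite A] [Finite U] in
theorem mem_wtSpace_translate (hc : Compat ρ ε φ) {ω : U →* kˣ} {v : W} (hv : v ∈ wtSpace ρ ω)
    (a : A) : ε a v ∈ wtSpace ρ (ω.comp (φ a⁻¹).toMonoidHom) := by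
  refine mem_wtSpace.mpr fun u => ?_
  have h := hc a (φ a⁻¹ u)
  rw [← MulAut.mul_apply, ← map_mul φ, mul_inv_cancel, map_one, MulAut.one_apply] at h
  rw [← Module.End.mul_apply, ← h, Module.End.mul_apply, mem_wtSpace.mp hv, map_smul]
  rfl

/-- The stabiliser of an occurring character sums to zero on its eigenspace. -/
theorem gsum_charStab (hc : Compat ρ ε φ) (hN : gsum ε ⊤ = 0) (hU : (Nat.card U : k) ≠ 0)
    (ω : U →* kˣ) : gsum ε (charStab φ ω) * wtProj ρ ω = 0 := by
  classical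
  refine LinearMap.ext fun w => ?_
  set v := wtProj ρ ω w
  have hv : v ∈ wtSpace ρ ω := wtProj_mem ρ ω w
  have h0 : wtProj ρ ω (gsum ε ⊤ v) = 0 := by rw [hN, LinearMap.zero_apply, map_zero]
  rw [gsum, LinearMap.sum_apply, map_sum] at h0
  rw [Module.End.mul_apply, gsum, LinearMap.sum_apply, LinearMap.zero_apply, ← h0]
  have hfin : (Set.toFinite (charStab φ ω : Set A)).toFinset =
      (Set.toFinite ((⊤ : Subgroup A) : Set A)).toFinset.filter (fun a => a ∈ charStab φ ω) := by
    ext a; simp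
  rw [hfin, Finset.sum_filter]
  refine Finset.sum_congr rfl fun a _ => ?_
  have hmem := mem_wtSpace_translate hc hv a
  by_cases ha : a ∈ charStab φ ω
  · rw [if_pos ha]
    have e : ω.comp (φ a⁻¹).toMonoidHom = ω := MonoidHom.ext ((charStab φ ω).inv_mem ha)
    rw [e] at hmem
    exact (wtProj_apply_self hU hmem).symm
  · rw [if_neg ha, wtProj_apply_ne (fun e => ha ?_) hmem]
    have := (charStab φ ω).inv_mem (x := a⁻¹) fun u => (DFunLike.congr_fun e u).symm
    rwa [inv_inv] at this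

theorem charStab_ne_bot (hc : Compat ρ ε φ) (hN : gsum ε ⊤ = 0) (hU : (Nat.card U : k) ≠ 0)
    {ω : U →* kˣ} (hω : wtSpace ρ ω ≠ ⊥) : charStab φ ω ≠ ⊥ := by
  intro e
  obtain ⟨v, hv, hv0⟩ := Submodule.exists_mem_ne_zero_of_ne_bot hω
  have h := LinearMap.congr_fun (gsum_charStab hc hN hU ω) v
  rw [e, gsum_bot, one_mul, wtProj_apply_self hU hv] at h
  exact hv0 h

variable {p q : ℕ} {S : Type*} [Group S] [Finite S] {φS : A →* MulAut S} {σ : S →* MulAut U}

/-- A coprime group acting compatibly on a faithfully represented abelian group centralises it. -/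
theorem centralises_abelian_pq [IsAlgClosed k] (hA : PQ A p q) (hc : Compat ρ ε φ)
    (hinj : Function.Injective ρ) (hN : gsum ε ⊤ = 0) (hU : (Nat.card U : k) ≠ 0)
    (hσ : ∀ a s u, φ a (σ s u) = σ (φS a s) (φ a u))
    (hop : ∀ s, ∃ g : (Module.End k W)ˣ, ∀ u,
      (g : Module.End k W) * ρ u = ρ (σ s u) * (g : Module.End k W))
    (hfixU : ∀ u, (∀ a, φ a u = u) → u = 1) (hfixS : ∀ s, (∀ a, φS a s = s) → s = 1)
    (hcopU : (Nat.card A).Coprime (Nat.card U)) (hcopS : (Nat.card A).Coprime (Nat.card S))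
    (hSU : (Nat.card S).Coprime (Nat.card U)) : ∀ s u, σ s u = u := by
  haveI := hA.isSolvable
  intro s u
  by_contra hne
  have hd : ρ (σ s u * u⁻¹) ≠ 1 := fun e => hne (mul_inv_eq_one.1 (hinj (e.trans (map_one ρ).symm)))
  obtain ⟨ω, v, hv, hv0⟩ : ∃ ω : U →* kˣ, ∃ v ∈ wtSpace ρ ω, ρ (σ s u * u⁻¹) v ≠ v := by
    by_contra h
    push Not at h
    exact hd (eq_of_eqOn_wtSpace hU ρ fun ω v hv => h ω v hv)
  have hω : wtSpace ρ ω ≠ ⊥ := fun e => hv0 (by
    rw [e, Submodule.mem_bot] at hv; rw [hv, map_zero])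
  set ρ' : S →* AddMonoid.End (HomChar U kˣ) := homEnd σ
  set ε' : A →* AddMonoid.End (HomChar U kˣ) := homEnd φ
  have hc' : Compat ρ' ε' φS := by
    intro a x
    refine AddMonoidHom.ext fun w => HomChar.ext fun y => ?_
    show w.val (σ x⁻¹ (φ a⁻¹ y)) = w.val (φ a⁻¹ (σ (φS a x)⁻¹ y))
    congr 1
    have e : φS a⁻¹ (φS a x)⁻¹ = x⁻¹ := by
      rw [map_inv (φS a⁻¹), ← MulAut.mul_apply, ← map_mul, inv_mul_cancel, map_one, MulAut.one_apply]
    rw [hσ, e]
  have hocc : ∀ x : S, wtSpace ρ (ω.comp (σ x⁻¹).toMonoidHom) ≠ ⊥ := by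
    intro x
    obtain ⟨g, hg⟩ := hop x
    obtain ⟨w, hw, hw0⟩ := Submodule.exists_mem_ne_zero_of_ne_bot hω
    intro e
    have hmem : (g : Module.End k W) w ∈ wtSpace ρ (ω.comp (σ x⁻¹).toMonoidHom) := by
      refine mem_wtSpace.mpr fun y => ?_
      have h := hg (σ x⁻¹ y)
      rw [← MulAut.mul_apply, ← map_mul σ, mul_inv_cancel, map_one, MulAut.one_apply] at h
      rw [← Module.End.mul_apply, ← h, Module.End.mul_apply, mem_wtSpace.mp hw, map_smul]
      rfl
    rw [e, Submodule.mem_bot] at hmem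
    apply hw0
    calc w = ((↑g⁻¹ : Module.End k W) * ↑g) w := by rw [Units.inv_mul]; rfl
      _ = 0 := by rw [Module.End.mul_apply, hmem, map_zero]
  have hu : ∀ D : Subgroup S, IsUnit (Nat.card D : AddMonoid.End (HomChar U kˣ)) := fun D =>
    isUnit_cast_of_coprime HomChar.natCast_card_eq_zero
      (hSU.coprime_dvd_left D.card_subgroup_dvd_card)
  have hfixed := orbit_fixed_pq hA hc' (fun w hw => HomChar.eq_zero_of_fixed hcopU hfixU hw) hcopS
    hfixS hu (ω := HomChar.of ω) (fun x => by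
      obtain ⟨⟨a, ha⟩, ha1⟩ := (Subgroup.ne_bot_iff_exists_ne_one).1
        (charStab_ne_bot hc hN hU (hocc x))
      refine ⟨a, fun e => ha1 (Subtype.ext e), HomChar.ext fun y => ?_⟩
      exact (charStab φ (ω.comp (σ x⁻¹).toMonoidHom)).inv_mem ha y) s⁻¹
  have h2 := congrArg (fun w : HomChar U kˣ => w.val u) hfixed
  have h3 : ω (σ s u) = ω u := by
    have h4 : ω (σ s⁻¹⁻¹ u) = ω u := h2
    rwa [inv_inv] at h4
  refine hv0 ?_
  rw [mem_wtSpace.mp hv, map_mul, map_inv, h3, mul_inv_cancel, Units.val_one, one_smul]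

end linear

end CfsgLib.MetacyclicP
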