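import Mathlib
import Cfsg.Agent.Lib.MetacyclicP.FPFPQOrbit

/-!
Two elementary lemmas for the class-two case of fixed-point-free actions of groups of order `p * q`.
-/

set_option autoImplicit false
set_option linter.style.haveILetI false

namespace CfsgLib.MetacyclicP

/-- A twisted commutator fixed by an automorphism of coprime order is trivial. -/
theorem eq_one_of_fixed_diff {H : Type*} [Group H] [Finite H] (f : MulAut H) {t : ℕ}
    (hft : f ^ t = 1) (hcop : t.Coprime (Nat.card H)) {u : H}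
    (h : f (u * (f u)⁻¹) = u * (f u)⁻¹) : u * (f u)⁻¹ = 1 := by
  set d := u * (f u)⁻¹
  have hi : ∀ n : ℕ, (f ^ n) d = d := by
    intro n
    induction n with
    | zero => rfl
    | succ n ih => rw [pow_succ', MulAut.mul_apply, ih, h]
  have key : ∀ n : ℕ, d ^ n = u * ((f ^ n) u)⁻¹ := by
    intro n
    induction n with
    | zero => simp
    | succ n ih =>
      rw [pow_succ]
      conv_lhs => arg 2; rw [← hi n]
      rw [ih, pow_succ, MulAut.mul_apply, map_mul, map_inv]
      group
  have h1 : d ^ t = 1 := by rw [key, hft, MulAut.one_apply, mul_inv_cancel]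
  have h2 : orderOf d ∣ Nat.gcd t (Nat.card H) :=
    Nat.dvd_gcd (orderOf_dvd_of_pow_eq_one h1) (orderOf_dvd_natCard d)
  rw [hcop.gcd_eq_one, Nat.dvd_one, orderOf_eq_one_iff] at h2
  exact h2

/-- If `s + s⁻¹` is invariant under an automorphism of odd order, so is `s`. -/
theorem eq_of_symm_sum {S C : Type*} [CommGroup S] [Finite S] [CommRing C] (χ : S →* C)
    (f : MulAut S) {t : ℕ} (ht : Odd t) (hft : f ^ t = 1) (hn : IsUnit (Nat.card S : C))
    (h : ∀ s, χ s + χ s⁻¹ = χ (f s) + χ (f s)⁻¹) : ∀ s, χ (f s) = χ s := by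
  have hprime : ∀ P : Ideal C, P.IsPrime → ∀ s, χ (f s) - χ s ∈ P := by
    intro P hP s
    haveI := hP
    set π := Ideal.Quotient.mk P
    set ψ : S →* (C ⧸ P)ˣ := ((π : C →* C ⧸ P).comp χ).toHomUnits
    have hψ : ∀ s, ((ψ s : (C ⧸ P)ˣ) : C ⧸ P) = π (χ s) := fun s => rfl
    have hcases : ∀ s, ψ (f s) = ψ s ∨ ψ (f s) = (ψ s)⁻¹ := by
      intro s
      have e := congrArg π (h s)
      rw [map_add, map_add, ← hψ, ← hψ, ← hψ, ← hψ, map_inv, map_inv] at e
      have hX : ((ψ s : (C ⧸ P)ˣ) : C ⧸ P) * (↑(ψ s)⁻¹ : C ⧸ P) = 1 := Units.mul_inv _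
      have hY : ((ψ (f s) : (C ⧸ P)ˣ) : C ⧸ P) * (↑(ψ (f s))⁻¹ : C ⧸ P) = 1 := Units.mul_inv _
      have e2 : ((ψ s : C ⧸ P) - (ψ (f s) : C ⧸ P)) * ((ψ s : C ⧸ P) * (ψ (f s) : C ⧸ P) - 1) = 0 := by
        linear_combination ((ψ s : C ⧸ P) * (ψ (f s) : C ⧸ P)) * e - (ψ (f s) : C ⧸ P) * hX +
          (ψ s : C ⧸ P) * hY
      rcases mul_eq_zero.1 e2 with e3 | e3
      · exact Or.inl (Units.ext (sub_eq_zero.1 e3).symm)
      · refine Or.inr (eq_inv_of_mul_eq_one_right (Units.ext ?_))
        rw [Units.val_mul, Units.val_one]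
        exact sub_eq_zero.1 e3
    set ψf := ψ.comp f.toMonoidHom
    have huni : ψf = ψ ∨ ψf = ψ⁻¹ := by
      by_contra hcon
      push Not at hcon
      obtain ⟨a, ha⟩ := not_forall.1 fun e => hcon.1 (MonoidHom.ext e)
      obtain ⟨b, hb⟩ := not_forall.1 fun e => hcon.2 (MonoidHom.ext e)
      have ha' : ψ (f a) = (ψ a)⁻¹ := (hcases a).resolve_left ha
      have hb' : ψ (f b) = ψ b := (hcases b).resolve_right hb
      rcases hcases (a * b) with e | e
      · apply ha
        rw [map_mul, map_mul, hb', map_mul] at e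
        exact mul_right_cancel e
      · apply hb
        rw [map_mul, map_mul, ha', map_mul, mul_inv] at e
        exact mul_left_cancel e
    have hfix : ψ (f s) = ψ s := by
      rcases huni with e | e
      · exact DFunLike.congr_fun e s
      · have hstep : ∀ x, ψ (f x) = (ψ x)⁻¹ := fun x => DFunLike.congr_fun e x
        have hsq : ∀ (n : ℕ) x, ψ ((f ^ (2 * n)) x) = ψ x := by
          intro n
          induction n with
          | zero => intro x; rfl
          | succ n ih =>
            intro x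
            rw [show 2 * (n + 1) = 2 * n + 1 + 1 by ring, pow_succ, pow_succ, MulAut.mul_apply,
              MulAut.mul_apply, ih, hstep, hstep, inv_inv]
        obtain ⟨m, hm⟩ := ht
        have h1 : ψ s = (ψ s)⁻¹ := by
          have e2 := hsq m (f s)
          rw [hstep, ← MulAut.mul_apply, ← pow_succ, ← hm, hft, MulAut.one_apply] at e2
          exact e2
        rw [hstep, ← h1]
    rw [← Ideal.Quotient.mk_eq_mk_iff_sub_mem, ← hψ, ← hψ, hfix]
  intro s
  set d := χ (f s * s⁻¹)
  have hs1 : χ s * χ s⁻¹ = 1 := by rw [← map_mul, mul_inv_cancel, map_one]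
  have hd : ∀ P : Ideal C, P.IsPrime → d - 1 ∈ P := by
    intro P hP
    have e : d - 1 = (χ (f s) - χ s) * χ s⁻¹ := by rw [sub_mul, hs1, ← map_mul]
    rw [e]
    exact P.mul_mem_right _ (hprime P hP s)
  set n := Nat.card S
  set T := ∑ i ∈ Finset.range n, d ^ i
  have hT : IsUnit T := by
    by_contra hnu
    obtain ⟨m, hm, hTm⟩ := exists_max_ideal_of_mem_nonunits hnu
    haveI := hm.isPrime
    have h1 : T - n ∈ m := by
      have e : T - (n : C) = ∑ i ∈ Finset.range n, (d ^ i - 1) := by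
        rw [Finset.sum_sub_distrib]; simp [T]
      rw [e]
      refine Ideal.sum_mem _ fun i _ => ?_
      rw [← geom_sum_mul]
      exact m.mul_mem_left _ (hd m hm.isPrime)
    have h2 : (n : C) ∈ m := by simpa using m.sub_mem hTm h1
    exact hm.ne_top (m.eq_top_of_isUnit_mem h2 hn)
  have h0 : T * (d - 1) = 0 := by rw [geom_sum_mul, ← map_pow, pow_card_eq_one', map_one, sub_self]
  have h3 := hT.mul_right_eq_zero.1 h0
  rw [sub_eq_zero] at h3
  calc χ (f s) = χ (f s * s⁻¹) * χ s := by rw [← map_mul, inv_mul_cancel_right]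
    _ = χ s := by rw [show χ (f s * s⁻¹) = 1 from h3, one_mul]

end CfsgLib.MetacyclicP
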