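import Mathlib
import Cfsg.Agent.Lib.MetacyclicP.FPFPQAlgebra
import Cfsg.Agent.Lib.BGRep.FPFBound
import Cfsg.Agent.Lib.Subnormal.ClassTwo

/-!
The class-two case for fixed-point-free actions of nonabelian groups of order `p * q`.
-/

set_option autoImplicit false
set_option linter.style.haveILetI false
set_option linter.unusedSectionVars false

open scoped commutatorElement IsMulCommutative

namespace CfsgLib.MetacyclicP

open CfsgLib.BGRep

variable {k : Type*} [Field k] {W : Type*} [AddCommGroup W] [Module k W]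
variable {A R : Type*} [Group A] [Finite A] [Group R] [Finite R]
variable {ρ : R →* Module.End k W} {ε : A →* Module.End k W} {φ : A →* MulAut R}
variable {S : Subgroup (MulAut R)} {p q r : ℕ}

/-- The hypotheses of the class-two case. -/
structure CT2 (ρ : R →* Module.End k W) (ε : A →* Module.End k W) (φ : A →* MulAut R)
    (S : Subgroup (MulAut R)) (p q r : ℕ) : Prop where
  pq : PQ A p q
  compat : Compat ρ ε φ
  inj : Function.Injective ρ
  sum0 : gsum ε ⊤ = 0
  fixR : ∀ x, (∀ a, φ a x = x) → x = 1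
  copR : (Nat.card A).Coprime (Nat.card R)
  rgroup : IsPGroup r R
  rprime : r.Prime
  rne : r ≠ p ∧ r ≠ q
  qk : (q : k) ≠ 0
  Rk : (Nat.card R : k) ≠ 0
  cent : ∀ x y : R, ⁅x, y⁆ ∈ Subgroup.center R
  inv : Inv ((MulAut.conj : MulAut R →* MulAut (MulAut R)).comp φ) S
  scomm : ∀ s ∈ S, ∀ t ∈ S, s * t = t * s
  sfix : ∀ s : S, (∀ a, φ a * (s : MulAut R) * (φ a)⁻¹ = s) → s = 1
  copS : (Nat.card A).Coprime (Nat.card S)
  copSR : (Nat.card S).Coprime (Nat.card R)
  scent : ∀ s ∈ S, ∀ x y : R, s ⁅x, y⁆ = ⁅x, y⁆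
  gen : ∀ L : Subgroup R, commutator R ≤ L → (∀ s ∈ S, ∀ y, y⁻¹ * s y ∈ L) → L = ⊤

/-- The action on `S`. -/
def CT2.act (h : CT2 ρ ε φ S p q r) : A →* MulAut S :=
  restrictAct ((MulAut.conj : MulAut R →* MulAut (MulAut R)).comp φ) S h.inv

theorem CT2.act_apply (h : CT2 ρ ε φ S p q r) (a : A) (s : S) (y : R) :
    φ a ((s : MulAut R) y) = (h.act a s : MulAut R) (φ a y) := by
  show φ a ((s : MulAut R) y) = (φ a * (s : MulAut R) * (φ a)⁻¹) (φ a y)
  rw [MulAut.mul_apply, MulAut.mul_apply, MulAut.inv_apply_self]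

theorem CT2.act_fix (h : CT2 ρ ε φ S p q r) (s : S) (hs : ∀ a, h.act a s = s) : s = 1 :=
  h.sfix s fun a => congrArg Subtype.val (hs a)

/-- A commutator as an element of the centre. -/
def CT2.com (h : CT2 ρ ε φ S p q r) (y z : R) : Subgroup.center R := ⟨⁅y, z⁆, h.cent y z⟩

theorem CT2.com_mul_left (h : CT2 ρ ε φ S p q r) (x y z : R) :
    h.com (x * y) z = h.com x z * h.com y z :=
  Subtype.ext (CfsgLib.Subnormal.commutatorElement_mul_left h.cent x y z)

theorem CT2.com_mul_right (h : CT2 ρ ε φ S p q r) (x y z : R) :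
    h.com x (y * z) = h.com x y * h.com x z :=
  Subtype.ext (CfsgLib.Subnormal.commutatorElement_mul_right h.cent x y z)

/-- The pairing of a central character. -/
def CT2.pair (h : CT2 ρ ε φ S p q r) (ω : Subgroup.center R →* kˣ) (z : R) : R →* kˣ :=
  MonoidHom.mk' (fun y => ω (h.com y z)) fun x y => by rw [h.com_mul_left, map_mul]

/-- The radical of the pairing. -/
def CT2.rad (h : CT2 ρ ε φ S p q r) (ω : Subgroup.center R →* kˣ) : Subgroup R :=
  ⨅ z : R, (h.pair ω z).ker

theorem CT2.mem_rad (h : CT2 ρ ε φ S p q r) {ω : Subgroup.center R →* kˣ} {y : R} :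
    y ∈ h.rad ω ↔ ∀ z, ω (h.com y z) = 1 := by
  simp only [CT2.rad, Subgroup.mem_iInf, MonoidHom.mem_ker]
  rfl

theorem CT2.rad_normal (h : CT2 ρ ε φ S p q r) (ω : Subgroup.center R →* kˣ) :
    (h.rad ω).Normal := Subgroup.normal_iInf_normal fun _ => MonoidHom.normal_ker _

theorem CT2.commutator_le_rad (h : CT2 ρ ε φ S p q r) (ω : Subgroup.center R →* kˣ) :
    commutator R ≤ h.rad ω := le_iInf fun _ => Abelianization.commutator_subset_ker _

theorem CT2.rad_S (h : CT2 ρ ε φ S p q r) (ω : Subgroup.center R →* kˣ) {s : MulAut R}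
    (hs : s ∈ S) {y : R} (hy : y ∈ h.rad ω) : s y ∈ h.rad ω := by
  refine h.mem_rad.2 fun z => ?_
  have e : h.com (s y) z = h.com y (s⁻¹ z) := Subtype.ext (by
    show ⁅s y, z⁆ = ⁅y, s⁻¹ z⁆
    rw [← h.scent s hs y (s⁻¹ z), map_commutatorElement, MulAut.apply_inv_self])
  rw [e]
  exact h.mem_rad.1 hy _

/-- The elements of `S` acting trivially modulo the radical. -/
def CT2.triv (h : CT2 ρ ε φ S p q r) (ω : Subgroup.center R →* kˣ) : Subgroup S where
  carrier := {s | ∀ y, y⁻¹ * (s : MulAut R) y ∈ h.rad ω}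
  one_mem' := fun y => by simp
  mul_mem' := fun {s t} hs ht y => by
    show y⁻¹ * (s : MulAut R) ((t : MulAut R) y) ∈ _
    rw [show y⁻¹ * (s : MulAut R) ((t : MulAut R) y) =
      (y⁻¹ * (t : MulAut R) y) * (((t : MulAut R) y)⁻¹ * (s : MulAut R) ((t : MulAut R) y)) by group]
    exact mul_mem (ht y) (hs _)
  inv_mem' := fun {s} hs y => by
    have := (h.rad ω).inv_mem (hs ((s : MulAut R)⁻¹ y))
    rw [MulAut.apply_inv_self, mul_inv_rev, inv_inv] at this
    exact this

/-- The action on the centre. -/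
def zAct (φ : A →* MulAut R) : A →* MulAut (Subgroup.center R) :=
  restrictAct φ (Subgroup.center R) (inv_of_characteristic φ _)

theorem CT2.compatZ (h : CT2 ρ ε φ S p q r) :
    Compat (ρ.comp (Subgroup.center R).subtype) ε (zAct φ) := fun a z => h.compat a z

theorem CT2.cardZ (h : CT2 ρ ε φ S p q r) : (Nat.card (Subgroup.center R) : k) ≠ 0 := by
  intro e
  obtain ⟨c, hc⟩ := (Subgroup.center R).card_subgroup_dvd_card
  exact h.Rk (by rw [hc, Nat.cast_mul, e, zero_mul])

theorem CT2.unit (h : CT2 ρ ε φ S p q r) (D : Subgroup R) :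
    IsUnit (Nat.card D : Module.End k W) := by
  have hk : (Nat.card D : k) ≠ 0 := fun e => by
    obtain ⟨c, hc⟩ := D.card_subgroup_dvd_card
    exact h.Rk (by rw [hc, Nat.cast_mul, e, zero_mul])
  simpa using (isUnit_iff_ne_zero.2 hk).map (algebraMap k (Module.End k W))

theorem CT2.commute_proj (_h : CT2 ρ ε φ S p q r) (ω : Subgroup.center R →* kˣ) (y : R) :
    Commute (wtProj (ρ.comp (Subgroup.center R).subtype) ω) (ρ y) := by
  unfold wtProj
  refine (Commute.sum_left _ _ _ fun z _ => ?_).smul_left _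
  refine Commute.smul_left ?_ _
  show ρ (z : R) * ρ y = ρ y * ρ (z : R)
  rw [← map_mul, ← map_mul, Subgroup.mem_center_iff.1 z.2 y]

theorem CT2.commute_act [IsAlgClosed k] (h : CT2 ρ ε φ S p q r) (ω : Subgroup.center R →* kˣ) {a : A}
    (ha : a ∈ charStab (zAct φ) ω) :
    Commute (wtProj (ρ.comp (Subgroup.center R).subtype) ω) (ε a) := by
  refine eq_of_eqOn_wtSpace h.cardZ (ρ.comp (Subgroup.center R).subtype) fun ω' v hv => ?_
  have hmem := mem_wtSpace_translate h.compatZ hv a
  rw [Module.End.mul_apply, Module.End.mul_apply]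
  by_cases e : ω' = ω
  · subst e
    have e2 : ω'.comp (zAct φ a⁻¹).toMonoidHom = ω' :=
      MonoidHom.ext ((charStab (zAct φ) ω').inv_mem ha)
    rw [e2] at hmem
    rw [wtProj_apply_self h.cardZ hmem, wtProj_apply_self h.cardZ hv]
  · rw [wtProj_apply_ne (Ne.symm e) hv, map_zero, wtProj_apply_ne (fun e2 => e ?_) hmem]
    refine MonoidHom.ext fun u => ?_
    have h1 := DFunLike.congr_fun e2 (zAct φ a u)
    have h2 : ω (zAct φ a u) = ω u := ha u
    rw [h2] at h1
    rw [h1]
    show _ = ω' (zAct φ a⁻¹ (zAct φ a u))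
    rw [← MulAut.mul_apply, ← map_mul, inv_mul_cancel, map_one, MulAut.one_apply]

theorem CT2.mem_rad_of_fix (h : CT2 ρ ε φ S p q r) {ω : Subgroup.center R →* kˣ}
    (hω : wtSpace (ρ.comp (Subgroup.center R).subtype) ω ≠ ⊥) {d : R}
    (hd : ρ d * wtProj (ρ.comp (Subgroup.center R).subtype) ω =
      wtProj (ρ.comp (Subgroup.center R).subtype) ω) : d ∈ h.rad ω := by
  set E := wtProj (ρ.comp (Subgroup.center R).subtype) ω
  refine h.mem_rad.2 fun z => ?_
  obtain ⟨v, hv, hv0⟩ := Submodule.exists_mem_ne_zero_of_ne_bot hω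
  have hd' : ρ d⁻¹ * E = E := by
    conv_lhs => rw [← hd]
    rw [← mul_assoc, ← map_mul, inv_mul_cancel, map_one, one_mul]
  have h1 : ρ ⁅d, z⁆ * E = E := by
    calc ρ ⁅d, z⁆ * E = ρ d * ρ z * (ρ d⁻¹ * (ρ z⁻¹ * E)) := by
          rw [commutatorElement_def, map_mul, map_mul, map_mul]; simp only [mul_assoc]
      _ = ρ d * ρ z * (ρ d⁻¹ * E * ρ z⁻¹) := by rw [← (h.commute_proj ω z⁻¹).eq]; simp only [E, mul_assoc]
      _ = ρ d * (ρ z * E) * ρ z⁻¹ := by rw [hd']; simp only [mul_assoc]
      _ = E * (ρ z * ρ z⁻¹) := by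
          rw [← (h.commute_proj ω z).eq, ← mul_assoc (ρ d), hd]; simp only [mul_assoc, E]
      _ = E := by rw [← map_mul, mul_inv_cancel, map_one, mul_one]
  have h2 := LinearMap.congr_fun h1 v
  rw [Module.End.mul_apply, wtProj_apply_self h.cardZ hv] at h2
  have h3 : (ω (h.com d z) : k) • v = v := (mem_wtSpace.mp hv (h.com d z)).symm.trans h2
  refine Units.ext ?_
  by_contra hne
  apply hv0
  have h4 : ((ω (h.com d z) : k) - 1) • v = 0 := by rw [sub_smul, one_smul, h3, sub_self]
  exact (smul_eq_zero.1 h4).resolve_left (sub_ne_zero.2 hne)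

/-- An abelian subgroup invariant under the stabiliser is centralised modulo the radical. -/
theorem CT2.diff_of_abelian [IsAlgClosed k] (h : CT2 ρ ε φ S p q r)
    {ω : Subgroup.center R →* kˣ}
    (hω : wtSpace (ρ.comp (Subgroup.center R).subtype) ω ≠ ⊥) {a : A}
    (hT : Subgroup.zpowers a = charStab (zAct φ) ω)
    {t : ℕ} (ht : t.Prime) (hta : orderOf a = t) (htA : t ∣ Nat.card A)
    {U : Subgroup R} (hUc : ∀ x ∈ U, ∀ y ∈ U, x * y = y * x) (hUi : ∀ x ∈ U, φ a x ∈ U)
    {u : R} (hu : u ∈ U) : u * (φ a u)⁻¹ ∈ h.rad ω := by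
  classical
  let D : Subgroup R :=
    { carrier := {d | ∃ x ∈ U, x * (φ a x)⁻¹ = d}
      one_mem' := ⟨1, U.one_mem, by simp⟩
      mul_mem' := by
        rintro _ _ ⟨x, hx, rfl⟩ ⟨y, hy, rfl⟩
        refine ⟨x * y, U.mul_mem hx hy, ?_⟩
        rw [map_mul, mul_inv_rev, mul_assoc x y, ← mul_assoc y,
          hUc (y * (φ a y)⁻¹) (U.mul_mem hy (U.inv_mem (hUi y hy))) (φ a x)⁻¹
            (U.inv_mem (hUi x hx)), ← mul_assoc x]
      inv_mem' := by
        rintro _ ⟨x, hx, rfl⟩
        refine ⟨x⁻¹, U.inv_mem hx, ?_⟩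
        rw [map_inv, inv_inv, mul_inv_rev, inv_inv]
        exact hUc _ (U.inv_mem hx) _ (hUi x hx) }
  have hDi : ∀ b ∈ Subgroup.zpowers a, ∀ β ∈ D, φ b β ∈ D := by
    intro b hb
    rw [← mem_powers_iff_mem_zpowers, Submonoid.mem_powers_iff] at hb
    obtain ⟨n, rfl⟩ := hb
    induction n with
    | zero => intro β hβ; simpa using hβ
    | succ n ih =>
      intro β hβ
      rw [pow_succ, map_mul, MulAut.mul_apply]
      refine ih _ ?_
      obtain ⟨x, hx, rfl⟩ := hβ
      exact ⟨φ a x, hUi x hx, by rw [map_mul, map_inv]⟩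
  have hft : (φ a) ^ t = 1 := by rw [← map_pow, ← hta, pow_orderOf_eq_one, map_one]
  have htR : t.Coprime (Nat.card R) := h.copR.coprime_dvd_left htA
  have hDf : ∀ b ∈ Subgroup.zpowers a, b ≠ 1 → ∀ β ∈ D, φ b β = β → β = 1 := by
    intro b hb hb1 β hβ hfixb
    obtain ⟨x, hx, rfl⟩ := hβ
    refine eq_one_of_fixed_diff (φ a) hft htR ?_
    have ha' : a ∈ Subgroup.zpowers b := by
      haveI := Fact.mk ht
      have hcard : Nat.card (Subgroup.zpowers a) = t := by rw [Nat.card_zpowers, hta]
      have h1 := mem_zpowers_of_prime_card hcard (g := (⟨b, hb⟩ : Subgroup.zpowers a))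
        (g' := ⟨a, Subgroup.mem_zpowers a⟩) fun e => hb1 (congrArg Subtype.val e)
      obtain ⟨n, hn⟩ := h1
      exact ⟨n, congrArg Subtype.val hn⟩
    exact fix_of_mem_zpowers ha' hfixb
  have hN := gsum_charStab h.compatZ h.sum0 h.cardZ ω
  rw [← hT] at hN
  exact h.mem_rad_of_fix hω (fpf_ring h.compat _ D (h.unit D) hDi hDf _ hN
    (fun β _ => h.commute_proj ω β) _ ⟨u, hu, rfl⟩)

/-- The stabiliser of the character acts trivially on `S` modulo the radical. -/
theorem CT2.diff_triv [IsAlgClosed k] (h : CT2 ρ ε φ S p q r) {ω : Subgroup.center R →* kˣ}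
    (hω : wtSpace (ρ.comp (Subgroup.center R).subtype) ω ≠ ⊥)
    (htop : charStab (zAct φ) ω ≠ ⊤) {a : A} (ha : a ∈ charStab (zAct φ) ω) (s : S) :
    s⁻¹ * h.act a s ∈ h.triv ω := by
  classical
  by_cases ha1 : a = 1
  · subst ha1; simp
  set T := charStab (zAct φ) ω with hTdef
  have hTb : T ≠ ⊥ := fun e => ha1 (Subgroup.mem_bot.1 (e ▸ ha))
  obtain ⟨t, ht, hTc, htA⟩ : ∃ t : ℕ, t.Prime ∧ Nat.card T = t ∧ t ∣ Nat.card A := by
    rcases h.pq.card_cases hTb htop with e | e
    · exact ⟨p, h.pq.prime_p, e, e ▸ T.card_subgroup_dvd_card⟩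
    · exact ⟨q, h.pq.prime_q, e, e ▸ T.card_subgroup_dvd_card⟩
  haveI := Fact.mk ht
  have hza : Subgroup.zpowers a = T := by
    refine le_antisymm (Subgroup.zpowers_le.2 ha) fun b hb => ?_
    obtain ⟨n, hn⟩ := mem_zpowers_of_prime_card hTc (g := (⟨a, ha⟩ : T)) (g' := ⟨b, hb⟩)
      fun e => ha1 (congrArg Subtype.val e)
    exact ⟨n, congrArg Subtype.val hn⟩
  have hta : orderOf a = t := by rw [← Nat.card_zpowers, hza, hTc]
  have hft : (φ a) ^ t = 1 := by rw [← map_pow, ← hta, pow_orderOf_eq_one, map_one]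
  rcases ht.eq_two_or_odd' with ht2 | hodd
  · -- an involution inverts the eigenspace
    set E := wtProj (ρ.comp (Subgroup.center R).subtype) ω
    have hN := gsum_charStab h.compatZ h.sum0 h.cardZ ω
    rw [← hTdef, ← hza] at hN
    have hz : gsum ε (Subgroup.zpowers a) = 1 + ε a := by
      have hset : (Set.toFinite ((Subgroup.zpowers a : Subgroup A) : Set A)).toFinset = {1, a} := by
        have h2 : a * a = 1 := by rw [← sq, ← ht2, ← hta, pow_orderOf_eq_one]
        ext b
        simp only [Set.Finite.mem_toFinset, SetLike.mem_coe, Finset.mem_insert, Finset.mem_singleton]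
        constructor
        · intro hb
          rw [← mem_powers_iff_mem_zpowers, Submonoid.mem_powers_iff] at hb
          obtain ⟨n, rfl⟩ := hb
          rcases Nat.even_or_odd n with ⟨m, rfl⟩ | ⟨m, rfl⟩
          · left; rw [← two_mul, pow_mul, sq, h2, one_pow]
          · right; rw [pow_succ, pow_mul, sq, h2, one_pow, one_mul]
        · rintro (rfl | rfl)
          · exact one_mem _
          · exact Subgroup.mem_zpowers _
      rw [gsum, hset, Finset.sum_pair (Ne.symm ha1), map_one]
    rw [hz, add_mul, one_mul, add_eq_zero_iff_eq_neg'] at hN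
    have hfy : ∀ y, φ a y * y⁻¹ ∈ h.rad ω := by
      intro y
      refine h.mem_rad_of_fix hω ?_
      have e1 : ρ (φ a y) * E = ρ y * E := by
        have e2 : ε a * (ρ y * E) = ρ (φ a y) * (ε a * E) := by
          rw [← mul_assoc, h.compat, mul_assoc]
        rw [← (h.commute_proj ω y).eq, ← mul_assoc, hN, mul_neg, neg_mul, neg_inj] at e2
        rw [← e2]
        exact (h.commute_proj ω y).eq
      rw [map_mul, mul_assoc, ← (h.commute_proj ω y⁻¹).eq, ← mul_assoc, e1,
        ← (h.commute_proj ω y).eq, mul_assoc, ← map_mul, mul_inv_cancel, map_one, mul_one]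
    intro y
    haveI := h.rad_normal ω
    set π := QuotientGroup.mk' (h.rad ω)
    have hπ : ∀ y, π (φ a y) = π y := fun y => by
      rw [← mul_inv_eq_one, ← map_inv, ← map_mul]
      exact (QuotientGroup.eq_one_iff _).2 (hfy y)
    have hπS : ∀ (x : S) (y z : R), π y = π z → π ((x : MulAut R) y) = π ((x : MulAut R) z) := by
      intro x y z e
      rw [QuotientGroup.mk'_apply, QuotientGroup.mk'_apply, QuotientGroup.eq] at e ⊢
      rw [← map_inv, ← map_mul]
      exact h.rad_S ω x.2 e
    show y⁻¹ * ((s : MulAut R)⁻¹ * (h.act a s : MulAut R)) y ∈ h.rad ω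
    rw [← QuotientGroup.eq, ← QuotientGroup.mk'_apply, ← QuotientGroup.mk'_apply]
    rw [MulAut.mul_apply]
    have e1 : π ((h.act a s : MulAut R) (φ a y)) = π ((s : MulAut R) y) := by
      rw [← h.act_apply, hπ]
    have e2 : π ((h.act a s : MulAut R) y) = π ((s : MulAut R) y) :=
      (hπS (h.act a s) _ _ (hπ y)).symm.trans e1
    have e3 := hπS s⁻¹ _ _ e2
    rw [InvMemClass.coe_inv, MulAut.inv_apply_self] at e3
    exact e3.symm
  · -- odd order
    haveI hn := h.rad_normal ω
    letI : CommGroup (R ⧸ h.rad ω) := { (inferInstance : Group (R ⧸ h.rad ω)) with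
      mul_comm := fun x y => by
        induction x using QuotientGroup.induction_on with | _ x => ?_
        induction y using QuotientGroup.induction_on with | _ y => ?_
        refine QuotientGroup.eq.2 ?_
        rw [show (x * y)⁻¹ * (y * x) = ⁅y⁻¹, x⁻¹⁆ by rw [commutatorElement_def]; group]
        exact h.commutator_le_rad ω
          (Subgroup.commutator_mem_commutator (Subgroup.mem_top _) (Subgroup.mem_top _)) }
    letI : CommGroup S := { (inferInstance : Group S) with
      mul_comm := fun x y => Subtype.ext (h.scomm x x.2 y y.2) }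
    let τ : S →* AddMonoid.End (Additive (R ⧸ h.rad ω)) :=
      (endHom (R ⧸ h.rad ω)).comp (quotAct S.subtype (h.rad ω) fun x y hy => h.rad_S ω x.2 hy)
    have hTrad : Inv (φ.comp T.subtype) (h.rad ω) := by
      intro b y hy
      refine h.mem_rad.2 fun z => ?_
      have e : h.com (φ b y) z = zAct φ b (h.com y (φ b⁻¹ z)) := Subtype.ext (by
        show ⁅φ b y, z⁆ = φ (b : A) ⁅y, φ (b : A)⁻¹ z⁆
        rw [map_commutatorElement, show φ (b : A) (φ (b : A)⁻¹ z) = z by
          rw [← MulAut.mul_apply, ← map_mul, mul_inv_cancel, map_one, MulAut.one_apply]])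
      show ω (h.com (φ b y) z) = 1
      rw [e, b.2]
      exact h.mem_rad.1 hy _
    let εY : T →* AddMonoid.End (Additive (R ⧸ h.rad ω)) :=
      (endHom (R ⧸ h.rad ω)).comp (quotAct (φ.comp T.subtype) (h.rad ω) hTrad)
    have hτ : ∀ (x : S) (y : R), τ x (Additive.ofMul (y : R ⧸ h.rad ω)) =
        Additive.ofMul (((x : MulAut R) y : R) : R ⧸ h.rad ω) := fun x y => rfl
    -- fixed points are centralised by the differences
    have hfixed : ∀ y : R, φ a y = y → ∀ x : S, (y⁻¹ * (((x⁻¹ * h.act a x : S) : MulAut R) y)) ∈ h.rad ω := by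
      intro y hy
      set f : S → R := fun x => ⁅(x : MulAut R) y, y⁆
      have hfix' : ∀ (x : S) (z w : R), (x : MulAut R) ⁅z, w⁆ = ⁅z, w⁆ := fun x => h.scent x x.2
      have hff : ∀ x x' : S, ⁅(x : MulAut R) y, (x' : MulAut R) y⁆ = f (x'⁻¹ * x) := by
        intro x x'
        rw [← hfix' x'⁻¹, map_commutatorElement, InvMemClass.coe_inv, MulAut.inv_apply_self]
        rfl
      have hfinv : ∀ x : S, f x⁻¹ = (f x)⁻¹ := fun x => by
        show ⁅((x⁻¹ : S) : MulAut R) y, y⁆ = ⁅(x : MulAut R) y, y⁆⁻¹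
        rw [← hfix' x (((x⁻¹ : S) : MulAut R) y) y, map_commutatorElement, InvMemClass.coe_inv,
          MulAut.apply_inv_self, commutatorElement_inv]
      set u : S → R := fun x => (x : MulAut R) y * ((x⁻¹ : S) : MulAut R) y
      have hcl := CfsgLib.Subnormal.commutatorElement_mul_left h.cent
      have hcr := CfsgLib.Subnormal.commutatorElement_mul_right h.cent
      have huy : ∀ x, u x * y = y * u x := by
        intro x
        refine commutatorElement_eq_one_iff_mul_comm.1 ?_
        show ⁅(x : MulAut R) y * ((x⁻¹ : S) : MulAut R) y, y⁆ = 1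
        rw [hcl]
        show f x * f x⁻¹ = 1
        rw [hfinv, mul_inv_cancel]
      have huu : ∀ x x', u x * u x' = u x' * u x := by
        intro x x'
        refine commutatorElement_eq_one_iff_mul_comm.1 ?_
        rw [hcl, hcr, hcr, hff, hff, hff, hff,
          show (x'⁻¹)⁻¹ * x = (x'⁻¹ * x⁻¹)⁻¹ by rw [mul_inv_rev, inv_inv, inv_inv, mul_comm],
          show (x'⁻¹)⁻¹ * x⁻¹ = (x'⁻¹ * x)⁻¹ by rw [mul_inv_rev, inv_inv, mul_comm], hfinv, hfinv]
        have hc : ∀ z w, z * f w = f w * z := fun z w => Subgroup.mem_center_iff.1 (h.cent _ _) z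
        set P := f (x'⁻¹ * x)
        set Q := f (x'⁻¹ * x⁻¹)
        have hPQ : P * Q = Q * P := hc _ _
        group
      set U := Subgroup.closure (insert y (Set.range u))
      have hgen : ∀ z ∈ insert y (Set.range u), ∀ w ∈ insert y (Set.range u), z * w = w * z := by
        rintro z (rfl | ⟨x, rfl⟩) w (rfl | ⟨x', rfl⟩)
        · rfl
        · exact (huy x').symm
        · exact huy x
        · exact huu x x'
      haveI := Subgroup.isMulCommutative_closure hgen
      have hUc : ∀ z ∈ U, ∀ w ∈ U, z * w = w * z := fun z hz w hw =>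
        congrArg Subtype.val (mul_comm' (⟨z, hz⟩ : U) ⟨w, hw⟩)
      have hau : ∀ x, φ a (u x) = u (h.act a x) := fun x => by
        show φ a ((x : MulAut R) y * ((x⁻¹ : S) : MulAut R) y) = _
        rw [map_mul, h.act_apply, h.act_apply, hy, map_inv]
      have hUi : ∀ z ∈ U, φ a z ∈ U := by
        intro z hz
        refine (Subgroup.closure_le (K := U.comap (φ a).toMonoidHom)).2 ?_ hz
        rintro w (rfl | ⟨x, rfl⟩)
        · exact (hy.symm ▸ Subgroup.subset_closure (Set.mem_insert _ _) : φ a w ∈ U)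
        · show φ a (u x) ∈ U
          rw [hau]
          exact Subgroup.subset_closure (Or.inr ⟨_, rfl⟩)
      have hsum : ∀ x, (τ x + τ x⁻¹) (Additive.ofMul (y : R ⧸ h.rad ω)) =
          (τ (h.act a x) + τ (h.act a x)⁻¹) (Additive.ofMul (y : R ⧸ h.rad ω)) := by
        intro x
        have h1 := h.diff_of_abelian hω hza ht hta htA hUc hUi
          (Subgroup.subset_closure (Or.inr ⟨x, rfl⟩) : u x ∈ U)
        rw [hau] at h1
        show Additive.ofMul (((u x : R)) : R ⧸ h.rad ω) = Additive.ofMul ((u (h.act a x) : R) : R ⧸ h.rad ω)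
        refine congrArg Additive.ofMul ?_
        rw [← mul_inv_eq_one, ← QuotientGroup.mk_inv, ← QuotientGroup.mk_mul]
        exact (QuotientGroup.eq_one_iff _).2 h1
      -- the ring generated by `S` modulo the annihilator of `y`
      let L : MonoidAlgebra ℤ S →ₐ[ℤ] AddMonoid.End (Additive (R ⧸ h.rad ω)) :=
        MonoidAlgebra.lift ℤ (AddMonoid.End (Additive (R ⧸ h.rad ω))) S τ
      let v : Additive (R ⧸ h.rad ω) := Additive.ofMul (y : R ⧸ h.rad ω)
      let I : Ideal (MonoidAlgebra ℤ S) :=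
        { carrier := {c | L c v = 0}
          add_mem' := fun {c d} hc hd => by
            show L (c + d) v = 0
            rw [map_add]
            show L c v + L d v = 0
            rw [hc, hd, add_zero]
          zero_mem' := by show L 0 v = 0; rw [map_zero]; rfl
          smul_mem' := fun c d hd => by
            show L (c * d) v = 0
            rw [map_mul]
            show L c (L d v) = 0
            rw [hd, map_zero] }
      let χ : S →* MonoidAlgebra ℤ S ⧸ I :=
        (Ideal.Quotient.mk I : MonoidAlgebra ℤ S →* MonoidAlgebra ℤ S ⧸ I).comp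
          (MonoidAlgebra.of ℤ S)
      have hLof : ∀ x : S, L (MonoidAlgebra.of ℤ S x) = τ x := fun x =>
        MonoidAlgebra.lift_of τ x
      have hIcard : (Nat.card R : MonoidAlgebra ℤ S ⧸ I) = 0 := by
        rw [← map_natCast (Ideal.Quotient.mk I), Ideal.Quotient.eq_zero_iff_mem]
        show L (Nat.card R : MonoidAlgebra ℤ S) v = 0
        rw [map_natCast]
        show Nat.card R • v = 0
        have : ((y : R ⧸ h.rad ω)) ^ Nat.card R = 1 := by
          rw [← QuotientGroup.mk_pow, pow_card_eq_one', QuotientGroup.mk_one]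
        exact congrArg Additive.ofMul this
      have hfS : (h.act a) ^ t = 1 := by rw [← map_pow, ← hta, pow_orderOf_eq_one, map_one]
      have key := eq_of_symm_sum χ (h.act a) hodd hfS (isUnit_cast_of_coprime hIcard h.copSR) (by
        intro x
        show Ideal.Quotient.mk I _ + Ideal.Quotient.mk I _ =
          Ideal.Quotient.mk I _ + Ideal.Quotient.mk I _
        rw [← map_add (Ideal.Quotient.mk I), ← map_add (Ideal.Quotient.mk I), Ideal.Quotient.eq]
        show L _ v = 0
        rw [map_sub, map_add, map_add, hLof, hLof, hLof, hLof]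
        show (τ x + τ x⁻¹) v - (τ (h.act a x) + τ (h.act a x)⁻¹) v = 0
        rw [hsum x, sub_self])
      intro x
      have h1 := key x
      have h2 : L (MonoidAlgebra.of ℤ S (h.act a x) - MonoidAlgebra.of ℤ S x) v = 0 :=
        Ideal.Quotient.eq.1 h1
      rw [map_sub, hLof, hLof] at h2
      have h3 : τ (h.act a x) v = τ x v := sub_eq_zero.1 h2
      have h4 := congrArg (fun w => τ x⁻¹ w) h3
      simp only [← End_mul_apply τ, inv_mul_cancel, End_one_apply] at h4
      rw [← QuotientGroup.eq]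
      exact (congrArg Additive.toMul h4).symm
    -- hence everywhere
    have hcY : Compat τ εY ((h.act).comp T.subtype) := by
      intro b x
      refine AddMonoidHom.ext fun w => ?_
      obtain ⟨z, rfl⟩ : ∃ z : R, Additive.ofMul (z : R ⧸ h.rad ω) = w :=
        QuotientGroup.mk_surjective (Additive.toMul w)
      exact congrArg (fun z : R => Additive.ofMul (z : R ⧸ h.rad ω)) (h.act_apply b x z)
    let δ : S →* S := MonoidHom.mk' (fun x => x⁻¹ * h.act a x) fun x x' => by
      rw [map_mul, mul_inv_rev]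
      simp only [mul_assoc, mul_comm, mul_left_comm]
    let D := δ.range
    have hTz : ∀ b : T, (b : A) ∈ Subgroup.zpowers a := fun b => hza.ge b.2
    have hcomm : ∀ b : T, (b : A) * a = a * (b : A) := fun b => by
      obtain ⟨n, hn⟩ := hTz b
      rw [← hn]
      exact ((Commute.refl a).zpow_left n).eq
    have hDi : ∀ b ∈ (⊤ : Subgroup T), ∀ β ∈ D, ((h.act).comp T.subtype) b β ∈ D := by
      rintro b - _ ⟨x, rfl⟩
      refine ⟨h.act (b : A) x, ?_⟩
      show (h.act (b : A) x)⁻¹ * h.act a (h.act (b : A) x) = h.act (b : A) (x⁻¹ * h.act a x)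
      rw [map_mul, map_inv, ← MulAut.mul_apply, ← map_mul, ← hcomm b, map_mul, MulAut.mul_apply]
    have htS : t.Coprime (Nat.card S) := h.copS.coprime_dvd_left htA
    have hfS : (h.act a) ^ t = 1 := by rw [← map_pow, ← hta, pow_orderOf_eq_one, map_one]
    have hDf : ∀ b ∈ (⊤ : Subgroup T), b ≠ 1 → ∀ β ∈ D,
        ((h.act).comp T.subtype) b β = β → β = 1 := by
      rintro b - hb1 _ ⟨x, rfl⟩ hfixb
      have ha' : a ∈ Subgroup.zpowers (b : A) := by
        obtain ⟨n, hn⟩ := mem_zpowers_of_prime_card hTc (g := b) (g' := ⟨a, ha⟩) hb1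
        exact ⟨n, congrArg Subtype.val hn⟩
      have h1 : h.act a (δ x) = δ x := fix_of_mem_zpowers (φ := h.act) ha' hfixb
      have h2 := eq_one_of_fixed_diff (h.act a) hfS htS (u := x⁻¹)
        (by rw [map_inv, inv_inv]; exact h1)
      rw [map_inv, inv_inv] at h2
      exact h2
    have huY : IsUnit (Nat.card D : AddMonoid.End (Additive (R ⧸ h.rad ω))) := by
      refine isUnit_cast_of_coprime (N := Nat.card R) ?_
        (h.copSR.coprime_dvd_left D.card_subgroup_dvd_card)
      refine AddMonoidHom.ext fun w => ?_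
      show Nat.card R • w = 0
      obtain ⟨z, rfl⟩ : ∃ z : R, Additive.ofMul (z : R ⧸ h.rad ω) = w :=
        QuotientGroup.mk_surjective (Additive.toMul w)
      have : ((z : R ⧸ h.rad ω)) ^ Nat.card R = 1 := by
        rw [← QuotientGroup.mk_pow, pow_card_eq_one', QuotientGroup.mk_one]
      exact congrArg Additive.ofMul this
    set E := (Nat.card D : AddMonoid.End (Additive (R ⧸ h.rad ω))) - gsum τ D with hE
    have hEτ : ∀ β ∈ D, Commute E (τ β) := fun β hβ =>
      ((Nat.cast_commute _ _).sub_left (commute_gsum_of_conj τ fun γ hγ => by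
        rw [mul_comm β γ, mul_inv_cancel_right]; exact hγ))
    have hEN : gsum εY ⊤ * E = 0 := by
      have hcm : Commute (gsum εY ⊤) E := by
        refine (Nat.cast_commute _ _).symm.sub_right ?_
        refine Commute.sum_left _ _ _ fun b _ => ?_
        exact (commute_gsum_act hcY fun β hβ => hDi b (Subgroup.mem_top b) β hβ).symm
      rw [hcm.eq]
      refine AddMonoidHom.ext fun w => ?_
      show E (gsum εY ⊤ w) = 0
      set w' := gsum εY ⊤ w
      have hw' : ∀ b, εY b w' = w' := fun b => DFunLike.congr_fun (gsum_mul_left εY (Subgroup.mem_top b)) w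
      obtain ⟨z, hz⟩ : ∃ z : R, Additive.ofMul (z : R ⧸ h.rad ω) = w' :=
        QuotientGroup.mk_surjective (Additive.toMul w')
      haveI : Group.IsSolvable T := by
        haveI := h.pq.isSolvable
        infer_instance
      obtain ⟨c, hc, hcf⟩ := CfsgLib.CoprimeAction.exists_fixed_mem_coset (φ.comp T.subtype) hTrad
        ((h.copR.coprime_dvd_left T.card_subgroup_dvd_card).coprime_dvd_right
          (h.rad ω).card_subgroup_dvd_card) (Or.inl inferInstance) (x := z) (fun b => by
          have := hw' b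
          rw [← hz] at this
          exact QuotientGroup.eq.1 (congrArg Additive.toMul this).symm)
      have hzc : (z : R ⧸ h.rad ω) = c := QuotientGroup.eq.2 hc
      have hDfix : ∀ β ∈ D, τ β w' = w' := by
        rintro _ ⟨x, rfl⟩
        rw [← hz, hzc]
        exact congrArg Additive.ofMul
          (QuotientGroup.eq.2 (hfixed c (hcf ⟨a, ha⟩) x)).symm
      show (Nat.card D : AddMonoid.End (Additive (R ⧸ h.rad ω))) w' - gsum τ D w' = 0
      rw [gsum, End_sum_apply, Finset.sum_congr rfl (fun β hβ => hDfix β (by simpa using hβ)),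
        Finset.sum_const, gsum_card]
      exact sub_self _
    have hfin := fpf_ring hcY ⊤ D huY hDi hDf E hEN hEτ
    intro y
    have hd : δ s ∈ D := ⟨s, rfl⟩
    have h1 : τ (δ s) * E = E := hfin _ hd
    rw [hE, mul_sub, gsum_mul_left τ hd, sub_left_inj,
      ← (Nat.cast_commute _ _).eq] at h1
    have h2 : τ (δ s) = 1 := huY.mul_left_cancel (h1.trans (mul_one _).symm)
    have h3 := DFunLike.congr_fun h2 (Additive.ofMul (y : R ⧸ h.rad ω))
    exact QuotientGroup.eq.1 (congrArg Additive.toMul h3).symm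

end CfsgLib.MetacyclicP
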