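import Mathlib
import Cfsg.Agent.Lib.MetacyclicP.FPFPQClassTwo

/-!
A class-two group represented faithfully, with a fixed-point-free group of order `p * q` and a
coprime operator group fixing commutators only trivially fixing the abelianisation, is abelian.
-/

set_option autoImplicit false
set_option linter.style.haveILetI false
set_option linter.unusedSectionVars false

open scoped commutatorElement IsMulCommutative

namespace CfsgLib.MetacyclicP

open CfsgLib.BGRep

variable {k : Type*} [Field k] {W : Type*} [AddCommGroup W] [Module k W]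
variable {A R : Type*} [Group A] [Finite A] [Group R] [Finite R]
variable {ρ : R →* Module.End k W} {ε : A →* Module.End k W} {φ : A →* MulAut R}
variable {S : Subgroup (MulAut R)} {p q r : ℕ}

/-- The commutative quotient by the derived subgroup. -/
local instance abQuotCommGroup {R : Type*} [Group R] : CommGroup (R ⧸ commutator R) :=
  inferInstanceAs (CommGroup (Abelianization R))

/-- The action of `S` on the abelianisation. -/
def CT2.tauX (_h : CT2 ρ ε φ S p q r) : S →* AddMonoid.End (Additive (R ⧸ commutator R)) :=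
  (endHom (R ⧸ commutator R)).comp
    (quotAct S.subtype (commutator R) (inv_of_characteristic _ _))

/-- The action of `A` on the abelianisation. -/
def CT2.epsX (_h : CT2 ρ ε φ S p q r) : A →* AddMonoid.End (Additive (R ⧸ commutator R)) :=
  (endHom (R ⧸ commutator R)).comp (quotAct φ (commutator R) (inv_of_characteristic _ _))

/-- The pairing on the abelianisation. -/
def CT2.gX (h : CT2 ρ ε φ S p q r) (ω : Subgroup.center R →* kˣ) (z : R) :
    Additive (R ⧸ commutator R) →+ Additive kˣ :=
  MonoidHom.toAdditive (QuotientGroup.lift (commutator R) (h.pair ω z)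
    (Abelianization.commutator_subset_ker _))

theorem CT2.gX_mk (h : CT2 ρ ε φ S p q r) (ω : Subgroup.center R →* kˣ) (z y : R) :
    h.gX ω z (Additive.ofMul (y : R ⧸ commutator R)) = Additive.ofMul (ω (h.com y z)) := rfl

theorem exists_repr {R : Type*} [Group R] {N : Subgroup R} (v : Additive (R ⧸ N)) :
    ∃ y : R, Additive.ofMul (y : R ⧸ N) = v :=
  QuotientGroup.mk_surjective (Additive.toMul v)

theorem CT2.gX_eq_zero (h : CT2 ρ ε φ S p q r) {ω : Subgroup.center R →* kˣ} {y : R} :
    y ∈ h.rad ω ↔ ∀ z, h.gX ω z (Additive.ofMul (y : R ⧸ commutator R)) = 0 := by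
  rw [h.mem_rad]
  exact forall_congr' fun z => Iff.rfl

theorem CT2.gX_triv (h : CT2 ρ ε φ S p q r) {ω : Subgroup.center R →* kˣ} {s : S}
    (hs : s ∈ h.triv ω) (z : R) (v : Additive (R ⧸ commutator R)) :
    h.gX ω z (h.tauX s v) = h.gX ω z v := by
  obtain ⟨y, rfl⟩ := exists_repr v
  show Additive.ofMul (ω (h.com ((s : MulAut R) y) z)) = Additive.ofMul (ω (h.com y z))
  have h1 : ω (h.com (y⁻¹ * (s : MulAut R) y) z) = 1 := h.mem_rad.1 (hs y) z
  rw [show (s : MulAut R) y = y * (y⁻¹ * (s : MulAut R) y) by group, h.com_mul_left, map_mul, h1,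
    mul_one]

theorem eq_zero_of_nsmul {V : Type*} [AddCommGroup V] {n N : ℕ} (hc : n.Coprime N) {v : V}
    (hn : n • v = 0) (hN : N • v = 0) : v = 0 := by
  have h := Nat.dvd_gcd (addOrderOf_dvd_of_nsmul_eq_zero hn) (addOrderOf_dvd_of_nsmul_eq_zero hN)
  rwa [hc.gcd_eq_one, Nat.dvd_one, AddMonoid.addOrderOf_eq_one_iff] at h

theorem CT2.ann (_h : CT2 ρ ε φ S p q r) (v : Additive (R ⧸ commutator R)) :
    Nat.card R • v = 0 := by
  obtain ⟨y, rfl⟩ := exists_repr v
  have : ((y : R ⧸ commutator R)) ^ Nat.card R = 1 := by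
    rw [← QuotientGroup.mk_pow, pow_card_eq_one', QuotientGroup.mk_one]
  exact congrArg Additive.ofMul this

theorem CT2.sumX_eq_zero (h : CT2 ρ ε φ S p q r) (v : Additive (R ⧸ commutator R)) :
    gsum h.tauX ⊤ v = 0 := by
  let L : Subgroup R :=
    { carrier := {y | gsum h.tauX ⊤ (Additive.ofMul (y : R ⧸ commutator R)) = 0}
      one_mem' := map_zero (gsum h.tauX ⊤)
      mul_mem' := fun {a b} ha hb => by
        show gsum h.tauX ⊤ (Additive.ofMul (a : R ⧸ commutator R) + Additive.ofMul (b : R ⧸ commutator R)) = 0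
        rw [map_add, ha, hb, add_zero]
      inv_mem' := fun {a} ha => by
        show gsum h.tauX ⊤ (- Additive.ofMul (a : R ⧸ commutator R)) = 0
        rw [map_neg, ha, neg_zero] }
  have hL : L = ⊤ := by
    refine h.gen L (fun y hy => ?_) fun s hs y => ?_
    · show gsum h.tauX ⊤ (Additive.ofMul (y : R ⧸ commutator R)) = 0
      rw [(QuotientGroup.eq_one_iff y).2 hy]
      exact map_zero _
    · show gsum h.tauX ⊤ (- Additive.ofMul (y : R ⧸ commutator R) +
        h.tauX ⟨s, hs⟩ (Additive.ofMul (y : R ⧸ commutator R))) = 0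
      rw [map_add, map_neg,
        show gsum h.tauX ⊤ (h.tauX ⟨s, hs⟩ (Additive.ofMul (y : R ⧸ commutator R))) =
          gsum h.tauX ⊤ (Additive.ofMul (y : R ⧸ commutator R)) from
          DFunLike.congr_fun (gsum_mul_right h.tauX (Subgroup.mem_top (⟨s, hs⟩ : S))) _,
        neg_add_cancel]
  obtain ⟨y, rfl⟩ := exists_repr v
  exact hL.ge (Subgroup.mem_top y)

/-- A linear form invariant under `S` on `v` kills it. -/
theorem CT2.gX_eq_zero_of_invariant (h : CT2 ρ ε φ S p q r) (ω : Subgroup.center R →* kˣ) (z : R)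
    {v : Additive (R ⧸ commutator R)} (hv : ∀ s : S, h.gX ω z (h.tauX s v) = h.gX ω z v) :
    h.gX ω z v = 0 := by
  refine eq_zero_of_nsmul (n := Nat.card (⊤ : Subgroup S)) (N := Nat.card R)
    (by rw [Subgroup.card_top]; exact h.copSR) ?_ (by rw [← map_nsmul, h.ann, map_zero])
  have e := congrArg (h.gX ω z) (h.sumX_eq_zero v)
  rw [gsum, End_sum_apply, map_sum, map_zero, Finset.sum_congr rfl fun s _ => hv s,
    Finset.sum_const, gsum_card] at e
  exact e

theorem CT2.fixZ (h : CT2 ρ ε φ S p q r) (u : Subgroup.center R) (hu : ∀ a, zAct φ a u = u) :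
    u = 1 := Subtype.ext (h.fixR u fun a => congrArg Subtype.val (hu a))

theorem CT2.copZ (h : CT2 ρ ε φ S p q r) :
    (Nat.card A).Coprime (Nat.card (Subgroup.center R)) :=
  h.copR.coprime_dvd_right (Subgroup.center R).card_subgroup_dvd_card

theorem CT2.case_p [IsAlgClosed k] (h : CT2 ρ ε φ S p q r) {ω : Subgroup.center R →* kˣ}
    (hω : wtSpace (ρ.comp (Subgroup.center R).subtype) ω ≠ ⊥)
    (hTp : Nat.card (charStab (zAct φ) ω) = p) (y z : R) : ω (h.com y z) = 1 := by
  classical
  haveI := h.pq.isSolvable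
  set T := charStab (zAct φ) ω
  obtain ⟨Q, hQ⟩ := h.pq.exists_q
  haveI := h.pq.normal_q hQ
  set ωx : A → (Subgroup.center R →* kˣ) := fun x => ω.comp (zAct φ x⁻¹).toMonoidHom
  have hωx : ∀ x, wtSpace (ρ.comp (Subgroup.center R).subtype) (ωx x) ≠ ⊥ := by
    intro x e
    obtain ⟨v, hv, hv0⟩ := Submodule.exists_mem_ne_zero_of_ne_bot hω
    have hmem := mem_wtSpace_translate h.compatZ hv x
    change ε x v ∈ wtSpace _ (ωx x) at hmem
    rw [e, Submodule.mem_bot] at hmem
    apply hv0
    calc v = (ε x⁻¹ * ε x) v := by rw [← map_mul, inv_mul_cancel, map_one]; rfl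
      _ = 0 := by rw [Module.End.mul_apply, hmem, map_zero]
  have hmemx : ∀ x, ∀ a, a ∈ charStab (zAct φ) (ωx x) ↔ x⁻¹ * a * x ∈ T := by
    intro x a
    constructor
    · intro ha u
      have h1 := ha (zAct φ x u)
      show ω (zAct φ (x⁻¹ * a * x) u) = ω u
      simp only [ωx, MonoidHom.comp_apply, MulEquiv.coe_toMonoidHom, ← MulAut.mul_apply,
        ← map_mul] at h1
      rw [inv_mul_cancel, map_one, MulAut.one_apply] at h1
      rwa [mul_assoc]
    · intro ha u
      show ω (zAct φ x⁻¹ (zAct φ a u)) = ω (zAct φ x⁻¹ u)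
      have h1 := ha (zAct φ x⁻¹ u)
      rw [← MulAut.mul_apply, ← map_mul, mul_inv_cancel_right] at h1
      rw [← MulAut.mul_apply, ← map_mul]
      exact h1
  have hTb : T ≠ ⊥ := h.pq.ne_bot_of_card (Or.inl hTp)
  have hTt : T ≠ ⊤ := by
    intro e
    rw [e, Subgroup.card_top, h.pq.card] at hTp
    exact h.pq.prime_q.ne_one ((Nat.mul_eq_left h.pq.prime_p.ne_zero).1 hTp)
  have htopx : ∀ x, charStab (zAct φ) (ωx x) ≠ ⊤ := fun x e =>
    hTt (eq_top_iff.2 fun a _ => by
      have := (hmemx x (x * a * x⁻¹)).1 (e ▸ Subgroup.mem_top _)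
      rwa [show x⁻¹ * (x * a * x⁻¹) * x = a by group] at this)
  set Qs := (Set.toFinite (Q : Set A)).toFinset
  -- the product over the normal subgroup vanishes
  have hsum : ∀ u, ∏ x ∈ Qs, ωx x u = 1 := by
    intro u
    set εZ : A →* AddMonoid.End (HomChar (Subgroup.center R) kˣ) := homEnd (zAct φ)
    have h0 : gsum εZ Q (HomChar.of ω) = 0 := by
      refine HomChar.eq_zero_of_fixed h.copZ h.fixZ fun a => ?_
      have hle : T ⊔ Q ≤ fixStab εZ (gsum εZ Q (HomChar.of ω)) := by
        refine sup_le (fun a ha => ?_) fun x hx =>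
          DFunLike.congr_fun (gsum_mul_left εZ hx) _
        show (εZ a * gsum εZ Q) (HomChar.of ω) = _
        rw [← (commute_gsum_of_conj εZ (h := a)
          fun β hβ => (h.pq.normal_q hQ).conj_mem β hβ a).eq]
        refine congrArg (fun v => gsum εZ Q v) (HomChar.ext fun w => ?_)
        exact T.inv_mem ha w
      exact hle ((h.pq.sup_eq_top hTb (h.pq.ne_bot_of_card (Or.inr hQ))
        (h.pq.ne_of_card hTp hQ)).ge (Subgroup.mem_top a))
    rw [gsum, End_sum_apply] at h0
    have h1 := congrArg (fun w : HomChar (Subgroup.center R) kˣ => w.val u) h0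
    simp only [HomChar.val_sum, HomChar.val_zero] at h1
    exact h1
  have hrel : ∀ v, ∑ x ∈ Qs, h.gX (ωx x) z v = 0 := by
    intro v
    obtain ⟨y, rfl⟩ := exists_repr v
    simp only [CT2.gX_mk, ← ofMul_prod, hsum, ofMul_one]
  set N := h.triv ω
  set v₀ : Additive (R ⧸ commutator R) := Additive.ofMul (y : R ⧸ commutator R)
  set v' := gsum h.tauX N v₀
  have hN1 : ∀ x ∈ Qs.erase 1, h.gX (ωx x) z v' = 0 := by
    intro x hx
    obtain ⟨hx1, hxQ⟩ := Finset.mem_erase.1 hx
    replace hxQ : x ∈ Q := by simpa [Qs] using hxQ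
    haveI : (h.triv ω).Normal := ⟨fun n hn g => by
      rwa [show g * n * g⁻¹ = n from Subtype.ext (by
        show (g : MulAut R) * n * (g : MulAut R)⁻¹ = n
        rw [h.scomm g g.2 n n.2, mul_inv_cancel_right])]⟩
    set L := h.triv ω ⊔ h.triv (ωx x)
    have hL : ∀ c s, s⁻¹ * h.act c s ∈ L := by
      intro c
      have hgen : ∀ c ∈ T ⊔ T.map (MulAut.conj x).toMonoidHom, ∀ s, s⁻¹ * h.act c s ∈ L := by
        intro c hc'
        rw [Subgroup.sup_eq_closure, ← Subgroup.mem_toSubmonoid,
          Subgroup.closure_toSubmonoid_of_finite] at hc'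
        induction hc' using Submonoid.closure_induction with
        | mem c hc'' =>
          intro s
          rcases hc'' with hc'' | ⟨a, ha, rfl⟩
          · exact (le_sup_left : h.triv ω ≤ L) (h.diff_triv hω hTt hc'' s)
          · refine (le_sup_right : h.triv (ωx x) ≤ L) (h.diff_triv (hωx x) (htopx x) ?_ s)
            rw [hmemx]
            show x⁻¹ * (x * a * x⁻¹) * x ∈ T
            rwa [show x⁻¹ * (x * a * x⁻¹) * x = a by group]
        | one => intro s; simp
        | mul a b _ _ ha hb => exact trivial_mod_mul h.act ha hb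
      refine hgen c ((h.pq.sup_eq_top hTb ?_ (h.pq.conj_ne hTp hQ hxQ hx1).symm).ge
        (Subgroup.mem_top c))
      intro e
      exact hTb ((Subgroup.map_eq_bot_iff_of_injective _ (MulAut.conj x).injective).1 e)
    refine h.gX_eq_zero_of_invariant _ _ fun s => ?_
    obtain ⟨n, hn, m, hm, rfl⟩ := Subgroup.mem_sup_of_normal_left.1
      (mem_of_invariant_coset h.copS h.act_fix (inv_of_trivial_mod hL) fun c => hL c s :)
    have hcm : h.tauX (n * m) = h.tauX m * h.tauX n := by
      rw [← map_mul]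
      congr 1
      exact Subtype.ext (h.scomm n n.2 m m.2)
    rw [hcm]
    show h.gX (ωx x) z (h.tauX m (h.tauX n v')) = _
    rw [h.gX_triv hm, show h.tauX n v' = v' from DFunLike.congr_fun (gsum_mul_left h.tauX hn) v₀]
  have h1Q : (1 : A) ∈ Qs := by simp [Qs]
  have hω1 : ωx 1 = ω := MonoidHom.ext fun u => by
    show ω (zAct φ (1 : A)⁻¹ u) = ω u
    rw [inv_one, map_one]; rfl
  have h3 := hrel v'
  rw [← Finset.add_sum_erase _ _ h1Q, Finset.sum_eq_zero hN1, add_zero, hω1] at h3
  have h4 : h.gX ω z v' = Nat.card N • h.gX ω z v₀ := by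
    show h.gX ω z (gsum h.tauX N v₀) = _
    rw [gsum, End_sum_apply, map_sum, Finset.sum_congr rfl fun n hn =>
      h.gX_triv (show n ∈ h.triv ω by simpa using hn) z v₀, Finset.sum_const, gsum_card]
  rw [h4] at h3
  have h5 := eq_zero_of_nsmul (h.copSR.coprime_dvd_left N.card_subgroup_dvd_card) h3
    (by rw [← map_nsmul, h.ann, map_zero])
  exact congrArg Additive.toMul h5

theorem CT2.case_q [IsAlgClosed k] [FiniteDimensional k W] (h : CT2 ρ ε φ S p q r)
    {ω : Subgroup.center R →* kˣ}
    (hω : wtSpace (ρ.comp (Subgroup.center R).subtype) ω ≠ ⊥)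
    (hTq : Nat.card (charStab (zAct φ) ω) = q) (y z : R) : ω (h.com y z) = 1 := by
  classical
  haveI := h.pq.isSolvable
  haveI := Fact.mk h.pq.prime_q
  set T := charStab (zAct φ) ω
  haveI hTn := h.pq.normal_q hTq
  have hTt : T ≠ ⊤ := by
    intro e
    rw [e, Subgroup.card_top, h.pq.card] at hTq
    exact h.pq.prime_p.ne_one ((Nat.mul_eq_right h.pq.prime_q.ne_zero).1 hTq)
  obtain ⟨P, hP⟩ := h.pq.exists_p
  have hPT : P ⊔ T = ⊤ := h.pq.sup_eq_top (h.pq.ne_bot_of_card (Or.inl hP))
    (h.pq.ne_bot_of_card (Or.inr hTq)) (h.pq.ne_of_card hP hTq)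
  obtain ⟨⟨a, ha⟩, ha1⟩ := (Subgroup.ne_bot_iff_exists_ne_one).1
    (h.pq.ne_bot_of_card (S := T) (Or.inr hTq))
  have ha1' : a ≠ 1 := fun e => ha1 (Subtype.ext e)
  have hza : ∀ b ∈ T, b ∈ Subgroup.zpowers a := fun b hb => by
    obtain ⟨n, hn⟩ := mem_zpowers_of_prime_card hTq (g := (⟨a, ha⟩ : T)) (g' := ⟨b, hb⟩) ha1
    exact ⟨n, congrArg Subtype.val hn⟩
  have hta : orderOf a = q := by
    rw [← Nat.card_zpowers, show Subgroup.zpowers a = T from
      le_antisymm (Subgroup.zpowers_le.2 ha) hza, hTq]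
  have hPfix : ∀ {V : Type _} [AddCommGroup V] (e : A →* AddMonoid.End V) (v : V),
      (∀ b ∈ P, e b v = v) → (∀ x ∈ T, e x v = v) → ∀ c, e c v = v := by
    intro V _ e v h1 h2 c
    exact (sup_le (c := fixStab e v) h1 h2) (hPT.ge (Subgroup.mem_top c))
  -- fixed points of the normal subgroup on the abelianisation
  set S0 := fixSub h.act a
  set E := gsum h.epsX T
  have hcX : Compat h.tauX h.epsX h.act := by
    intro b x
    refine AddMonoidHom.ext fun w => ?_
    obtain ⟨u, rfl⟩ := exists_repr w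
    exact congrArg (fun u : R => Additive.ofMul (u : R ⧸ commutator R)) (h.act_apply b x u)
  have hfixX : ∀ v, (∀ c, h.epsX c v = v) → v = 0 := by
    intro v hv
    obtain ⟨u, rfl⟩ := exists_repr v
    refine congrArg Additive.ofMul ((QuotientGroup.eq_one_iff u).2 ?_)
    refine mem_of_invariant_coset h.copR h.fixR (inv_of_characteristic φ _) fun c => ?_
    exact QuotientGroup.eq.1 (congrArg Additive.toMul (hv c)).symm
  have hS0i : ∀ b ∈ P, ∀ β ∈ S0, h.act b β ∈ S0 := by
    intro b _ β hβ
    show h.act a (h.act b β) = h.act b β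
    have e : a * b = b * (b⁻¹ * a * b) := by group
    have hc : b⁻¹ * a * b ∈ T := by simpa using hTn.conj_mem a ha b⁻¹
    rw [← MulAut.mul_apply, ← map_mul, e, map_mul, MulAut.mul_apply,
      fix_of_mem_zpowers (φ := h.act) (hza _ hc) hβ]
  have hS0f : ∀ b ∈ P, b ≠ 1 → ∀ β ∈ S0, h.act b β = β → β = 1 := by
    intro b hb hb1 β hβ hfb
    refine h.act_fix β fun c => ?_
    haveI := Fact.mk h.pq.prime_p
    refine (sup_le (c := ({ carrier := {c | h.act c β = β}
                            one_mem' := by simp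
                            mul_mem' := fun {u w} hu hw => by
                              show h.act (u * w) β = β
                              rw [map_mul, MulAut.mul_apply, hw, hu]
                            inv_mem' := fun {u} (hu : h.act u β = β) => by
                              show h.act u⁻¹ β = β
                              conv_lhs => rw [← hu]
                              rw [← MulAut.mul_apply, ← map_mul, inv_mul_cancel, map_one,
                                MulAut.one_apply] } : Subgroup A)) ?_ ?_)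
      (hPT.ge (Subgroup.mem_top c))
    · intro b' hb'
      obtain ⟨n, hn⟩ := mem_zpowers_of_prime_card hP (g := (⟨b, hb⟩ : P)) (g' := ⟨b', hb'⟩)
        fun e => hb1 (congrArg Subtype.val e)
      exact fix_of_mem_zpowers ⟨n, congrArg Subtype.val hn⟩ hfb
    · exact fun x hx => fix_of_mem_zpowers (hza x hx) hβ
  have huX : IsUnit (Nat.card S0 : AddMonoid.End (Additive (R ⧸ commutator R))) :=
    isUnit_cast_of_coprime (N := Nat.card R) (AddMonoidHom.ext fun v => h.ann v)
      (h.copSR.coprime_dvd_left S0.card_subgroup_dvd_card)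
  have hEP : gsum h.epsX P * E = 0 := by
    refine AddMonoidHom.ext fun v => hfixX _ ?_
    refine hPfix h.epsX _ (fun b hb => DFunLike.congr_fun
      (show h.epsX b * (gsum h.epsX P * E) = gsum h.epsX P * E by
        rw [← mul_assoc, gsum_mul_left h.epsX hb]) v) fun x hx => ?_
    show (h.epsX x * (gsum h.epsX P * E)) v = _
    congr 1
    rw [← mul_assoc, show gsum h.epsX P =
      ∑ b ∈ (Set.toFinite (P : Set A)).toFinset, h.epsX b from rfl, Finset.mul_sum, Finset.sum_mul,
      Finset.sum_mul]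
    refine Finset.sum_congr rfl fun b _ => ?_
    have hc : b⁻¹ * x * b ∈ T := by simpa using hTn.conj_mem x hx b⁻¹
    simp only [E]
    rw [← map_mul, show x * b = b * (b⁻¹ * x * b) by group, map_mul, mul_assoc,
      gsum_mul_left h.epsX hc]
  have hEc : ∀ β ∈ S0, Commute E (h.tauX β) := fun β hβ => by
    refine Commute.sum_left _ _ _ fun x hx => ?_
    show h.epsX x * h.tauX β = h.tauX β * h.epsX x
    rw [hcX, fix_of_mem_zpowers (φ := h.act) (hza x (by simpa using hx)) hβ]
  have hS0E := fpf_ring hcX P S0 huX hS0i hS0f E hEP hEc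
  -- every element of `S` fixes those fixed points modulo the radical
  have hNi : ∀ b ∈ T, ∀ n ∈ h.triv ω, h.act b n ∈ h.triv ω := by
    intro b hb n hn
    have := (h.triv ω).mul_mem hn (h.diff_triv hω hTt hb n)
    rwa [mul_inv_cancel_left] at this
  have hsplit : ∀ s : S, ∃ c ∈ S0, s⁻¹ * c ∈ h.triv ω := by
    intro s
    obtain ⟨c, hc, hcf⟩ := CfsgLib.CoprimeAction.exists_fixed_mem_coset (h.act.comp T.subtype)
      (fun b n hn => hNi b b.2 n hn)
      ((h.copS.coprime_dvd_left T.card_subgroup_dvd_card).coprime_dvd_right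
        (h.triv ω).card_subgroup_dvd_card)
      (Or.inl inferInstance) (x := s) (fun b => h.diff_triv hω hTt b.2 s)
    exact ⟨c, hcf ⟨a, ha⟩, hc⟩
  have hgE : ∀ z v, h.gX ω z (E v) = 0 := by
    intro z v
    refine h.gX_eq_zero_of_invariant _ _ fun s => ?_
    obtain ⟨c, hc, hn⟩ := hsplit s
    have hs : s = (s⁻¹ * c)⁻¹ * c := by
      rw [show (s⁻¹ * c)⁻¹ * c = c * (s⁻¹ * c)⁻¹ from
        Subtype.ext (h.scomm _ ((s⁻¹ * c)⁻¹).2 _ c.2)]
      group
    rw [hs, map_mul]
    show h.gX ω z (h.tauX (s⁻¹ * c)⁻¹ (h.tauX c (E v))) = _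
    rw [h.gX_triv ((h.triv ω).inv_mem hn), show h.tauX c (E v) = E v from
      DFunLike.congr_fun (hS0E c hc) v]
  have hradT : ∀ b ∈ T, ∀ x ∈ h.rad ω, φ b x ∈ h.rad ω := by
    intro b hb x hx
    refine h.mem_rad.2 fun w => ?_
    have e : h.com (φ b x) w = zAct φ b (h.com x (φ b⁻¹ w)) := Subtype.ext (by
      show ⁅φ b x, w⁆ = φ b ⁅x, φ b⁻¹ w⁆
      rw [map_commutatorElement, show φ b (φ b⁻¹ w) = w by
        rw [← MulAut.mul_apply, ← map_mul, mul_inv_cancel, map_one, MulAut.one_apply]])
    rw [e, hb]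
    exact h.mem_rad.1 hx _
  have hfp : ∀ x : R, x⁻¹ * φ a x ∈ h.rad ω → x ∈ h.rad ω := by
    intro x hx
    have hb : ∀ b : T, x⁻¹ * φ (b : A) x ∈ h.rad ω := by
      intro b
      have hm := hza b b.2
      rw [← mem_powers_iff_mem_zpowers, Submonoid.mem_powers_iff] at hm
      obtain ⟨n, hn⟩ := hm
      rw [← hn]
      clear hn
      induction n with
      | zero => simp
      | succ n ih =>
        rw [pow_succ, map_mul, MulAut.mul_apply,
          show x⁻¹ * φ (a ^ n) (φ a x) = (x⁻¹ * φ (a ^ n) x) * φ (a ^ n) (x⁻¹ * φ a x) by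
            rw [map_mul, map_inv]; group]
        exact mul_mem ih (hradT _ (T.pow_mem ha n) _ hx)
    obtain ⟨c, hc, hcf⟩ := CfsgLib.CoprimeAction.exists_fixed_mem_coset (φ.comp T.subtype)
      (fun b n hn => hradT b b.2 n hn)
      ((h.copR.coprime_dvd_left T.card_subgroup_dvd_card).coprime_dvd_right
        (h.rad ω).card_subgroup_dvd_card)
      (Or.inl inferInstance) (x := x) hb
    have hcr : c ∈ h.rad ω := by
      refine h.gX_eq_zero.2 fun w => ?_
      set v := Additive.ofMul (c : R ⧸ commutator R)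
      have hE : E v = Nat.card T • v := by
        show gsum h.epsX T v = _
        rw [gsum, End_sum_apply, Finset.sum_congr rfl (fun b hb => (?_ : h.epsX b v = v)),
          Finset.sum_const, gsum_card]
        exact congrArg (fun u : R => Additive.ofMul (u : R ⧸ commutator R))
          (hcf ⟨b, by simpa using hb⟩)
      have h1 := hgE w v
      rw [hE, map_nsmul] at h1
      exact eq_zero_of_nsmul (h.copR.coprime_dvd_left T.card_subgroup_dvd_card) h1
        (by rw [← map_nsmul, h.ann, map_zero])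
    have := (h.rad ω).mul_mem hcr ((h.rad ω).inv_mem hc)
    simpa using this
  by_contra hne
  have hy : y ∉ h.rad ω := fun hy => hne (h.mem_rad.1 hy z)
  -- diagonalise the radical
  haveI := h.rad_normal ω
  set U := wtSpace (ρ.comp (Subgroup.center R).subtype) ω
  have hEv : ∀ v ∈ U, wtProj (ρ.comp (Subgroup.center R).subtype) ω v = v := fun v hv =>
    wtProj_apply_self h.cardZ hv
  have hρU : ∀ x, ∀ v ∈ U, ρ x v ∈ U := fun x v hv => by
    rw [← hEv v hv, ← Module.End.mul_apply, ← (h.commute_proj ω x).eq, Module.End.mul_apply]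
    exact wtProj_mem _ ω _
  have hεU : ∀ b ∈ T, ∀ v ∈ U, ε b v ∈ U := fun b hb v hv => by
    rw [← hEv v hv, ← Module.End.mul_apply, ← (h.commute_act ω hb).eq, Module.End.mul_apply]
    exact wtProj_mem _ ω _
  let ρU : R →* Module.End k U :=
    { toFun := fun x => (ρ x).restrict (hρU x)
      map_one' := LinearMap.ext fun v => Subtype.ext (by
        show ρ 1 (v : W) = v
        rw [map_one]; rfl)
      map_mul' := fun x x' => LinearMap.ext fun v => Subtype.ext (by
        show ρ (x * x') (v : W) = ρ x (ρ x' v)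
        rw [map_mul]; rfl) }
  have hρUz : ∀ (c : Subgroup.center R), ρU (c : R) = (ω c : k) • 1 := fun c =>
    LinearMap.ext fun v => Subtype.ext (mem_wtSpace.mp v.2 c)
  let εU : T →* Module.End k U :=
    { toFun := fun b => (ε (b : A)).restrict (hεU b b.2)
      map_one' := LinearMap.ext fun v => Subtype.ext (by
        show ε 1 (v : W) = v
        rw [map_one]; rfl)
      map_mul' := fun x x' => LinearMap.ext fun v => Subtype.ext (by
        show ε ((x : A) * (x' : A)) (v : W) = ε x (ε x' v)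
        rw [map_mul]; rfl) }
  have hradcomm : ∀ x ∈ h.rad ω, ∀ w, ρU x * ρU w = ρU w * ρU x := by
    intro x hx w
    rw [← map_mul, ← map_mul, show x * w = ⁅x, w⁆ * (w * x) by rw [commutatorElement_def]; group,
      map_mul, show ⁅x, w⁆ = ((h.com x w : Subgroup.center R) : R) from rfl, hρUz,
      h.mem_rad.1 hx w, Units.val_one, one_smul, one_mul]
  let σB : Abelianization (h.rad ω) →* Module.End k U :=
    (Units.coeHom _).comp <| QuotientGroup.lift _ (ρU.comp (h.rad ω).subtype).toHomUnits (by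
      rw [commutator_def, Subgroup.commutator_le]
      intro x _ w _
      rw [MonoidHom.mem_ker, map_commutatorElement, commutatorElement_eq_one_iff_mul_comm]
      exact Units.ext (hradcomm x x.2 w))
  have hσB : ∀ x : h.rad ω, σB (Abelianization.of x) = ρU x := fun x => rfl
  haveI : Finite (Abelianization (h.rad ω)) := Quotient.finite _
  have hBk : (Nat.card (Abelianization (h.rad ω)) : k) ≠ 0 := fun e => by
    obtain ⟨c, hc⟩ := (Subgroup.card_quotient_dvd_card (commutator (h.rad ω))).trans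
      (h.rad ω).card_subgroup_dvd_card
    exact h.Rk (by rw [hc, Nat.cast_mul, show ((Nat.card (↥(h.rad ω) ⧸ commutator ↥(h.rad ω)) : k)) = 0 from e, zero_mul])
  haveI : Nontrivial U := (Submodule.nontrivial_iff_ne_bot).2 hω
  obtain ⟨ψ, hψ⟩ := exists_wtSpace_ne_bot hBk σB
  have hψmem : ∀ (v : U) (_ : v ∈ wtSpace σB ψ) (x : h.rad ω),
      ρU x v = (ψ (Abelianization.of x) : k) • v := fun v hv x => by
    rw [← hσB]; exact mem_wtSpace.mp hv _
  let φB : T →* MulAut (Abelianization (h.rad ω)) :=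
    quotAct (restrictAct (φ.comp T.subtype) (h.rad ω) fun b x hx => hradT b b.2 x hx)
      (commutator (h.rad ω)) (inv_of_characteristic _ _)
  have hcB : Compat σB εU φB := by
    intro b x
    obtain ⟨x, rfl⟩ := QuotientGroup.mk_surjective x
    refine LinearMap.ext fun v => Subtype.ext ?_
    exact LinearMap.congr_fun (h.compat (b : A) (x : R)) (v : W)
  have hNU : gsum εU ⊤ = 0 := by
    refine LinearMap.ext fun v => Subtype.ext ?_
    have h1 := LinearMap.congr_fun (gsum_charStab h.compatZ h.sum0 h.cardZ ω) (v : W)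
    rw [Module.End.mul_apply, hEv v v.2, gsum, LinearMap.sum_apply, LinearMap.zero_apply] at h1
    rw [gsum, LinearMap.sum_apply, Submodule.coe_sum]
    refine Eq.trans ?_ h1
    exact Finset.sum_bij (fun b _ => (b : A)) (fun b _ => by simp [T])
      (fun b _ c _ e => Subtype.ext e)
      (fun b hb => ⟨⟨b, by simpa using hb⟩, by simp, rfl⟩) (fun b _ => rfl)
  -- the joint eigenspace is invariant
  have hstab := charStab_ne_bot hcB hNU hBk hψ
  haveI : Fact (Nat.card T).Prime := ⟨hTq ▸ h.pq.prime_q⟩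
  have hψT : charStab φB ψ = ⊤ := by
    refine (Subgroup.eq_bot_or_eq_top_of_prime_card (charStab φB ψ)).resolve_left hstab
  set U' := wtSpace σB ψ
  have hεU' : ∀ b : T, ∀ v ∈ U', εU b v ∈ U' := by
    intro b v hv
    have e : ψ.comp (φB b⁻¹).toMonoidHom = ψ :=
      MonoidHom.ext (hψT.ge (Subgroup.mem_top b⁻¹) :)
    have h' := mem_wtSpace_translate hcB hv b
    rw [e] at h'
    exact h'
  have hρU' : ∀ x : R, ∀ v ∈ U', ρU x v ∈ U' := by
    intro x v hv
    refine mem_wtSpace.mpr fun d => ?_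
    obtain ⟨d, rfl⟩ := QuotientGroup.mk_surjective d
    show ρU d (ρU x v) = _
    rw [← Module.End.mul_apply, hradcomm d d.2 x, Module.End.mul_apply, hψmem v hv d, map_smul]
    rfl
  haveI : Nontrivial U' := (Submodule.nontrivial_iff_ne_bot).2 hψ
  -- the twisted group algebra
  letI : CommGroup (R ⧸ h.rad ω) := { (inferInstance : Group (R ⧸ h.rad ω)) with
    mul_comm := fun x y => by
      induction x using QuotientGroup.induction_on with | _ x => ?_
      induction y using QuotientGroup.induction_on with | _ y => ?_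
      refine QuotientGroup.eq.2 ?_
      rw [show (x * y)⁻¹ * (y * x) = ⁅y⁻¹, x⁻¹⁆ by rw [commutatorElement_def]; group]
      exact h.commutator_le_rad ω
        (Subgroup.commutator_mem_commutator (Subgroup.mem_top _) (Subgroup.mem_top _)) }
  letI : Fintype (R ⧸ h.rad ω) := Fintype.ofFinite _
  let ρ' : R →* Module.End k U' :=
    { toFun := fun x => (ρU x).restrict (hρU' x)
      map_one' := LinearMap.ext fun v => Subtype.ext (by
        show ρU 1 (v : U) = v
        rw [map_one]; rfl)
      map_mul' := fun x x' => LinearMap.ext fun v => Subtype.ext (by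
        show ρU (x * x') (v : U) = ρU x (ρU x' v)
        rw [map_mul]; rfl) }
  have hscal : ∀ x : R, x ∈ h.rad ω → ∃ c : k, c ≠ 0 ∧ ρ' x = c • 1 := fun x hx =>
    ⟨_, (ψ (Abelianization.of ⟨x, hx⟩)).ne_zero,
      LinearMap.ext fun v => Subtype.ext (hψmem v v.2 ⟨x, hx⟩)⟩
  have hρ'z : ∀ c : Subgroup.center R, ρ' (c : R) = (ω c : k) • 1 := fun c =>
    LinearMap.ext fun v => Subtype.ext (LinearMap.congr_fun (hρUz c) (v : U))
  let sec : R ⧸ h.rad ω → R := Quotient.out
  have hsec : ∀ e, ((sec e : R) : R ⧸ h.rad ω) = e := fun e => QuotientGroup.out_eq' e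
  have hrel : ∀ x x' : R, ((x : R ⧸ h.rad ω)) = x' → ∃ c : k, c ≠ 0 ∧ ρ' x = c • ρ' x' := by
    intro x x' e
    obtain ⟨c, hc, hc'⟩ := hscal _ (QuotientGroup.eq.1 e.symm)
    refine ⟨c, hc, ?_⟩
    conv_lhs => rw [← mul_inv_cancel_left x' x]
    rw [map_mul, hc', mul_smul_comm, mul_one]
  let Tw : R ⧸ h.rad ω → (Module.End k U')ˣ := fun e => ρ'.toHomUnits (sec e)
  have hTw : ∀ e, ((Tw e : (Module.End k U')ˣ) : Module.End k U') = ρ' (sec e) := fun e => rfl
  have hTwi : ∀ e, ((↑(Tw e)⁻¹ : Module.End k U')) = ρ' (sec e)⁻¹ := fun e => by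
    show ((ρ'.toHomUnits (sec e))⁻¹ : (Module.End k U')ˣ).1 = _
    rw [← map_inv]; rfl
  have hpair : ∀ x w : R, ω (h.com x w) = ω (h.com w x)⁻¹ := fun x w =>
    congrArg ω (Subtype.ext (commutatorElement_inv w x).symm)
  let β0 : R →* R →* kˣ := MonoidHom.mk' (fun x => MonoidHom.mk' (fun w => ω (h.com x w))
    (fun w w' => by rw [h.com_mul_right, map_mul])) (fun x x' => MonoidHom.ext fun w => by
      show ω (h.com (x * x') w) = _
      rw [h.com_mul_left, map_mul]; rfl)
  let β1 : (R ⧸ h.rad ω) →* R →* kˣ := QuotientGroup.lift _ β0 (fun x hx =>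
    MonoidHom.ext fun w => h.mem_rad.1 hx w)
  let β : (R ⧸ h.rad ω) →* (R ⧸ h.rad ω) →* kˣ := MonoidHom.mk' (fun e =>
    QuotientGroup.lift (h.rad ω) (β1 e) (fun w hw => by
      induction e using QuotientGroup.induction_on with | _ x => ?_
      show ω (h.com x w) = 1
      rw [hpair, map_inv, h.mem_rad.1 hw x, inv_one]))
    (fun e e' => MonoidHom.ext fun w => by
      induction w using QuotientGroup.induction_on with | _ w => ?_
      show β1 (e * e') w = β1 e w * β1 e' w
      rw [map_mul]; rfl)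
  have hβ : ∀ x w : R, β (x : R ⧸ h.rad ω) (w : R ⧸ h.rad ω) = ω (h.com x w) := fun x w => rfl
  have hright : ∀ e, e ≠ 1 → ∃ b, β b e ≠ 1 := by
    intro e he
    induction e using QuotientGroup.induction_on with | _ x => ?_
    by_contra hcon
    push Not at hcon
    refine he ((QuotientGroup.eq_one_iff x).2 (h.mem_rad.2 fun w => ?_))
    rw [hpair, map_inv, ← hβ w x, hcon _, inv_one]
  have hTwisted : Twisted Tw β := by
    refine ⟨fun e e' => ?_, fun e e' => ?_, fun e he => ?_, hright⟩
    · obtain ⟨c, hc, hc'⟩ := hrel (sec e * sec e') (sec (e * e'))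
        (by rw [QuotientGroup.mk_mul, hsec, hsec, hsec])
      exact ⟨c, hc, by rw [hTw, hTw, hTw, ← map_mul, hc']⟩
    · rw [hTw, hTw, hTwi, ← map_mul, ← map_mul]
      rw [show β e e' = ω (h.com (sec e) (sec e')) by rw [← hβ, hsec, hsec]]
      rw [show sec e * sec e' * (sec e)⁻¹ = ⁅sec e, sec e'⁆ * sec e' by
          rw [commutatorElement_def]; group, map_mul,
        show ⁅sec e, sec e'⁆ = ((h.com (sec e) (sec e') : Subgroup.center R) : R) from rfl, hρ'z,
        smul_mul_assoc, one_mul]
    · induction e using QuotientGroup.induction_on with | _ x => ?_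
      by_contra hcon
      push Not at hcon
      exact he ((QuotientGroup.eq_one_iff x).2 (h.mem_rad.2 fun w => by rw [← hβ x w, hcon _]))
  let εU' : T →* Module.End k U' :=
    { toFun := fun b => (εU b).restrict (hεU' b)
      map_one' := LinearMap.ext fun v => Subtype.ext (by
        show εU 1 (v : U) = v
        rw [map_one]; rfl)
      map_mul' := fun x x' => LinearMap.ext fun v => Subtype.ext (by
        show εU (x * x') (v : U) = εU x (εU x' v)
        rw [map_mul]; rfl) }
  set g : T := ⟨a, ha⟩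
  let φE : MulAut (R ⧸ h.rad ω) :=
    quotAct (φ.comp T.subtype) (h.rad ω) (fun b x hx => hradT b b.2 x hx) g
  have hgq : g ^ q = 1 := Subtype.ext (by
    show a ^ q = 1
    rw [← hta, pow_orderOf_eq_one])
  have hXinv : ((↑(εU'.toHomUnits g)⁻¹ : Module.End k U')) = εU' g⁻¹ := by
    show ((εU'.toHomUnits g)⁻¹ : (Module.End k U')ˣ).1 = _
    rw [← map_inv]; rfl
  have hcU' : ∀ x : R, εU' g * ρ' x = ρ' (φ a x) * εU' g := fun x =>
    LinearMap.ext fun v => Subtype.ext (Subtype.ext
      (LinearMap.congr_fun (h.compat a x) ((v : U) : W)))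
  have hek : (Nat.card (R ⧸ h.rad ω) : k) ≠ 0 := fun e => by
    obtain ⟨c, hc⟩ := Subgroup.card_quotient_dvd_card (h.rad ω)
    exact h.Rk (by rw [hc, Nat.cast_mul, e, zero_mul])
  obtain ⟨n, hn, hqn, hnq⟩ := fpf_bound h.pq.prime_q h.qk hTwisted hek (εU'.toHomUnits g)
    (by rw [← map_pow, hgq, map_one]) φE
    (by rw [← map_pow, hgq, map_one])
    (fun e he => by
      induction e using QuotientGroup.induction_on with | _ x => ?_
      exact (QuotientGroup.eq_one_iff x).2 (hfp x (QuotientGroup.eq.1 he.symm)))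
    (fun e => by
      obtain ⟨c, hc, hc'⟩ := hrel (φ a (sec e)) (sec (φE e)) (by
        rw [hsec]
        exact congrArg φE (hsec e))
      refine ⟨c, hc, ?_⟩
      rw [hXinv, hTw, hTw]
      show εU' g * ρ' (sec e) * εU' g⁻¹ = _
      rw [hcU', mul_assoc, ← map_mul, mul_inv_cancel, map_one, mul_one, hc'])
    (fun v hv => by
      change εU' g v = v at hv
      have hfixv : ∀ b : T, εU' b v = v := by
        intro b
        obtain ⟨m, rfl⟩ : ∃ m : ℕ, g ^ m = b := by
          obtain ⟨m, hm⟩ := (mem_powers_iff_mem_zpowers).2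
            (mem_zpowers_of_prime_card hTq (g := g) (g' := b) ha1)
          exact ⟨m, hm⟩
        induction m with
        | zero => rw [pow_zero, map_one]; rfl
        | succ m ih => rw [pow_succ, map_mul, Module.End.mul_apply, hv, ih]
      have h1 := LinearMap.congr_fun hNU (v : U)
      have hb : ∀ b : T, εU b (v : U) = (v : U) := fun b => congrArg Subtype.val (hfixv b)
      simp only [gsum, LinearMap.sum_apply, LinearMap.zero_apply, hb, Finset.sum_const] at h1
      rw [gsum_card, Subgroup.card_top, hTq, ← Nat.cast_smul_eq_nsmul k] at h1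
      exact Subtype.ext ((smul_eq_zero.1 h1).resolve_left h.qk))
  -- arithmetic
  haveI := Fact.mk h.rprime
  obtain ⟨j, hj⟩ := IsPGroup.iff_card.1 (h.rgroup.to_quotient (h.rad ω))
  have hn1 : 1 < n := by
    by_contra hle
    have : n ^ 2 ≤ 1 := by
      rw [show (1 : ℕ) = 1 ^ 2 by norm_num]
      exact Nat.pow_le_pow_left (by omega) 2
    have h1 : Nat.card (R ⧸ h.rad ω) = 1 := by
      have := Nat.card_pos (α := R ⧸ h.rad ω)
      omega
    have hsub := (Nat.card_eq_one_iff_unique.1 h1).1
    exact hy ((QuotientGroup.eq_one_iff y).1 (hsub.elim _ _))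
  have hd : q ∣ (n - 1) * (n + 1) := by
    rwa [show (n - 1) * (n + 1) = n ^ 2 - 1 by rw [mul_comm, ← Nat.sq_sub_sq, one_pow]]
  have hq1 : q = n + 1 := by
    rcases (h.pq.prime_q.dvd_mul).1 hd with hd | hd
    · have := Nat.le_of_dvd (by omega) hd; omega
    · have := Nat.le_of_dvd (by omega) hd; omega
  have hn2 : n ∣ r ^ j := hj ▸ hn ▸ dvd_pow_self n two_ne_zero
  obtain ⟨i, -, hi⟩ := (Nat.dvd_prime_pow h.rprime).1 hn2
  have hqodd : Odd q := h.pq.prime_q.odd_of_ne_two fun e => by
    have := h.pq.prime_p.two_le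
    have := h.pq.lt
    omega
  have hneven : Even n := by
    rw [hq1] at hqodd
    exact Nat.not_odd_iff_even.1 fun ho => (Nat.not_even_iff_odd.2 hqodd) ho.add_one
  have hr2 : r = 2 := by
    have h2 : 2 ∣ r ^ i := hi ▸ hneven.two_dvd
    exact ((Nat.prime_dvd_prime_iff_eq Nat.prime_two h.rprime).1
      (Nat.prime_two.dvd_of_dvd_pow h2)).symm
  have hpn : p ∣ n := by
    have := h.pq.p_dvd
    rwa [hq1, Nat.add_sub_cancel] at this
  exact h.rne.1 ((Nat.prime_dvd_prime_iff_eq h.pq.prime_p h.rprime).1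
    (h.pq.prime_p.dvd_of_dvd_pow (hi ▸ hpn))).symm

/-- The class-two conclusion. -/
theorem CT2.comm [IsAlgClosed k] [FiniteDimensional k W] (h : CT2 ρ ε φ S p q r) :
    ∀ y z : R, y * z = z * y := by
  haveI := h.pq.isSolvable
  intro y z
  refine commutatorElement_eq_one_iff_mul_comm.1 (h.inj ?_)
  rw [map_one]
  refine eq_of_eqOn_wtSpace h.cardZ (ρ.comp (Subgroup.center R).subtype) fun ω v hv => ?_
  by_cases hv0 : v = 0
  · rw [hv0, map_zero, map_zero]
  have hω : wtSpace (ρ.comp (Subgroup.center R).subtype) ω ≠ ⊥ := fun e => hv0 (by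
    rw [e, Submodule.mem_bot] at hv; exact hv)
  have h1 : ω (h.com y z) = 1 := by
    by_cases htop : charStab (zAct φ) ω = ⊤
    · have hK : Inv (zAct φ) ω.ker := fun c u hu => by
        rw [MonoidHom.mem_ker] at hu ⊢
        rw [htop.ge (Subgroup.mem_top c) u, hu]
      exact mem_of_invariant_coset h.copZ h.fixZ hK fun c => by
        rw [MonoidHom.mem_ker, map_mul, map_inv, htop.ge (Subgroup.mem_top c) _, inv_mul_cancel]
    rcases h.pq.card_cases (charStab_ne_bot h.compatZ h.sum0 h.cardZ hω) htop with e | e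
    · exact h.case_p hω e y z
    · exact h.case_q hω e y z
  have h2 := mem_wtSpace.mp hv (h.com y z)
  rw [h1, Units.val_one, one_smul] at h2
  exact h2

end CfsgLib.MetacyclicP
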