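import Mathlib
import Cfsg.Agent.Lib.MetacyclicP.FPFPQComm
import Cfsg.Agent.Lib.MetacyclicP.FPFMain
import Cfsg.Agent.Lib.CoprimeAction.Sylow
import Cfsg.Agent.Lib.CoprimeAction.Aut

/-!
A fixed-point-free nonabelian group of order `p * q` on a coprime solvable group forces Fitting
height at most two.
-/

set_option autoImplicit false
set_option linter.style.haveILetI false
set_option linter.unusedSectionVars false

open Cfsg
open scoped commutatorElement IsMulCommutative TensorProduct

namespace CfsgLib.MetacyclicP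

section groups

variable {H : Type*} [Group H] [Finite H]

theorem card_lt_of_lt {X Y : Subgroup H} (h : X < Y) : Nat.card X < Nat.card Y :=
  lt_of_le_of_ne (Nat.le_of_dvd Nat.card_pos (Subgroup.card_dvd_of_le h.le))
    fun e => h.ne (Subgroup.eq_of_le_of_card_ge h.le e.ge)

/-- A subgroup containing a Sylow subgroup for each prime is everything. -/
theorem eq_top_of_sylow_each {K : Subgroup H}
    (h : ∀ t : ℕ, t.Prime → ∃ P : Sylow t H, (P : Subgroup H) ≤ K) : K = ⊤ := by
  rw [← Subgroup.index_eq_one]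
  by_contra hne
  obtain ⟨t, ht, htd⟩ := Nat.exists_prime_and_dvd hne
  haveI := Fact.mk ht
  obtain ⟨P, hP⟩ := h t ht
  exact P.not_dvd_index (htd.trans (Subgroup.index_dvd_of_le hP))

omit [Finite H] in
theorem map_mem_commutator {f : H →* H} {X Y : Subgroup H} (hX : ∀ x ∈ X, f x ∈ X)
    (hY : ∀ y ∈ Y, f y ∈ Y) {c : H} (hc : c ∈ ⁅X, Y⁆) : f c ∈ ⁅X, Y⁆ := by
  have h := Subgroup.mem_map_of_mem f hc
  rw [Subgroup.map_commutator] at h
  refine Subgroup.commutator_mono ?_ ?_ h
  · rintro _ ⟨x, hx, rfl⟩; exact hX x hx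
  · rintro _ ⟨y, hy, rfl⟩; exact hY y hy

/-- A `t`-group of commutation twists is trivial. -/
theorem eq_one_of_conj_eq_mul {u c x : H} (hxu : x * u * x⁻¹ = c * u) (hc : x * c * x⁻¹ = c)
    (hcop : (orderOf x).Coprime (orderOf c)) : c = 1 := by
  have h1 : ∀ n : ℕ, x ^ n * u * (x ^ n)⁻¹ = c ^ n * u := by
    intro n
    induction n with
    | zero => simp
    | succ n ih =>
      have h2 : x * c ^ n * x⁻¹ = c ^ n := by rw [← conj_pow, hc]
      calc x ^ (n + 1) * u * (x ^ (n + 1))⁻¹ = x * (x ^ n * u * (x ^ n)⁻¹) * x⁻¹ := by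
            rw [pow_succ' x n]; group
        _ = x * c ^ n * x⁻¹ * (x * u * x⁻¹) := by rw [ih]; group
        _ = c ^ (n + 1) * u := by rw [h2, hxu, ← mul_assoc, ← pow_succ]
  have h3 := h1 (orderOf x)
  rw [pow_orderOf_eq_one, one_mul, inv_one, mul_one, eq_comm, mul_eq_right,
    ← orderOf_dvd_iff_pow_eq_one] at h3
  exact orderOf_eq_one_iff.1 (Nat.eq_one_of_dvd_coprimes hcop h3 dvd_rfl)

theorem orderOf_coprime_of_pGroup {r s : ℕ} (hr : r.Prime) (hs : s.Prime) (hrs : r ≠ s)
    {x y : H} {n m : ℕ} (hx : orderOf x ∣ r ^ n) (hy : orderOf y ∣ s ^ m) :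
    (orderOf x).Coprime (orderOf y) :=
  ((Nat.coprime_pow_primes n m hr hs hrs).coprime_dvd_left hx).coprime_dvd_right hy

/-- Elements of prime-power order of the Fitting subgroup lie in the cores. -/
theorem mem_pCore_of_fitting {t n : ℕ} (ht : t.Prime) {w : H} (hw : w ∈ fittingSubgroup H)
    (hn : orderOf w ∣ t ^ n) : w ∈ pCore t H := by
  haveI := Fact.mk ht
  haveI : Group.IsNilpotent (fittingSubgroup H) := CfsgLib.Cores.isNilpotent_fittingSubgroup
  obtain ⟨T⟩ : Nonempty (Sylow t (fittingSubgroup H)) := inferInstance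
  have hTn : (T : Subgroup (fittingSubgroup H)).Normal := inferInstance
  have hT : IsPGroup t (Subgroup.zpowers (⟨w, hw⟩ : fittingSubgroup H)) :=
    IsPGroup.of_card_dvd_pow (n := n) (by rw [Nat.card_zpowers, Subgroup.orderOf_mk]; exact hn)
  obtain ⟨Q, hQ⟩ := hT.exists_le_sylow
  haveI := Sylow.unique_of_normal T hTn
  rw [Subsingleton.elim Q T] at hQ
  exact (Subgroup.map_mono (CfsgLib.Cores.le_pCore (hN := hTn) T.isPGroup')).trans
    (CfsgLib.Cores.map_subtype_pCore_le (Subgroup.Normal.isSubnormal inferInstance))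
    ⟨_, hQ (Subgroup.mem_zpowers _), rfl⟩

/-- A subgroup containing the prime-power parts of an element contains it. -/
theorem mem_of_parts {K : Subgroup H} (v : H)
    (h : ∀ t n : ℕ, t.Prime → t ∣ orderOf v → ∀ w ∈ Subgroup.zpowers v, orderOf w ∣ t ^ n →
      w ∈ K) : v ∈ K := by
  have h1 : K.comap (Subgroup.zpowers v).subtype = ⊤ := by
    refine eq_top_of_sylow_each fun t ht => ?_
    haveI := Fact.mk ht
    obtain ⟨P⟩ : Nonempty (Sylow t (Subgroup.zpowers v)) := inferInstance
    refine ⟨P, fun w hw => ?_⟩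
    obtain ⟨n, hn⟩ := IsPGroup.iff_card.1 P.isPGroup'
    by_cases hd : t ∣ orderOf v
    · refine h t n ht hd w w.2 ?_
      rw [Subgroup.orderOf_coe, ← hn]
      exact Subgroup.orderOf_dvd_natCard _ hw
    · have hw1 : (P : Subgroup (Subgroup.zpowers v)) = ⊥ := by
        refine Subgroup.card_eq_one.1 ?_
        rcases eq_or_ne n 0 with rfl | hn0
        · rw [hn, pow_zero]
        · exact absurd ((dvd_pow_self t hn0).trans (hn ▸ (P : Subgroup (Subgroup.zpowers v)).card_subgroup_dvd_card))
            (by rwa [Nat.card_zpowers])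
      rw [hw1, Subgroup.mem_bot] at hw
      subst hw
      exact K.one_mem
  exact (h1.ge (Subgroup.mem_top ⟨v, Subgroup.mem_zpowers v⟩) :)

/-- A solvable group in which elements of prime-power order centralise the cores of the other
primes is nilpotent. -/
theorem isNilpotent_of_centralise_cores [Group.IsSolvable H]
    (h : ∀ r s : ℕ, r.Prime → s.Prime → r ≠ s → ∀ x : H, (∃ n, orderOf x ∣ s ^ n) →
      ∀ w ∈ pCore r H, x * w = w * x) : Group.IsNilpotent H := by
  set F := fittingSubgroup H
  have key : ∀ r s : ℕ, r.Prime → s.Prime → r ≠ s → ∀ x y : H, (∃ n, orderOf x ∣ s ^ n) →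
      (∃ n, orderOf y ∣ r ^ n) → x * y = y * x := by
    intro r s hr hs hrs x y hx hy
    set c := y * x * y⁻¹ * x⁻¹ with hc
    -- the commutator centralises every core
    have hcore : ∀ t : ℕ, t.Prime → ∀ w ∈ pCore t H, c * w = w * c := by
      intro t ht w hw
      have hcn : ∀ z, z ∈ Subgroup.centralizer (pCore t H : Set H) →
          ∀ g : H, g * z * g⁻¹ ∈ Subgroup.centralizer (pCore t H : Set H) := fun z hz g =>
        (inferInstance : (Subgroup.centralizer (pCore t H : Set H)).Normal).conj_mem z hz g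
      have hmem : c ∈ Subgroup.centralizer (pCore t H : Set H) := by
        by_cases hts : t = s
        · have hy' : y ∈ Subgroup.centralizer (pCore t H : Set H) := fun m hm =>
            (h t r ht hr (hts ▸ hrs.symm) y hy m hm).symm
          rw [hc, mul_assoc y, mul_assoc y]
          exact mul_mem hy' (hcn _ (inv_mem hy') x)
        · have hx' : x ∈ Subgroup.centralizer (pCore t H : Set H) := fun m hm =>
            (h t s ht hs hts x hx m hm).symm
          exact mul_mem (hcn _ hx' y) (inv_mem hx')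
      exact (hmem w hw).symm
    have hcF : c ∈ F := by
      refine CfsgLib.Cores.centralizer_fittingSubgroup_le fun v hv => ?_
      have : v ∈ Subgroup.centralizer ({c} : Set H) := mem_of_parts v fun t n ht _ w hw hn =>
        Subgroup.mem_centralizer_singleton_iff.2 (hcore t ht w (mem_pCore_of_fitting ht
          (Subgroup.zpowers_le.2 hv hw) hn)).symm
      exact Subgroup.mem_centralizer_singleton_iff.1 this
    obtain ⟨a, hxa⟩ := hx
    obtain ⟨b, hyb⟩ := hy
    -- the `s`-part and `s'`-part of the commutator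
    obtain ⟨e, m, hm, hord⟩ := Nat.exists_eq_pow_mul_and_not_dvd (orderOf_pos c).ne' s hs.ne_one
    have hco : (s ^ e).Coprime m := (hs.coprime_iff_not_dvd.2 hm).pow_left e
    have hbez : (1 : ℤ) = (s ^ e : ℕ) * Nat.gcdA (s ^ e) m + m * Nat.gcdB (s ^ e) m := by
      rw [← Nat.gcd_eq_gcd_ab, hco.gcd_eq_one, Nat.cast_one]
    set u := c ^ ((m : ℤ) * Nat.gcdB (s ^ e) m) with hu
    set v := c ^ (((s ^ e : ℕ) : ℤ) * Nat.gcdA (s ^ e) m) with hv
    have huv : c = v * u := by rw [hu, hv, ← zpow_add, ← hbez, zpow_one]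
    have hvu : v * u = u * v := by rw [hu, hv, ← zpow_add, ← zpow_add, add_comm]
    have hu1 : orderOf u ∣ s ^ e := by
      refine orderOf_dvd_iff_pow_eq_one.2 ?_
      rw [hu, ← zpow_natCast, ← zpow_mul]
      refine orderOf_dvd_iff_zpow_eq_one.1 ?_
      rw [hord]
      exact ⟨Nat.gcdB (s ^ e) m, by push_cast; ring⟩
    have hv1 : orderOf v ∣ m := by
      refine orderOf_dvd_iff_pow_eq_one.2 ?_
      rw [hv, ← zpow_natCast, ← zpow_mul]
      refine orderOf_dvd_iff_zpow_eq_one.1 ?_
      rw [hord]
      exact ⟨Nat.gcdA (s ^ e) m, by push_cast; ring⟩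
    have huO : u ∈ pCore s H := mem_pCore_of_fitting hs (F.zpow_mem hcF _) hu1
    have hvx : x * v = v * x := by
      have : v ∈ Subgroup.centralizer ({x} : Set H) := mem_of_parts v fun t n ht htv w hw hn =>
        Subgroup.mem_centralizer_singleton_iff.2 (h t s ht hs
          (fun e' => hm (e' ▸ htv.trans hv1)) x ⟨a, hxa⟩ w (mem_pCore_of_fitting ht
            (Subgroup.zpowers_le.2 (F.zpow_mem hcF _) hw) hn)).symm
      exact (Subgroup.mem_centralizer_singleton_iff.1 this).symm
    -- `u * x` is an `s`-element commuting with `v`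
    have hux : ∃ k, orderOf (u * x) ∣ s ^ k := by
      haveI := Fact.mk hs
      have hP : IsPGroup s ↥(Subgroup.zpowers x ⊔ pCore s H) :=
        (IsPGroup.of_card_dvd_pow (n := a) (by rwa [Nat.card_zpowers])).to_sup_of_normal_right
          (CfsgLib.Cores.isPGroup_pCore s H)
      obtain ⟨k, hk⟩ := IsPGroup.iff_card.1 hP
      refine ⟨k, hk ▸ Subgroup.orderOf_dvd_natCard _ ?_⟩
      exact mul_mem (Subgroup.mem_sup_right huO) (Subgroup.mem_sup_left (Subgroup.mem_zpowers x))
    obtain ⟨k, hk⟩ := hux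
    have hconj : y * x * y⁻¹ = v * (u * x) := by rw [← mul_assoc, ← huv, hc]; group
    have hcomm : Commute v (u * x) := Commute.mul_right hvu hvx.symm
    have hv0 : v = 1 := by
      refine orderOf_eq_one_iff.1 (Nat.eq_one_of_dvd_coprimes
        (((hs.coprime_iff_not_dvd.2 hm).pow_left (a + k)).symm) hv1 ?_)
      have e1 : v = (y * x * y⁻¹) * (u * x)⁻¹ := by rw [hconj]; group
      rw [orderOf_dvd_iff_pow_eq_one]
      have hA : (y * x * y⁻¹) ^ s ^ (a + k) = 1 := by
        rw [conj_pow, orderOf_dvd_iff_pow_eq_one.1 (hxa.trans (pow_dvd_pow s (Nat.le_add_right a k)))]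
        group
      have hB : (u * x) ^ s ^ (a + k) = 1 :=
        orderOf_dvd_iff_pow_eq_one.1 (hk.trans (pow_dvd_pow s (Nat.le_add_left k a)))
      rwa [hconj, hcomm.mul_pow, hB, mul_one] at hA
    have hcu : u = 1 := by
      refine eq_one_of_conj_eq_mul (x := y) (u := x) (by rw [hconj, hv0, one_mul]) ?_
        (orderOf_coprime_of_pGroup hr hs hrs hyb hu1)
      rw [h s r hs hr hrs.symm y ⟨b, hyb⟩ u huO, mul_inv_cancel_right]
    rw [hv0, hcu, one_mul, one_mul] at hconj
    rw [mul_inv_eq_iff_eq_mul] at hconj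
    exact hconj.symm
  refine ((Group.isNilpotent_of_finite_tfae (G := H)).out 0 3).2 fun t ht P => ?_
  haveI := ht
  rw [← Subgroup.normalizer_eq_top_iff]
  refine eq_top_of_sylow_each fun s hs => ?_
  by_cases hst : s = t
  · subst hst
    exact ⟨P, Subgroup.le_normalizer⟩
  haveI := Fact.mk hs
  obtain ⟨Q⟩ : Nonempty (Sylow s H) := inferInstance
  refine ⟨Q, le_trans ?_ (Subgroup.centralizer_le_normalizer _)⟩
  intro x hx w hw
  obtain ⟨a, ha⟩ := IsPGroup.iff_card.1 Q.isPGroup'
  obtain ⟨b, hb⟩ := IsPGroup.iff_card.1 P.isPGroup'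
  exact (key t s ht.out hs (Ne.symm hst) x w
    ⟨a, ha ▸ Subgroup.orderOf_dvd_natCard _ hx⟩
    ⟨b, hb ▸ Subgroup.orderOf_dvd_natCard _ hw⟩).symm

end groups

section core

open CfsgLib.BGRep

variable {k : Type*} [Field k] {W : Type*} [AddCommGroup W] [Module k W]
variable {A H : Type*} [Group A] [Finite A] [Group H] [Finite H]
variable {ρ : H →* Module.End k W} {ε : A →* Module.End k W} {φ : A →* MulAut H} {p q : ℕ}

/-- Invariant groups of coprime prime-power orders, one normalising the other, commute. -/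
theorem commute_of_coprime_pq [IsAlgClosed k] [FiniteDimensional k W] (hA : PQ A p q)
    (hc : Compat ρ ε φ) (hinj : Function.Injective ρ) (hN : gsum ε ⊤ = 0) (hqk : (q : k) ≠ 0)
    (hfix : ∀ h, (∀ a, φ a h = h) → h = 1) (hcop : (Nat.card A).Coprime (Nat.card H))
    {r s : ℕ} (hr : r.Prime) (hs : s.Prime) (hrs : r ≠ s) :
    ∀ (n : ℕ) (R S : Subgroup H), Nat.card R + Nat.card S ≤ n → Inv φ R → Inv φ S →
      (∀ g ∈ S, ∀ x ∈ R, g * x * g⁻¹ ∈ R) → IsPGroup r R → IsPGroup s S →
      (Nat.card R : k) ≠ 0 → ∀ g ∈ S, ∀ x ∈ R, g * x = x * g := by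
  haveI := hA.isSolvable
  haveI := Fact.mk hr
  haveI := Fact.mk hs
  intro n
  induction n with
  | zero =>
    intro R S hn
    have := Nat.card_pos (α := R)
    omega
  | succ n ih =>
    intro R S hn hRi hSi hSn hR hS hRk
    rcases eq_or_ne S ⊥ with rfl | hSb
    · intro g hg x _
      rw [Subgroup.mem_bot] at hg
      rw [hg, one_mul, mul_one]
    rcases eq_or_ne R ⊥ with rfl | hRb
    · intro g _ x hx
      rw [Subgroup.mem_bot] at hx
      rw [hx, one_mul, mul_one]
    have hlt : ∀ {X : Subgroup H} {t : ℕ}, t.Prime → IsPGroup t X → X ≠ ⊥ → ⁅X, X⁆ < X := by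
      intro X t ht hX hXb
      haveI := Fact.mk ht
      haveI := hX.isNilpotent
      haveI : Nontrivial X := (Subgroup.nontrivial_iff_ne_bot X).2 hXb
      refine lt_of_le_of_ne (Subgroup.commutator_le_self X) fun e => ?_
      refine (Group.IsSolvable.commutator_lt_top_of_nontrivial X).ne
        (Subgroup.map_injective X.subtype_injective ?_)
      rw [Subgroup.map_subtype_commutator, ← MonoidHom.range_eq_map, Subgroup.range_subtype, e]
    have hSS : ∀ g ∈ ⁅S, S⁆, ∀ x ∈ R, g * x = x * g :=
      ih R ⁅S, S⁆ (by have := card_lt_of_lt (hlt hs hS hSb); omega) hRi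
        (fun a c hc => map_mem_commutator (f := (φ a).toMonoidHom) (hSi a) (hSi a) hc)
        (fun g hg => hSn g (Subgroup.commutator_le_self S hg)) hR
        (hS.to_le (Subgroup.commutator_le_self S)) hRk
    have hk' : ∀ X : Subgroup H, X ≤ R → (Nat.card X : k) ≠ 0 := by
      intro X hX e
      obtain ⟨c, hc⟩ := Subgroup.card_dvd_of_le hX
      exact hRk (by rw [hc, Nat.cast_mul, e, zero_mul])
    have hSR' : ∀ g ∈ S, ∀ x ∈ ⁅R, R⁆, g * x = x * g :=
      ih ⁅R, R⁆ S (by have := card_lt_of_lt (hlt hr hR hRb); omega)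
        (fun a c hc => map_mem_commutator (f := (φ a).toMonoidHom) (hRi a) (hRi a) hc) hSi
        (fun g hg c hc => map_mem_commutator (f := (MulAut.conj g).toMonoidHom) (hSn g hg)
          (hSn g hg) hc)
        (hR.to_le (Subgroup.commutator_le_self R)) hS (hk' _ (Subgroup.commutator_le_self R))
    have hle : ⁅R, S⁆ ≤ R := Subgroup.commutator_le.2 fun x hx g hg => by
      rw [commutatorElement_def, mul_assoc x, mul_assoc x]
      exact R.mul_mem hx (hSn g hg _ (R.inv_mem hx))
    rcases hle.lt_or_eq with hlt' | hgen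
    · -- coprime action
      have hc' : ∀ g ∈ S, ∀ x ∈ ⁅R, S⁆, g * x = x * g :=
        ih ⁅R, S⁆ S (by have := card_lt_of_lt hlt'; omega)
          (fun a c hc => map_mem_commutator (f := (φ a).toMonoidHom) (hRi a) (hSi a) hc) hSi
          (fun g hg c hc => map_mem_commutator (f := (MulAut.conj g).toMonoidHom) (hSn g hg)
            (fun x hx => S.mul_mem (S.mul_mem hg hx) (S.inv_mem hg)) hc)
          (hR.to_le hle) hS (hk' _ hle)
      intro g hg x hx
      have hmem : ⁅g, x⁆ ∈ ⁅R, S⁆ :=
        Subgroup.commutator_comm S R ▸ Subgroup.commutator_mem_commutator hg hx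
      have h1 : ⁅g, x⁆ = 1 := by
        refine eq_one_of_conj_eq_mul (x := g) (u := x) (by rw [commutatorElement_def]; group)
          (by rw [hc' g hg _ hmem, mul_inv_cancel_right]) ?_
        obtain ⟨a, ha⟩ := IsPGroup.iff_card.1 hS
        obtain ⟨b, hb⟩ := IsPGroup.iff_card.1 hR
        exact orderOf_coprime_of_pGroup hs hr hrs.symm (ha ▸ Subgroup.orderOf_dvd_natCard _ hg)
          (hb ▸ Subgroup.orderOf_dvd_natCard _ (hle hmem))
      exact commutatorElement_eq_one_iff_mul_comm.1 h1
    -- `R = [R, S]`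
    let σ : S →* MulAut R := restrictAct (MulAut.conj.comp S.subtype) R fun g x hx => hSn g g.2 x hx
    have hσ : ∀ (g : S) (x : R), ((σ g x : R) : H) = g * x * (g : H)⁻¹ := fun g x => rfl
    have hcR : Compat (ρ.comp R.subtype) ε (restrictAct φ R hRi) := fun a x => hc a x
    have hinjR : Function.Injective (ρ.comp R.subtype) := hinj.comp R.subtype_injective
    have hfixR : ∀ x : R, (∀ a, restrictAct φ R hRi a x = x) → x = 1 := fun x hx =>
      Subtype.ext (hfix x fun a => congrArg Subtype.val (hx a))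
    have hcopR : (Nat.card A).Coprime (Nat.card R) :=
      hcop.coprime_dvd_right R.card_subgroup_dvd_card
    have hcopS : (Nat.card A).Coprime (Nat.card S) :=
      hcop.coprime_dvd_right S.card_subgroup_dvd_card
    have hSRc : (Nat.card S).Coprime (Nat.card R) := by
      obtain ⟨a, ha⟩ := IsPGroup.iff_card.1 hS
      obtain ⟨b, hb⟩ := IsPGroup.iff_card.1 hR
      rw [ha, hb]
      exact Nat.coprime_pow_primes a b hs hr hrs.symm
    have hrne : r ≠ p ∧ r ≠ q := by
      have hrR : r ∣ Nat.card R := by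
        obtain ⟨b, hb⟩ := IsPGroup.iff_card.1 hR
        rw [hb]
        refine dvd_pow_self r fun e => hRb (Subgroup.card_eq_one.1 ?_)
        rw [hb, e, pow_zero]
      refine ⟨fun e => hr.ne_one (Nat.eq_one_of_dvd_coprimes hcopR ?_ hrR),
        fun e => hr.ne_one (Nat.eq_one_of_dvd_coprimes hcopR ?_ hrR)⟩ <;> rw [hA.card, e]
      · exact dvd_mul_right p q
      · exact dvd_mul_left q p
    have hRR' : ⁅⁅R, S⁆, ⁅R, R⁆⁆ = ⊥ := by
      have e1 : ⁅S, ⁅R, R⁆⁆ = ⊥ := Subgroup.commutator_eq_bot_iff_le_centralizer.2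
        fun g hg x hx => (hSR' g hg x hx).symm
      refine Subgroup.commutator_commutator_eq_bot_of_rotate ?_ ?_
      · rw [e1, Subgroup.commutator_bot_left]
      · have e2 : ⁅⁅R, R⁆, R⁆ ≤ ⁅R, R⁆ :=
          Subgroup.commutator_mono (Subgroup.commutator_le_self R) le_rfl
        refine le_bot_iff.1 ((Subgroup.commutator_mono e2 le_rfl).trans ?_)
        rw [Subgroup.commutator_comm, e1]
    rw [hgen] at hRR'
    have habel : ∀ x y : R, x * y = y * x := by
      let T : Subgroup (MulAut R) := σ.range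
      have hT : CT2 (ρ.comp R.subtype) ε (restrictAct φ R hRi) T p q r :=
        { pq := hA, compat := hcR, inj := hinjR, sum0 := hN, fixR := hfixR, copR := hcopR
          rgroup := hR, rprime := hr, rne := hrne, qk := hqk, Rk := hRk
          cent := fun x y => Subgroup.mem_center_iff.2 fun z => Subtype.ext
            (commutatorElement_eq_one_iff_mul_comm.1 (Subgroup.mem_bot.1 (hRR' ▸
              Subgroup.commutator_mem_commutator z.2
                (Subgroup.commutator_mem_commutator x.2 y.2))))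
          inv := by
            rintro a _ ⟨g, rfl⟩
            refine ⟨⟨φ a g, hSi a g g.2⟩, MulEquiv.ext fun x => Subtype.ext ?_⟩
            show φ a g * x * (φ a g)⁻¹ = φ a ((g : H) * φ a⁻¹ x * (g : H)⁻¹)
            simp only [map_mul, map_inv, MulAut.apply_inv_self]
          scomm := by
            rintro _ ⟨g, rfl⟩ _ ⟨g', rfl⟩
            rw [← commutatorElement_eq_one_iff_mul_comm, ← map_commutatorElement]
            refine MulEquiv.ext fun x => Subtype.ext ?_
            rw [hσ, MulAut.one_apply]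
            exact mul_inv_eq_iff_eq_mul.2
              (hSS _ (Subgroup.commutator_mem_commutator g.2 g'.2) x x.2)
          sfix := by
            rintro ⟨_, g, rfl⟩ hg
            refine Subtype.ext ?_
            show σ g = 1
            rw [← MonoidHom.mem_ker]
            refine mem_of_invariant_coset (φ := restrictAct φ S hSi) hcopS
              (fun w hw => Subtype.ext (hfix w fun a => congrArg Subtype.val (hw a))) ?_ fun a => ?_
            · intro a w hw
              rw [MonoidHom.mem_ker] at hw ⊢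
              refine MulEquiv.ext fun x => Subtype.ext ?_
              have h1 := congrArg (fun f : MulAut R => φ a ((f (restrictAct φ R hRi a⁻¹ x) : R) : H)) hw
              simp only [hσ, MulAut.one_apply, map_mul] at h1
              show φ a w * x * (φ a w)⁻¹ = x
              have e : φ a ((restrictAct φ R hRi a⁻¹ x : R) : H) = x := by
                show φ a (φ a⁻¹ x) = x
                rw [← MulAut.mul_apply, ← map_mul φ, mul_inv_cancel, map_one, MulAut.one_apply]
              rwa [e, map_inv (φ a)] at h1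
            · rw [MonoidHom.mem_ker, map_mul, map_inv, inv_mul_eq_one]
              refine (hg a).symm.trans (MulEquiv.ext fun x => Subtype.ext ?_)
              show φ a ((g : H) * φ a⁻¹ x * (g : H)⁻¹) = φ a g * x * (φ a g)⁻¹
              simp only [map_mul, map_inv, MulAut.apply_inv_self]
          copS := hcopS.coprime_dvd_right (Subgroup.card_range_dvd σ)
          copSR := hSRc.coprime_dvd_left (Subgroup.card_range_dvd σ)
          scent := by
            rintro _ ⟨g, rfl⟩ x y
            refine Subtype.ext ?_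
            rw [hσ]
            exact mul_inv_eq_iff_eq_mul.2
              (hSR' g g.2 _ (Subgroup.commutator_mem_commutator x.2 y.2))
          gen := fun L hL hLS => by
            haveI : L.Normal := ⟨fun x hx y => by
              rw [show y * x * y⁻¹ = ⁅y, x⁆ * x by rw [commutatorElement_def]; group]
              exact L.mul_mem (hL (Subgroup.commutator_mem_commutator (Subgroup.mem_top _)
                (Subgroup.mem_top _))) hx⟩
            refine eq_top_iff.2 fun x _ => ?_
            have h1 : ⁅R, S⁆ ≤ L.map R.subtype := by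
              rw [Subgroup.commutator_comm, Subgroup.commutator_le]
              intro g hg y hy
              refine ⟨σ ⟨g, hg⟩ ⟨y, hy⟩ * (⟨y, hy⟩ : R)⁻¹,
                Subgroup.Normal.mem_comm inferInstance (hLS _ ⟨_, rfl⟩ _), ?_⟩
              rfl
            obtain ⟨z, hz, hzx⟩ := h1 (hgen.ge x.2)
            rwa [← show z = x from Subtype.ext hzx] }
      exact hT.comm
    letI : CommGroup R := { (inferInstance : Group R) with mul_comm := habel }
    intro g hg x hx
    have hfin := centralises_abelian_pq (ρ := ρ.comp R.subtype) (φ := restrictAct φ R hRi)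
      (φS := restrictAct φ S hSi) (σ := σ) hA hcR hinjR hN hRk
      (fun a t u => Subtype.ext (by
        show φ a ((t : H) * u * (t : H)⁻¹) = φ a t * φ a u * (φ a t)⁻¹
        rw [map_mul, map_mul, map_inv]))
      (fun t => ⟨ρ.toHomUnits t, fun u => by
        show ρ t * ρ u = ρ ((t : H) * u * (t : H)⁻¹) * ρ t
        rw [← map_mul, ← map_mul, inv_mul_cancel_right]⟩)
      hfixR (fun t ht => Subtype.ext (hfix t fun a => congrArg Subtype.val (ht a)))
      hcopR hcopS hSRc ⟨g, hg⟩ ⟨x, hx⟩
    exact mul_inv_eq_iff_eq_mul.1 (congrArg Subtype.val hfin)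

/-- An invariant Sylow subgroup. -/
theorem exists_invariant_sylow_aut (φ : A →* MulAut H) (hcop : (Nat.card A).Coprime (Nat.card H))
    [Group.IsSolvable A] (s : ℕ) [Fact s.Prime] : ∃ Q : Sylow s H, Inv φ (Q : Subgroup H) := by
  haveI := CfsgLib.CoprimeAction.finite_semidirect φ
  set ι : H →* H ⋊[φ] A := SemidirectProduct.inl
  have hn : (SemidirectProduct.inr : A →* H ⋊[φ] A).range ≤
      Subgroup.normalizer (ι.range : Set (H ⋊[φ] A)) := by
    haveI : ι.range.Normal := by
      rw [SemidirectProduct.range_inl_eq_ker_rightHom]; infer_instance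
    exact le_top.trans_eq (Subgroup.normalizer_eq_top (H := ι.range)).symm
  have hcardK : Nat.card ι.range = Nat.card H :=
    Nat.card_congr (MonoidHom.ofInjective SemidirectProduct.inl_injective).symm.toEquiv
  have hcardA : Nat.card (SemidirectProduct.inr : A →* H ⋊[φ] A).range = Nat.card A :=
    Nat.card_congr (MonoidHom.ofInjective SemidirectProduct.inr_injective).symm.toEquiv
  haveI : Group.IsSolvable (SemidirectProduct.inr : A →* H ⋊[φ] A).range :=
    Group.isSolvable_of_surjective
      (SemidirectProduct.inr : A →* H ⋊[φ] A).rangeRestrict_surjective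
  obtain ⟨P, hP⟩ := CfsgLib.CoprimeAction.exists_invariant_sylow hn
    (by rw [hcardA, hcardK]; exact hcop) (Or.inl inferInstance) s
  set Q := ((P : Subgroup ι.range).map ι.range.subtype).comap ι
  have hcard : Nat.card Q = s ^ (Nat.card H).factorization s := by
    rw [← hcardK, ← P.card_eq_multiplicity,
      ← Subgroup.card_map_of_injective (K := Q) (f := ι) SemidirectProduct.inl_injective,
      Subgroup.map_comap_eq_self (Subgroup.map_subtype_le _),
      Subgroup.card_map_of_injective ι.range.subtype_injective]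
  refine ⟨Sylow.ofCard Q hcard, fun a x hx => ?_⟩
  have h1 := (Subgroup.mem_normalizer_iff.1 (hP ⟨a, rfl⟩) (ι x)).1 hx
  show ι (φ a x) ∈ (P : Subgroup ι.range).map ι.range.subtype
  rw [show ι (φ a x) = SemidirectProduct.inr a * ι x * (SemidirectProduct.inr a)⁻¹ by
    rw [← map_inv]; exact SemidirectProduct.inl_aut a x]
  exact h1

/-- The faithful group is nilpotent. -/
theorem isNilpotent_of_pq_rep [IsAlgClosed k] [FiniteDimensional k W] [Group.IsSolvable H]
    (hA : PQ A p q) (hc : Compat ρ ε φ) (hinj : Function.Injective ρ) (hN : gsum ε ⊤ = 0)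
    (hqk : (q : k) ≠ 0) (hfix : ∀ h, (∀ a, φ a h = h) → h = 1)
    (hcop : (Nat.card A).Coprime (Nat.card H))
    (hk : ∀ r : ℕ, r.Prime → (r : k) = 0 → pCore r H = ⊥) : Group.IsNilpotent H := by
  haveI := hA.isSolvable
  refine isNilpotent_of_centralise_cores fun r s hr hs hrs x hx w hw => ?_
  haveI := Fact.mk hr
  haveI := Fact.mk hs
  by_cases hrk : (r : k) = 0
  · rw [hk r hr hrk, Subgroup.mem_bot] at hw
    rw [hw, one_mul, mul_one]
  obtain ⟨Q, hQ⟩ := exists_invariant_sylow_aut φ hcop s
  have hQC : (Q : Subgroup H) ≤ Subgroup.centralizer (pCore r H : Set H) := fun g hg m hm =>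
    (commute_of_coprime_pq hA hc hinj hN hqk hfix hcop hr hs hrs _ (pCore r H) Q le_rfl
      (inv_of_characteristic φ _) hQ
      (fun g _ x hx => (inferInstance : (pCore r H).Normal).conj_mem x hx g)
      (CfsgLib.Cores.isPGroup_pCore r H) Q.isPGroup' (by
        obtain ⟨b, hb⟩ := IsPGroup.iff_card.1 (CfsgLib.Cores.isPGroup_pCore r H)
        rw [hb, Nat.cast_pow]
        exact pow_ne_zero b hrk) g hg m hm).symm
  obtain ⟨a, ha⟩ := hx
  obtain ⟨Q', hQ'⟩ := (IsPGroup.of_card_dvd_pow (n := a) (p := s)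
    (by rwa [Nat.card_zpowers]) : IsPGroup s (Subgroup.zpowers x)).exists_le_sylow
  obtain ⟨g, hg⟩ := MulAction.exists_smul_eq H Q Q'
  have hx' := hQ' (Subgroup.mem_zpowers x)
  rw [← hg] at hx'
  obtain ⟨z, hz, hzx⟩ := hx'
  have hxC : x ∈ Subgroup.centralizer (pCore r H : Set H) := by
    rw [← hzx]
    exact (inferInstance : (Subgroup.centralizer (pCore r H : Set H)).Normal).conj_mem z (hQC hz) g
  exact (hxC w hw).symm

end core

section minimal

variable {ℓ : ℕ} [Fact ℓ.Prime] {V : Type*} [AddCommGroup V] [Module (ZMod ℓ) V]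
variable (k : Type*) [Field k] [Algebra (ZMod ℓ) k]

/-- Base change of additive endomorphisms. -/
noncomputable def bcHom : AddMonoid.End V →* Module.End k (k ⊗[ZMod ℓ] V) where
  toFun f := (AddMonoidHom.toZModLinearMap ℓ f).baseChange k
  map_one' := LinearMap.baseChange_one (ZMod ℓ) V
  map_mul' f g := LinearMap.baseChange_mul
    (f := AddMonoidHom.toZModLinearMap ℓ f) (g := AddMonoidHom.toZModLinearMap ℓ g)

theorem bcHom_injective : Function.Injective (bcHom (ℓ := ℓ) (V := V) k) := by
  intro f g h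
  refine AddMonoidHom.ext fun v => ?_
  let b := Module.Free.chooseBasis (ZMod ℓ) k
  let e := TensorProduct.equivFinsuppOfBasisLeft (N := V) b
  have h1 : e ((1 : k) ⊗ₜ[ZMod ℓ] f v) = e ((1 : k) ⊗ₜ[ZMod ℓ] g v) :=
    congrArg e (LinearMap.congr_fun h ((1 : k) ⊗ₜ[ZMod ℓ] v))
  obtain ⟨i, hi⟩ : ∃ i, b.repr (1 : k) i ≠ 0 := by
    by_contra hno
    push Not at hno
    exact one_ne_zero (b.repr.map_eq_zero_iff.1 (Finsupp.ext hno))
  have h2 := DFunLike.congr_fun h1 i
  simp only [e, TensorProduct.equivFinsuppOfBasisLeft_apply_tmul_apply] at h2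
  exact smul_right_injective V hi h2

theorem bcHom_gsum {A : Type*} [Group A] [Finite A] (ε : A →* AddMonoid.End V)
    (h : gsum ε ⊤ = 0) :
    gsum ((bcHom (ℓ := ℓ) k).comp ε) ⊤ = (0 : Module.End k (k ⊗[ZMod ℓ] V)) := by
  let L : AddMonoid.End V →+ Module.End k (k ⊗[ZMod ℓ] V) :=
    AddMonoidHom.mk' (fun f => bcHom k f) fun f g => by
      show (AddMonoidHom.toZModLinearMap ℓ (f + g)).baseChange k = _
      rw [show AddMonoidHom.toZModLinearMap ℓ (f + g) =
        AddMonoidHom.toZModLinearMap ℓ f + AddMonoidHom.toZModLinearMap ℓ g from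
          LinearMap.ext fun v => rfl]
      exact LinearMap.baseChange_add _ _
  show ∑ a ∈ _, L (ε a) = 0
  rw [← map_sum]
  show L (gsum ε ⊤) = 0
  rw [h, map_zero]

theorem bc_finite [Finite V] : FiniteDimensional k (k ⊗[ZMod ℓ] V) := by
  haveI : Module.Finite (ZMod ℓ) V := Module.Finite.of_finite
  exact Module.Finite.base_change (ZMod ℓ) k V

end minimal

/-- The faithful group on a finite elementary abelian group is nilpotent. -/
theorem isNilpotent_of_pq_addEnd {A : Type*} [Group A] [Finite A] {H : Type*} [Group H] [Finite H]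
    [Group.IsSolvable H] {V : Type*} [AddCommGroup V] [Finite V] {l p q : ℕ} [Fact l.Prime]
    [Module (ZMod l) V] {ρ : H →* AddMonoid.End V} {ε : A →* AddMonoid.End V} {φ : A →* MulAut H}
    (hA : PQ A p q) (hc : Compat ρ ε φ) (hinj : Function.Injective ρ) (hN : gsum ε ⊤ = 0)
    (hlq : l ≠ q) (hfix : ∀ h, (∀ a, φ a h = h) → h = 1)
    (hcop : (Nat.card A).Coprime (Nat.card H)) (hk : pCore l H = ⊥) : Group.IsNilpotent H := by
  let k := AlgebraicClosure (ZMod l)
  haveI : CharP k l := charP_of_injective_algebraMap (algebraMap (ZMod l) k).injective l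
  haveI := bc_finite (ℓ := l) (V := V) k
  refine isNilpotent_of_pq_rep (k := k) (ρ := (bcHom (ℓ := l) k).comp ρ)
    (ε := (bcHom (ℓ := l) k).comp ε) hA ?_ ((bcHom_injective (ℓ := l) k).comp hinj)
    (bcHom_gsum (ℓ := l) k ε hN) ?_ hfix hcop ?_
  · intro a x
    show bcHom k (ε a) * bcHom k (ρ x) = bcHom k (ρ (φ a x)) * bcHom k (ε a)
    rw [← map_mul, ← map_mul, hc a x]
  · intro e
    exact hlq ((Nat.prime_dvd_prime_iff_eq Fact.out hA.prime_q).1
      ((CharP.cast_eq_zero_iff k l q).1 e))
  · intro r hr hrk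
    have h1 := (Nat.prime_dvd_prime_iff_eq Fact.out hr).1 ((CharP.cast_eq_zero_iff k l r).1 hrk)
    subst h1
    exact hk

universe u

variable {A : Type*} [Group A] [Finite A] {G : Type u} [Group G] [Finite G] {p q : ℕ}

/-- The quotient acting faithfully on a minimal factor is nilpotent. -/
theorem lcs_le_centralizer_of_fpf_pq [Group.IsSolvable G] (hA : PQ A p q) {φ : A →* MulAut G}
    (hcop : (Nat.card A).Coprime (Nat.card G))
    (hfix : ∀ g, (∀ a, φ a g = g) → g = 1) {M : Subgroup G} (hM : IsMinimalFactor φ M) :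
    ∃ k, (⊤ : Subgroup G).lowerCentralSeries k ≤ Subgroup.centralizer (M : Set G) := by
  haveI := hM.normal
  haveI := hM.comm
  haveI := hA.isSolvable
  set C := Subgroup.centralizer (M : Set G)
  have hCi := inv_centralizer M hM.inv
  suffices hnil : Group.IsNilpotent (G ⧸ C) by
    obtain ⟨k, hk⟩ := Subgroup.nilpotent_iff_lowerCentralSeries.1 hnil
    refine ⟨k, ?_⟩
    rw [← Subgroup.map_top_of_surjective _ (QuotientGroup.mk'_surjective _),
      ← Subgroup.map_lowerCentralSeries, Subgroup.map_eq_bot_iff, QuotientGroup.ker_mk'] at hk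
    exact hk
  set ψ := quotAct φ C hCi
  have hfixH : ∀ x, (∀ a, ψ a x = x) → x = 1 := by
    intro x hx
    induction x using QuotientGroup.induction_on with | _ g => ?_
    rw [QuotientGroup.eq_one_iff]
    refine mem_of_invariant_coset hcop hfix hCi fun a => ?_
    have := hx a
    rw [quotAct_mk, eq_comm, QuotientGroup.eq] at this
    exact this
  obtain ⟨l, hl, hMl, hld⟩ := exists_prime_exponent M hM.inv hM.ne_bot hM.minimal
  haveI := Fact.mk hl
  have hexp : ∀ v : Additive M, l • v = 0 := by
    let P : Subgroup M := (powMonoidHom l : M →* M).ker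
    have hPn : (P.map M.subtype).Normal := by
      constructor
      rintro _ ⟨m, hm, rfl⟩ g
      refine ⟨MulAut.conjNormal g m, ?_, MulAut.conjNormal_apply g m⟩
      show (MulAut.conjNormal g m) ^ l = 1
      rw [← map_pow, show m ^ l = 1 from hm, map_one]
    have hPi : Inv φ (P.map M.subtype) := by
      rintro a _ ⟨m, hm, rfl⟩
      refine ⟨restrictAct φ M hM.inv a m, ?_, rfl⟩
      show (restrictAct φ M hM.inv a m) ^ l = 1
      rw [← map_pow, show m ^ l = 1 from hm, map_one]
    obtain ⟨x, hx⟩ := exists_prime_orderOf_dvd_card' (G := M) l hld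
    rcases hM.minimal _ hPn hPi (Subgroup.map_subtype_le P) with h | h
    · exfalso
      have : (x : G) ∈ P.map M.subtype :=
        ⟨x, show x ^ l = 1 from orderOf_dvd_iff_pow_eq_one.1 (by rw [hx]), rfl⟩
      rw [h, Subgroup.mem_bot] at this
      rw [show x = 1 from Subtype.ext this, orderOf_one] at hx
      exact hl.ne_one hx.symm
    · intro v
      obtain ⟨n, hn, hnm⟩ := h.ge (Additive.toMul v).2
      have e : n = Additive.toMul v := Subtype.ext hnm
      rw [e] at hn
      exact hn
  letI : Module (ZMod l) (Additive M) := AddCommGroup.zmodModule hexp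
  refine isNilpotent_of_pq_addEnd (l := l) hA (compat_quotEnd M hM.inv) (quotEnd_injective M)
    (gsum_actEnd_eq_zero M hM.inv hfix) ?_ hfixH
    (hcop.coprime_dvd_right (Subgroup.card_quotient_dvd_card _))
    (eq_bot_of_isPGroup_quot M hM.inv hM.minimal hld _ inferInstance
      (inv_of_characteristic _ _) (CfsgLib.Cores.isPGroup_pCore l _))
  rintro rfl
  exact hl.ne_one (Nat.eq_one_of_dvd_coprimes hcop (by rw [hA.card]; exact dvd_mul_left l p)
    (hld.trans M.card_subgroup_dvd_card))

/-- A coprime fixed-point-free nonabelian group of order `p * q` forces Fitting height `≤ 2`. -/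
theorem fittingHeight_of_fpf_pq [Group.IsSolvable G] (hA : PQ A p q) {φ : A →* MulAut G}
    (hcop : (Nat.card A).Coprime (Nat.card G)) (hfix : ∀ g, (∀ a, φ a g = g) → g = 1) :
    ∃ F : Subgroup G, ∃ hF : F.Normal, Group.IsNilpotent F ∧ Group.IsNilpotent (G ⧸ F) := by
  haveI := hA.isSolvable
  obtain ⟨k0, hk0⟩ : ∃ k0, ∀ j, (⊤ : Subgroup G).lowerCentralSeries k0 ≤
      (⊤ : Subgroup G).lowerCentralSeries j := by
    obtain ⟨_, ⟨k, rfl⟩, hmin⟩ := wellFounded_lt.has_min
      (Set.range ((⊤ : Subgroup G).lowerCentralSeries)) ⟨_, 0, rfl⟩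
    refine ⟨k, fun j => ?_⟩
    rcases le_total j k with h | h
    · exact Subgroup.lowerCentralSeries_antitone _ h
    · rcases eq_or_lt_of_le (Subgroup.lowerCentralSeries_antitone (⊤ : Subgroup G) h) with e | e
      · exact e.ge
      · exact absurd e (hmin _ ⟨j, rfl⟩)
  set L := (⊤ : Subgroup G).lowerCentralSeries k0
  refine ⟨L, inferInstance, isNilpotent_of_chief φ L fun N M h => ?_, ?_⟩
  · haveI := h.2.1
    obtain ⟨k, hk⟩ := lcs_le_centralizer_of_fpf_pq hA
      (hcop.coprime_dvd_right (Subgroup.card_quotient_dvd_card N))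
      (φ := quotAct φ N h.2.2.2.1) (fun x hx => by
        induction x using QuotientGroup.induction_on with | _ g => ?_
        rw [QuotientGroup.eq_one_iff]
        refine mem_of_invariant_coset hcop hfix h.2.2.2.1 fun a => ?_
        have := hx a
        rw [quotAct_mk, eq_comm, QuotientGroup.eq] at this
        exact this) (quotient_isMinimalFactor h.2.2.2.1 h)
    refine commutator_le_of_quotient ((Subgroup.map_mono (hk0 k)).trans ?_)
    rw [Subgroup.map_lowerCentralSeries, Subgroup.map_top_of_surjective _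
      (QuotientGroup.mk'_surjective N)]
    exact hk
  · rw [Subgroup.nilpotent_iff_lowerCentralSeries]
    refine ⟨k0, ?_⟩
    rw [← Subgroup.map_top_of_surjective _ (QuotientGroup.mk'_surjective L),
      ← Subgroup.map_lowerCentralSeries, Subgroup.map_eq_bot_iff, QuotientGroup.ker_mk']

end CfsgLib.MetacyclicP
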