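import Mathlib
import Cfsg.Agent.Lib.MetacyclicP.FPFS3Orbit
import Cfsg.Agent.Lib.MetacyclicP.FPFMain
import Cfsg.Agent.Lib.Subnormal.ClassTwo

/-!
Fixed-point-free `S₃` of coprime order: the derived subgroup is nilpotent.
-/

set_option autoImplicit false
set_option linter.style.haveILetI false

open scoped commutatorElement

namespace CfsgLib.MetacyclicP

section ring

variable {H R : Type*} [Group H] [Finite H] [Ring R] (ρ : H →* R)

/-- The kernel of the class-two computation: a commutator of the shape `⁅y, φ y⁆` is a root of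
`(t ^ 4 - 1) t (t ^ 3 - 1)`. -/
theorem classTwo_ring (hcent : ∀ x y : H, ⁅x, y⁆ ∈ Subgroup.center H) (φ : MulAut H) (q : R)
    (hc : ∀ h, q * ρ h = ρ (φ h) * q) (hφ : ∀ h, φ (φ (φ h)) = h) {c : H}
    (hcz : c ∈ Subgroup.center H) (hN : (1 + q + q * q) * (ρ c - 1) = 0) (y : H)
    (hy : c = ⁅y, φ y⁆) (hunit : IsUnit (Nat.card H : R)) :
    (ρ (c ^ 4) - 1) * ρ c * (ρ (c ^ 3) - 1) = 0 := by
  classical
  haveI : Fintype H := Fintype.ofFinite H
  have hcl := CfsgLib.Subnormal.commutatorElement_mul_left hcent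
  have hcr := CfsgLib.Subnormal.commutatorElement_mul_right hcent
  have hcomm : ∀ (z : H), z ∈ Subgroup.center H → ∀ w, Commute (ρ z) (ρ w) := fun z hz w =>
    show ρ z * ρ w = ρ w * ρ z by rw [← map_mul, ← map_mul, Subgroup.mem_center_iff.1 hz w]
  set X := ρ c - 1
  have hX : ∀ w, Commute (ρ w) X := fun w =>
    ((hcomm c hcz w).symm.sub_right (Commute.one_right _))
  set G1 := ∑ u : H, ρ u * q * ρ u⁻¹
  set G2 := ∑ u : H, ρ u * (q * q) * ρ u⁻¹
  have hsum : (Nat.card H : R) * X + G1 * X + G2 * X = 0 := by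
    have e : ∑ u : H, ρ u * (1 + q + q * q) * ρ u⁻¹ = (Nat.card H : R) + G1 + G2 := by
      simp only [G1, G2, mul_add, add_mul, Finset.sum_add_distrib, mul_one, ← map_mul, mul_inv_cancel,
        map_one, Finset.sum_const, Finset.card_univ, ← Nat.card_eq_fintype_card, nsmul_eq_mul]
    have e2 : (∑ u : H, ρ u * (1 + q + q * q) * ρ u⁻¹) * X = 0 := by
      rw [Finset.sum_mul]
      refine Finset.sum_eq_zero fun u _ => ?_
      rw [mul_assoc, (hX u⁻¹).eq, ← mul_assoc, mul_assoc (ρ u), hN, mul_zero, zero_mul]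
    rw [e, add_mul, add_mul] at e2
    exact e2
  -- the relation for an arbitrary element
  have key : ∀ y : H, (ρ ⁅y, φ y⁆ - 1) * ((ρ ⁅y, φ y⁆ - 1) * (G1 * X)) =
      (ρ ⁅y, φ y⁆ - 1) * ((Nat.card H : R) * X) := by
    intro y
    set d := ⁅y, φ y⁆
    set L := y * (φ y)⁻¹
    have e : ⁅(φ y)⁻¹, y⁆ = d := by
      have := hcl (φ y) (φ y)⁻¹ y
      rw [mul_inv_cancel, commutatorElement_one_left, ← commutatorElement_inv y (φ y)] at this
      exact (inv_mul_eq_one.1 this.symm).symm
    have hLy : ⁅L, y⁆ = d := by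
      rw [hcl, commutatorElement_self, one_mul, e]
    have hLφy : ⁅L, φ y⁆ = d := by
      rw [hcl]
      have := hcl (φ y) (φ y)⁻¹ (φ y)
      rw [mul_inv_cancel, commutatorElement_one_left, commutatorElement_self, one_mul] at this
      rw [← this, mul_one]
    have hLyi : ⁅L, y⁻¹⁆ = d⁻¹ := by
      have := hcr L y y⁻¹
      rw [mul_inv_cancel, commutatorElement_one_right, hLy] at this
      exact eq_inv_of_mul_eq_one_right this.symm
    have hM : (φ y)⁻¹ * y = d * L := by
      simp only [L]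
      rw [← e, commutatorElement_def]; group
    set PI := fun Y : R => ∑ u : H, ρ ⁅L, u⁆ * (ρ u * Y * ρ u⁻¹)
    have hLu : ∀ u, ρ L * ρ u = ρ ⁅L, u⁆ * ρ u * ρ L := fun u => by
      simp only [← map_mul]
      rw [commutatorElement_def]; group
    have hdc : ∀ Z : R, ∀ u, ρ u * (ρ d * Z) = ρ d * (ρ u * Z) := fun Z u => by
      rw [← mul_assoc, ← (hcomm d (hcent _ _) u).eq, mul_assoc]
    have e1 : ρ d * (ρ L * G1) = PI q := by
      have h1 : ρ L * q = ρ y * q * ρ y⁻¹ := by
        rw [mul_assoc, hc, ← mul_assoc, ← map_mul, map_inv φ]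
      calc ρ d * (ρ L * G1) = ∑ u : H, ρ d * (ρ ⁅L, u⁆ * (ρ (u * y) * q * ρ (u * y)⁻¹)) := by
            simp only [G1, Finset.mul_sum]
            refine Finset.sum_congr rfl fun u _ => ?_
            congr 1
            rw [← mul_assoc, ← mul_assoc, hLu, mul_assoc _ (ρ L) q, h1]
            simp only [map_mul, mul_inv_rev, mul_assoc]
        _ = ∑ v : H, ρ ⁅L, v⁆ * (ρ v * q * ρ v⁻¹) := by
            refine Fintype.sum_equiv (Equiv.mulRight y) _ _ fun u => ?_
            show _ = ρ ⁅L, u * y⁆ * _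
            rw [hcr L u y, hLy, map_mul ρ ⁅L, u⁆ d, ← (hcomm d (hcent _ _) ⁅L, u⁆).eq]
            simp only [mul_assoc, Equiv.coe_mulRight]
    have e2 : ρ L * G2 = PI (q * q) := by
      have hqq : ∀ h, q * q * ρ h = ρ (φ (φ h)) * (q * q) := fun h => by
        rw [mul_assoc, hc, ← mul_assoc, hc, mul_assoc]
      have h1 : ρ (d * L) * (q * q) = ρ (φ y)⁻¹ * (q * q) * ρ (φ y) := by
        rw [← hM, map_mul, mul_assoc, mul_assoc (ρ (φ y)⁻¹), hqq, hφ]
      have h2 : ρ d * (ρ L * G2) = ρ d * PI (q * q) := by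
        calc ρ d * (ρ L * G2) =
              ∑ u : H, ρ ⁅L, u⁆ * (ρ (u * (φ y)⁻¹) * (q * q) * ρ (u * (φ y)⁻¹)⁻¹) := by
              simp only [G2, Finset.mul_sum]
              refine Finset.sum_congr rfl fun u _ => ?_
              have h3 : ρ u * (ρ (φ y)⁻¹ * (q * q) * ρ (φ y)) = ρ d * (ρ u * (ρ L * (q * q))) := by
                rw [← h1, map_mul, mul_assoc, hdc]
              calc ρ d * (ρ L * (ρ u * (q * q) * ρ u⁻¹)) =
                    ρ ⁅L, u⁆ * (ρ d * (ρ u * (ρ L * (q * q))) * ρ u⁻¹) := by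
                    rw [← mul_assoc (ρ L), ← mul_assoc (ρ L), hLu]
                    simp only [← mul_assoc]
                    rw [(hcomm d (hcent _ _) ⁅L, u⁆).eq]
                _ = _ := by
                    rw [← h3, map_mul ρ u, mul_inv_rev, inv_inv, map_mul ρ (φ y)]
                    simp only [mul_assoc]
          _ = ∑ v : H, ρ d * (ρ ⁅L, v⁆ * (ρ v * (q * q) * ρ v⁻¹)) := by
              refine Fintype.sum_equiv (Equiv.mulRight (φ y)⁻¹) _ _ fun u => ?_
              show _ = ρ d * (ρ ⁅L, u * (φ y)⁻¹⁆ * _)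
              have hi : ⁅L, (φ y)⁻¹⁆ = d⁻¹ := by
                have := hcr L (φ y) (φ y)⁻¹
                rw [mul_inv_cancel, commutatorElement_one_right, hLφy] at this
                exact eq_inv_of_mul_eq_one_right this.symm
              rw [hcr L u (φ y)⁻¹, hi, ← mul_assoc (ρ d), ← map_mul ρ d,
                show d * (⁅L, u⁆ * d⁻¹) = ⁅L, u⁆ by
                  rw [← mul_assoc, ← Subgroup.mem_center_iff.1 (hcent y (φ y)) ⁅L, u⁆, mul_inv_cancel_right]]
              rfl
          _ = ρ d * PI (q * q) := by simp only [PI, Finset.mul_sum]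
      exact ((Group.isUnit d).map ρ).mul_left_cancel h2
    set K := ∑ u : H, ρ ⁅L, u⁆
    have e3 : PI q * X + PI (q * q) * X = - (K * X) := by
      rw [eq_neg_iff_add_eq_zero]
      have hK : K = PI 1 := by
        simp only [K, PI, mul_one, ← map_mul, mul_inv_cancel, map_one]
      have e : PI q + PI (q * q) + PI 1 = PI (1 + q + q * q) := by
        simp only [PI, mul_add, add_mul, Finset.sum_add_distrib]
        abel
      rw [hK, ← add_mul, ← add_mul, e]
      simp only [PI, Finset.sum_mul]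
      refine Finset.sum_eq_zero fun u _ => ?_
      rw [mul_assoc, mul_assoc, (hX u⁻¹).eq, ← mul_assoc (ρ u * (1 + q + q * q)),
        mul_assoc (ρ u), hN, mul_zero, zero_mul, mul_zero]
    have hdK : ρ d * K = K := by
      simp only [K, Finset.mul_sum]
      refine Fintype.sum_equiv (Equiv.mulRight y) _ _ fun u => ?_
      show _ = ρ ⁅L, u * y⁆
      rw [hcr, hLy, map_mul, (hcomm d (hcent _ _) ⁅L, u⁆).eq]
    -- combine
    have hG2 : G2 * X = - ((Nat.card H : R) * X) - G1 * X := by
      rw [eq_sub_iff_add_eq, eq_neg_iff_add_eq_zero, ← hsum]; abel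
    have e4 : ρ L * ((ρ d - 1) * (G1 * X) - (Nat.card H : R) * X) = - (K * X) := by
      rw [← e3, ← e1, ← e2, mul_assoc (ρ d), mul_assoc (ρ L), mul_assoc (ρ L), hG2]
      simp only [mul_sub, sub_mul, one_mul, mul_neg]
      rw [← mul_assoc (ρ L) (ρ d), ← (hcomm d (hcent _ _) L).eq, mul_assoc (ρ d)]
      abel
    have e5 : ρ L * ((ρ d - 1) * ((ρ d - 1) * (G1 * X) - (Nat.card H : R) * X)) = 0 := by
      have hdL : Commute (ρ L) (ρ d - 1) :=
        (hcomm d (hcent _ _) L).symm.sub_right (Commute.one_right _)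
      rw [← mul_assoc, hdL.eq, mul_assoc, e4, mul_neg, ← mul_assoc, sub_mul, hdK, one_mul,
        sub_self, zero_mul, neg_zero]
    have e6 := ((Group.isUnit L).map ρ).mul_right_eq_zero.1 e5
    rw [mul_sub, sub_eq_zero] at e6
    exact e6
  have k1 := key y
  have k4 := key (y ^ 2)
  have h4 : ⁅y ^ 2, φ (y ^ 2)⁆ = c ^ 4 := by
    rw [CfsgLib.Subnormal.commutatorElement_pow_left hcent, sq y, map_mul, hcr, ← hy, ← sq,
      ← pow_mul]
  rw [h4, map_pow] at k4
  rw [← hy] at k1
  set C := ρ c
  set Z := (Nat.card H : R) * X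
  set S := 1 + C + C * C + C * C * C
  have hS : C ^ 4 - 1 = S * (C - 1) := by
    simp only [S, add_mul, mul_sub, mul_one, one_mul, pow_succ, pow_zero]; abel
  have hCS : Commute (C - 1) S := by
    have hC : Commute (C - 1) C := (Commute.refl C).sub_left (Commute.one_left _)
    exact ((((Commute.one_right _).add_right hC).add_right (hC.mul_right hC)).add_right
      ((hC.mul_right hC).mul_right hC))
  have e7 : (C ^ 4 - 1) * ((S - 1) * Z) = 0 := by
    have l1 : (C ^ 4 - 1) * ((C ^ 4 - 1) * (G1 * X)) = (C ^ 4 - 1) * (S * Z) :=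
      calc (C ^ 4 - 1) * ((C ^ 4 - 1) * (G1 * X))
          = S * ((C - 1) * S) * ((C - 1) * (G1 * X)) := by rw [hS]; simp only [mul_assoc]
        _ = S * S * ((C - 1) * ((C - 1) * (G1 * X))) := by rw [hCS.eq]; simp only [mul_assoc]
        _ = S * S * ((C - 1) * Z) := by rw [k1]
        _ = S * (C - 1) * (S * Z) := by
            rw [mul_assoc S (C - 1), ← mul_assoc (C - 1) S, hCS.eq]; simp only [mul_assoc]
        _ = (C ^ 4 - 1) * (S * Z) := by rw [hS]
    rw [k4] at l1
    rw [sub_mul S 1 Z, one_mul, mul_sub, ← l1, sub_self]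
  have hS1 : (S - 1) * X = C * (C ^ 3 - 1) := by
    simp only [S, X, C, pow_succ, pow_zero, add_mul, sub_mul, mul_sub, one_mul, mul_one,
      mul_assoc]
    abel
  have e8 : (Nat.card H : R) * ((C ^ 4 - 1) * ((S - 1) * X)) = 0 := by
    rw [← e7]
    simp only [Z, ← mul_assoc]
    congr 1
    rw [(Nat.cast_commute (Nat.card H) (C ^ 4 - 1)).eq, mul_assoc,
      (Nat.cast_commute (Nat.card H) (S - 1)).eq, mul_assoc]
  rw [hS1] at e8
  rw [map_pow, map_pow, mul_assoc]
  exact hunit.mul_right_eq_zero.1 e8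

omit [Finite H] in
/-- Roots of `(t ^ 4 - 1) t (t ^ 3 - 1)` of order prime to six are trivial. -/
theorem eq_one_of_root (hinj : Function.Injective ρ) {c : H} (hunit : IsUnit (Nat.card H : R))
    (h6 : (orderOf c).Coprime 6)
    (h : (ρ (c ^ 4) - 1) * ρ c * (ρ (c ^ 3) - 1) = 0) : c = 1 := by
  have hdvd : ∀ m : ℕ, (orderOf c).Coprime m → ∃ Y : R, Commute Y (ρ c) ∧ ρ c - 1 = Y * (ρ (c ^ m) - 1) := by
    intro m hm
    obtain ⟨j, hj⟩ := exists_pow_eq_self_of_coprime hm.symm
    refine ⟨∑ i ∈ Finset.range j, (ρ (c ^ m)) ^ i, ?_, ?_⟩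
    · exact Commute.sum_left _ _ _ fun i _ => by
        rw [map_pow]; exact ((Commute.refl (ρ c)).pow_left m).pow_left i
    · rw [geom_sum_mul, ← map_pow, hj]
  obtain ⟨Y4, hY4, h4⟩ := hdvd 4 ((Nat.Coprime.coprime_dvd_right (show 2 ∣ 6 by norm_num) h6).pow_right 2)
  obtain ⟨Y3, hY3, h3⟩ := hdvd 3 (Nat.Coprime.coprime_dvd_right (show 3 ∣ 6 by norm_num) h6)
  set C := ρ c
  have hC4 : Commute (ρ (c ^ 4)) C := by rw [map_pow]; exact (Commute.refl C).pow_left 4
  have hsq : (C - 1) * (C - 1) = 0 := by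
    have e : (C - 1) * C * (C - 1) = 0 := by
      calc (C - 1) * C * (C - 1) = Y4 * ((ρ (c ^ 4) - 1) * C) * (Y3 * (ρ (c ^ 3) - 1)) := by
            rw [← h3, ← mul_assoc Y4, ← h4]
        _ = Y4 * (((ρ (c ^ 4) - 1) * C) * Y3) * (ρ (c ^ 3) - 1) := by simp only [mul_assoc]
        _ = Y4 * (Y3 * ((ρ (c ^ 4) - 1) * C)) * (ρ (c ^ 3) - 1) := by
            have h34 : Commute ((ρ (c ^ 4) - 1) * C) Y3 := by
              rw [map_pow]
              exact ((hY3.symm.pow_left 4).sub_left (Commute.one_left _)).mul_left hY3.symm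
            rw [h34.eq]
        _ = Y4 * Y3 * ((ρ (c ^ 4) - 1) * C * (ρ (c ^ 3) - 1)) := by simp only [mul_assoc]
        _ = 0 := by rw [h, mul_zero]
    rw [show (C - 1) * C * (C - 1) = C * ((C - 1) * (C - 1)) by
      simp only [sub_mul, mul_sub, one_mul, mul_one, mul_assoc]] at e
    exact ((Group.isUnit c).map ρ).mul_right_eq_zero.1 e
  have hpow : ∀ k : ℕ, C ^ k - 1 = (k : R) * (C - 1) := by
    intro k
    induction k with
    | zero => simp
    | succ k ih =>
      have : C ^ (k + 1) - 1 = (C ^ k - 1) * (C - 1) + (C ^ k - 1) + (C - 1) := by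
        simp only [pow_succ, sub_mul, mul_sub, one_mul, mul_one]; abel
      rw [this, ih, mul_assoc, hsq, mul_zero, zero_add, Nat.cast_succ, add_mul, one_mul]
  have h0 := hpow (Nat.card H)
  rw [← map_pow, pow_card_eq_one', map_one, sub_self] at h0
  exact hinj (by rw [map_one]; exact sub_eq_zero.1 (hunit.mul_right_eq_zero.1 h0.symm))

end ring

section group

variable {H : Type*} [Group H] [Finite H]

omit [Finite H] in
/-- The product of commuting-set closures with the centre. -/
theorem closure_sup_center_comm {S : Set H} (hS : ∀ x ∈ S, ∀ y ∈ S, x * y = y * x) :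
    ∀ x ∈ Subgroup.closure (S ∪ (Subgroup.center H : Set H)),
      ∀ y ∈ Subgroup.closure (S ∪ (Subgroup.center H : Set H)), x * y = y * x := by
  have hgen : ∀ x ∈ S ∪ (Subgroup.center H : Set H),
      ∀ y ∈ S ∪ (Subgroup.center H : Set H), x * y = y * x := by
    rintro x (hx | hx) y (hy | hy)
    · exact hS x hx y hy
    · exact Subgroup.mem_center_iff.1 hy x
    · exact (Subgroup.mem_center_iff.1 hx y).symm
    · exact Subgroup.mem_center_iff.1 hy x
  haveI := Subgroup.isMulCommutative_closure hgen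
  intro x hx y hy
  exact congrArg Subtype.val (mul_comm' (⟨x, hx⟩ : Subgroup.closure (S ∪ (Subgroup.center H : Set H)))
    ⟨y, hy⟩)

variable {M : Type*} [AddCommGroup M] [Finite M]
variable {ρ : H →* AddMonoid.End M} {ε : Equiv.Perm (Fin 3) →* AddMonoid.End M}
  {φ : Equiv.Perm (Fin 3) →* MulAut H}

theorem two_gen : (Equiv.swap 0 1 : Equiv.Perm (Fin 3)) ≠ 1 ∧ s3q ≠ Equiv.swap 0 1 ∧
    ¬ (Equiv.swap 0 1 : Equiv.Perm (Fin 3)) ^ 3 = 1 ∧
    ∀ p : Equiv.Perm (Fin 3), p ≠ 1 → ¬ p ^ 3 = 1 → p * p = 1 ∧ p * s3q = s3q * s3q * p ∧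
      s3q ≠ p ∧ p * (s3q * s3q) = s3q * p := by
  refine ⟨by decide, by decide, by decide, ?_⟩
  decide

/-- A class-two group represented faithfully with a fixed-point-free `S₃` is abelian. -/
theorem comm_of_classTwo_s3 (hc : Compat ρ ε φ) (hinj : Function.Injective ρ)
    (hfix : ∀ v, (∀ a, ε a v = v) → v = 0) (hfixH : ∀ h, (∀ a, φ a h = h) → h = 1)
    (hcop : (Nat.card (Equiv.Perm (Fin 3))).Coprime (Nat.card H))
    (hu : ∀ D : Subgroup H, IsUnit (Nat.card D : AddMonoid.End M))
    (hcent : ∀ x y : H, ⁅x, y⁆ ∈ Subgroup.center H) : ∀ x y : H, x * y = y * x := by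
  set q := s3q
  haveI : Group.IsSolvable (Equiv.Perm (Fin 3)) := solvable_perm_three
  have hcard : Nat.card (Equiv.Perm (Fin 3)) = 6 := by
    rw [Nat.card_eq_fintype_card, Fintype.card_perm]; rfl
  have hgen : ∀ (P : Equiv.Perm (Fin 3) → Prop) (p : Equiv.Perm (Fin 3)), p ≠ 1 → ¬ p ^ 3 = 1 →
      P 1 → (∀ x y, P x → P y → P (x * y)) → P q → P p → ∀ c, P c :=
    fun P p hp1 hp3 h1 hm hq hp => s3_closure P h1 hm hq hp s3q_cube.2.1 hp1 (fun e => hp3 e.2)
      (two_gen.2.2.2 p hp1 hp3).2.2.1
  -- an element whose conjugates commute is central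
  have hcentral : ∀ (S : Set H) (p : Equiv.Perm (Fin 3)), p ≠ 1 → ¬ p ^ 3 = 1 →
      (∀ x ∈ S, ∀ y ∈ S, x * y = y * x) →
      (∀ x ∈ S, φ q x ∈ Subgroup.closure (S ∪ (Subgroup.center H : Set H))) →
      (∀ x ∈ S, φ p x ∈ Subgroup.closure (S ∪ (Subgroup.center H : Set H))) →
      S ⊆ Subgroup.center H := by
    intro S p hp1 hp3 hS hq hp
    set U := Subgroup.closure (S ∪ (Subgroup.center H : Set H))
    have hUi : Inv φ U := by
      refine hgen _ p hp1 hp3 (fun x hx => by simpa using hx)
        (fun a b ha hb x hx => by rw [map_mul, MulAut.mul_apply]; exact ha _ (hb x hx)) ?_ ?_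
      all_goals
        intro x hx
        refine (Subgroup.closure_le (K := U.comap (φ _).toMonoidHom)).2 ?_ hx
        rintro z (hz | hz)
      · exact hq z hz
      · exact Subgroup.subset_closure (Or.inr (inv_of_characteristic φ (Subgroup.center H) q z hz))
      · exact hp z hz
      · exact Subgroup.subset_closure (Or.inr (inv_of_characteristic φ (Subgroup.center H) p z hz))
    have hUn : U.Normal := ⟨fun n hn g => by
      have : g * n * g⁻¹ = ⁅g, n⁆ * n := by rw [commutatorElement_def]; group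
      rw [this]
      exact U.mul_mem (Subgroup.subset_closure (Or.inr (hcent g n))) hn⟩
    exact fun x hx => center_of_abelian_normal_s3 hc hinj hfix hfixH hcop hUn hUi
      (closure_sup_center_comm hS) (fun D _ => hu D) (Subgroup.subset_closure (Or.inl hx))
  have hcomp : ∀ (a b : Equiv.Perm (Fin 3)) (x : H), φ (a * b) x = φ a (φ b x) := fun a b x => by
    rw [map_mul, MulAut.mul_apply]
  set p : Equiv.Perm (Fin 3) := Equiv.swap 0 1
  obtain ⟨hp1, -, hp3, hinv⟩ := two_gen
  obtain ⟨hpp, hpq, -, hpqq⟩ := hinv p hp1 hp3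
  -- an involution inverts the fixed points of the rotation
  have hinvert : ∀ x, φ q x = x → φ p x = x⁻¹ := by
    let C := fixSub φ q
    have hCp : ∀ x ∈ C, φ p x ∈ C := by
      intro x hx
      show φ q (φ p x) = φ p x
      rw [← hcomp, ← hpqq, hcomp, hcomp, show φ q x = x from hx, show φ q x = x from hx]
    have hfpC : ∀ x ∈ C, φ p x = x → x = 1 := fun x hx hx' =>
      hfixH x (hgen _ p hp1 hp3 (by simp) (fun a b ha hb => by rw [hcomp, hb, ha]) hx hx')
    let F : C → C := fun x => ⟨(x : H)⁻¹ * φ p x, C.mul_mem (C.inv_mem x.2) (hCp _ x.2)⟩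
    have hF : Function.Injective F := by
      intro x y e
      have e' : (x : H)⁻¹ * φ p x = (y : H)⁻¹ * φ p y := congrArg Subtype.val e
      refine Subtype.ext (mul_inv_eq_one.1 (hfpC _ (C.mul_mem y.2 (C.inv_mem x.2)) ?_)).symm
      have e1 : φ p y = y * ((x : H)⁻¹ * φ p x) := by rw [e']; group
      rw [map_mul, map_inv, e1]; group
    intro x hx
    obtain ⟨y, hy⟩ := (Finite.injective_iff_surjective.1 hF) ⟨x, hx⟩
    have hy' : (y : H)⁻¹ * φ p y = x := congrArg Subtype.val hy
    rw [← hy', map_mul, map_inv, ← hcomp, hpp, map_one, MulAut.one_apply, mul_inv_rev, inv_inv]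
  have hCq : ∀ x, φ q x = x → x ∈ Subgroup.center H := fun x hx =>
    hcentral {x} p hp1 hp3 (by simp)
      (by rintro z rfl; rw [hx]; exact Subgroup.subset_closure (Or.inl rfl))
      (by
        rintro z rfl
        rw [hinvert z hx]
        exact inv_mem (Subgroup.subset_closure (Or.inl rfl))) rfl
  have hcopq : ∀ a : Equiv.Perm (Fin 3),
      (Nat.card (Subgroup.zpowers a)).Coprime (Nat.card (Subgroup.center H)) := fun a =>
    (hcop.coprime_dvd_left (Subgroup.card_subgroup_dvd_card _)).coprime_dvd_right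
      (Subgroup.card_subgroup_dvd_card _)
  -- lifting fixed points of the central quotient
  have hlift : ∀ (a : Equiv.Perm (Fin 3)) (x : H), x⁻¹ * φ a x ∈ Subgroup.center H →
      ∃ w, x⁻¹ * w ∈ Subgroup.center H ∧ φ a w = w := by
    intro a x hx
    obtain ⟨w, hw, hwf⟩ := CfsgLib.CoprimeAction.exists_fixed_mem_coset
      (φ.comp (Subgroup.zpowers a).subtype)
      (fun b n hn => inv_of_characteristic φ (Subgroup.center H) b n hn) (hcopq a)
      (Or.inl (CfsgLib.CoprimeAction.isSolvable_zpowers a)) (x := x) (fun b => by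
        show x⁻¹ * φ (b : Equiv.Perm (Fin 3)) x ∈ _
        have hb : (b : Equiv.Perm (Fin 3)) ∈ Subgroup.zpowers a := b.2
        rw [mem_powers_iff_mem_zpowers.symm, Submonoid.mem_powers_iff] at hb
        obtain ⟨n, hn⟩ := hb
        rw [← hn]
        clear hn
        induction n with
        | zero => simp
        | succ n ih =>
          rw [pow_succ, hcomp,
            show x⁻¹ * φ (a ^ n) (φ a x) = (x⁻¹ * φ (a ^ n) x) * φ (a ^ n) (x⁻¹ * φ a x) by
              rw [map_mul, map_inv]; group]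
          exact mul_mem ih (inv_of_characteristic φ (Subgroup.center H) _ _ hx))
    exact ⟨w, hw, hwf ⟨a, Subgroup.mem_zpowers a⟩⟩
  have hmodq : ∀ x, x⁻¹ * φ q x ∈ Subgroup.center H → x ∈ Subgroup.center H := by
    intro x hx
    obtain ⟨w, hw, hwf⟩ := hlift q x hx
    have := (Subgroup.center H).mul_mem (hCq w hwf) (inv_mem hw)
    simpa using this
  -- fixed points of involutions are central
  have hCp : ∀ a : Equiv.Perm (Fin 3), a ≠ 1 → ¬ a ^ 3 = 1 → ∀ x, φ a x = x →
      x ∈ Subgroup.center H := by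
    intro a ha1 ha3 x hx
    obtain ⟨haa, haq, -, haqq⟩ := hinv a ha1 ha3
    set y := φ q x
    set y2 := φ q y
    have hq3 : φ q y2 = x := by
      rw [← hcomp, ← hcomp, show q * q * q = 1 from s3q_cube.1, map_one, MulAut.one_apply]
    have hay : φ a y = y2 := by rw [← hcomp, haq, hcomp, hcomp, hx]
    have hay2 : φ a y2 = y := by
      rw [show y2 = φ (q * q) x from (hcomp q q x).symm, ← hcomp, haqq, hcomp, hx]
    have hswap : ∀ u v : H, (u * v)⁻¹ * (v * u) ∈ Subgroup.center H := fun u v => by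
      rw [show (u * v)⁻¹ * (v * u) = ⁅v⁻¹, u⁻¹⁆ by rw [commutatorElement_def]; group]
      exact hcent _ _
    have hs : x * y * y2 ∈ Subgroup.center H := by
      have hZ := inv_of_characteristic φ (Subgroup.center H)
      refine mem_of_invariant_coset hcop hfixH hZ ?_
      refine hgen _ a ha1 ha3 (by rw [map_one, MulAut.one_apply, inv_mul_cancel]; exact one_mem _)
        (fun b c hb hc' => ?_) ?_ ?_
      · rw [hcomp, show (x * y * y2)⁻¹ * φ b (φ c (x * y * y2)) =
          (x * y * y2)⁻¹ * φ b (x * y * y2) * φ b ((x * y * y2)⁻¹ * φ c (x * y * y2)) by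
            rw [map_mul (φ b) (x * y * y2)⁻¹, map_inv]; group]
        exact mul_mem hb (hZ b _ hc')
      · rw [map_mul, map_mul, hq3, mul_assoc x y y2]
        exact hswap x (y * y2)
      · rw [map_mul, map_mul, hx, hay, hay2,
          show (x * y * y2)⁻¹ * (x * y2 * y) = (y * y2)⁻¹ * (y2 * y) by group]
        exact hswap y y2
    -- the commutator vanishes
    set c := ⁅x, y⁆
    have hy2 : y2 = y⁻¹ * x⁻¹ * (x * y * y2) := by group
    have hzl : ∀ z ∈ Subgroup.center H, ∀ u : H, ⁅u, z⁆ = 1 := fun z hz u =>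
      commutatorElement_eq_one_iff_mul_comm.2 (Subgroup.mem_center_iff.1 hz u)
    have hcr := CfsgLib.Subnormal.commutatorElement_mul_right hcent
    have hcl := CfsgLib.Subnormal.commutatorElement_mul_left hcent
    have hir : ∀ u v : H, ⁅u, v⁻¹⁆ = ⁅u, v⁆⁻¹ := fun u v => by
      refine eq_inv_of_mul_eq_one_right ?_
      rw [← hcr, mul_inv_cancel, commutatorElement_one_right]
    have hqc : φ q c = c := by
      rw [map_commutatorElement]
      show ⁅y, y2⁆ = _
      rw [hy2, hcr, hzl _ hs, mul_one, hcr, hir, hir, commutatorElement_self, inv_one, one_mul,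
        commutatorElement_inv]
    have hac : φ a c = c⁻¹ := by
      rw [map_commutatorElement, hx, hay, hy2, hcr, hzl _ hs, mul_one, hcr, hir, hir,
        commutatorElement_self, inv_one, mul_one]
    have hc1 : c = 1 := by
      set B := Subgroup.zpowers c
      have hBi : ∀ b ∈ Subgroup.zpowers a, ∀ β ∈ B, φ b β ∈ B := by
        intro b hb β hβ
        obtain ⟨k, rfl⟩ := Subgroup.mem_zpowers_iff.1 hβ
        have hb' : b = 1 ∨ b = a := by
          obtain ⟨n, rfl⟩ := Subgroup.mem_zpowers_iff.1 hb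
          rcases Int.even_or_odd n with ⟨m, rfl⟩ | ⟨m, rfl⟩
          · left; rw [← two_mul, zpow_mul, zpow_two, haa, one_zpow]
          · right; rw [zpow_add, zpow_mul, zpow_two, haa, one_zpow, one_mul, zpow_one]
        rcases hb' with rfl | rfl
        · rw [map_one, MulAut.one_apply]
          exact Subgroup.zpow_mem _ (Subgroup.mem_zpowers c) k
        · rw [map_zpow, hac]
          exact Subgroup.zpow_mem _ (inv_mem (Subgroup.mem_zpowers c)) k
      have hBf : ∀ b ∈ Subgroup.zpowers a, b ≠ 1 → ∀ β ∈ B, φ b β = β → β = 1 := by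
        intro b hb hb1 β hβ hfixed
        obtain ⟨k, rfl⟩ := Subgroup.mem_zpowers_iff.1 hβ
        refine hfixH _ (hgen _ a ha1 ha3 (by simp) (fun s t hs' ht' => by rw [hcomp, ht', hs'])
          (by rw [map_zpow, hqc]) ?_)
        obtain ⟨n, rfl⟩ := Subgroup.mem_zpowers_iff.1 hb
        rcases Int.even_or_odd n with ⟨m, rfl⟩ | ⟨m, rfl⟩
        · exact absurd (by rw [← two_mul, zpow_mul, zpow_two, haa, one_zpow]) hb1
        · rwa [zpow_add, zpow_mul, zpow_two, haa, one_zpow, one_mul, zpow_one] at hfixed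
      set E : AddMonoid.End M := 1 + ε q + ε q * ε q
      have hEN : gsum ε (Subgroup.zpowers a) * E = 0 := by
        refine AddMonoidHom.ext fun v => hfix _ ?_
        refine hgen _ a ha1 ha3 (End_one_apply ε _) (fun s t hs' ht' => by
          rw [End_mul_apply, ht', hs']) ?_ ?_
        · show (ε q * (gsum ε (Subgroup.zpowers a) * E)) v = (gsum ε (Subgroup.zpowers a) * E) v
          congr 1
          have hz : ∀ u, u * gsum ε (Subgroup.zpowers a) = u + u * ε a := by
            intro u
            classical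
            have : (Set.toFinite ((Subgroup.zpowers a : Subgroup _) : Set (Equiv.Perm (Fin 3)))).toFinset
                = {1, a} := by
              ext b
              simp only [Set.Finite.mem_toFinset, SetLike.mem_coe, Finset.mem_insert,
                Finset.mem_singleton]
              constructor
              · intro hb
                obtain ⟨n, rfl⟩ := Subgroup.mem_zpowers_iff.1 hb
                rcases Int.even_or_odd n with ⟨m, rfl⟩ | ⟨m, rfl⟩
                · left; rw [← two_mul, zpow_mul, zpow_two, haa, one_zpow]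
                · right; rw [zpow_add, zpow_mul, zpow_two, haa, one_zpow, one_mul, zpow_one]
              · rintro (rfl | rfl)
                · exact Subgroup.one_mem _
                · exact Subgroup.mem_zpowers _
            rw [gsum, this, Finset.sum_pair (Ne.symm ha1), map_one, mul_add, mul_one]
          have hz1 : gsum ε (Subgroup.zpowers a) = 1 + ε a := by simpa using hz 1
          have e1 : ε q * ε a = ε a * (ε q * ε q) := by rw [← map_mul, ← map_mul, ← map_mul, haqq]
          have e3 : ε q * (ε q * ε q) = 1 := by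
            rw [← map_mul, ← map_mul, ← mul_assoc, show q * q * q = 1 from s3q_cube.1, map_one]
          have e2 : ε q * E = E := by
            simp only [E, mul_add, mul_one, e3]; abel
          rw [hz1, ← mul_assoc, mul_add (ε q) 1 (ε a), mul_one (ε q), e1, add_mul (ε q),
            mul_assoc (ε a), mul_assoc (ε q) (ε q), e2, e2, add_mul 1, one_mul]
        · show (ε a * (gsum ε (Subgroup.zpowers a) * E)) v = _
          rw [← mul_assoc, gsum_mul_left ε (Subgroup.mem_zpowers a)]
          rfl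
      have hcE : ∀ β ∈ B, Commute E (ρ β) := by
        intro β hβ
        obtain ⟨k, rfl⟩ := Subgroup.mem_zpowers_iff.1 hβ
        have h1 : Commute (ε q) (ρ (c ^ k)) := by
          show ε q * ρ (c ^ k) = ρ (c ^ k) * ε q
          rw [hc, map_zpow (φ q), hqc]
        exact ((Commute.one_left _).add_left h1).add_left (h1.mul_left h1)
      have h1 := fpf_ring hc (Subgroup.zpowers a) B (hu B) hBi hBf E hEN hcE c
        (Subgroup.mem_zpowers c)
      have hN : E * (ρ c - 1) = 0 := by
        rw [mul_sub, mul_one, (hcE c (Subgroup.mem_zpowers c)).eq, h1, sub_self]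
      have hunit : IsUnit (Nat.card H : AddMonoid.End M) := by
        rw [← Subgroup.card_top]; exact hu ⊤
      refine eq_one_of_root ρ hinj hunit ?_ (classTwo_ring ρ hcent (φ q) (ε q) (hc q)
        (fun h => by
          rw [← hcomp, ← hcomp, show q * q * q = 1 from s3q_cube.1, map_one, MulAut.one_apply])
        (hcent x y) hN x rfl hunit)
      rw [hcard] at hcop
      exact hcop.symm.coprime_dvd_left (orderOf_dvd_natCard c)
    -- so the pair generates an abelian invariant subgroup
    have hxy : x * y = y * x := commutatorElement_eq_one_iff_mul_comm.1 hc1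
    have hmem2 : ∀ z ∈ ({x, y} : Set H), z ∈ Subgroup.closure ({x, y} ∪ (Subgroup.center H : Set H)) :=
      fun z hz => Subgroup.subset_closure (Or.inl hz)
    have hy2m : y2 ∈ Subgroup.closure ({x, y} ∪ (Subgroup.center H : Set H)) := by
      rw [hy2]
      exact mul_mem (mul_mem (inv_mem (hmem2 y (Or.inr rfl))) (inv_mem (hmem2 x (Or.inl rfl))))
        (Subgroup.subset_closure (Or.inr hs))
    refine hcentral {x, y} a ha1 ha3 ?_ ?_ ?_ (Or.inl rfl)
    · rintro u (rfl | rfl) v (rfl | rfl)
      · rfl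
      · exact hxy
      · exact hxy.symm
      · rfl
    · rintro u (rfl | rfl)
      · exact hmem2 _ (Or.inr rfl)
      · exact hy2m
    · rintro u (rfl | rfl)
      · rw [hx]; exact hmem2 _ (Or.inl rfl)
      · rw [hay]; exact hy2m
  -- every involution inverts the central quotient, so the rotation centralises it
  have hinvmod : ∀ a : Equiv.Perm (Fin 3), a ≠ 1 → ¬ a ^ 3 = 1 → ∀ x,
      φ a x * x ∈ Subgroup.center H := by
    intro a ha1 ha3
    obtain ⟨haa, -, -, -⟩ := hinv a ha1 ha3
    let F : H ⧸ Subgroup.center H → H ⧸ Subgroup.center H := fun z =>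
      z⁻¹ * quotAct φ _ (inv_of_characteristic φ (Subgroup.center H)) a z
    set ψ := quotAct φ (Subgroup.center H) (inv_of_characteristic φ (Subgroup.center H))
    have hfp : ∀ z, ψ a z = z → z = 1 := by
      intro z hz
      induction z using QuotientGroup.induction_on with | _ g => ?_
      rw [quotAct_mk, eq_comm, QuotientGroup.eq] at hz
      obtain ⟨w, hw, hwf⟩ := hlift a g hz
      rw [QuotientGroup.eq_one_iff]
      have := (Subgroup.center H).mul_mem (hCp a ha1 ha3 w hwf) (inv_mem hw)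
      simpa using this
    have hF : Function.Injective F := by
      intro x y e
      have e' : x⁻¹ * ψ a x = y⁻¹ * ψ a y := e
      refine (mul_inv_eq_one.1 (hfp _ ?_)).symm
      have e1 : ψ a y = y * (x⁻¹ * ψ a x) := by rw [e']; group
      rw [map_mul, map_inv, e1]; group
    intro x
    obtain ⟨y, hy⟩ := (Finite.injective_iff_surjective.1 hF) (x : H ⧸ Subgroup.center H)
    have hy' : y⁻¹ * ψ a y = (x : H ⧸ Subgroup.center H) := hy
    have h2 : ψ a (x : H ⧸ Subgroup.center H) * (x : H ⧸ Subgroup.center H) = 1 := by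
      rw [← hy', map_mul, map_inv, ← MulAut.mul_apply, ← map_mul, haa, map_one, MulAut.one_apply]
      group
    rw [quotAct_mk, ← QuotientGroup.mk_mul, QuotientGroup.eq_one_iff] at h2
    exact h2
  intro x y
  refine (Subgroup.mem_center_iff.1 (hmodq y ?_) x)
  obtain ⟨hb1, hb3⟩ : q * p ≠ 1 ∧ ¬ (q * p) ^ 3 = 1 := by decide
  -- `q = (q p) p`
  have h1 := hinvmod (q * p) hb1 hb3 (φ p y)
  have h2 := hinvmod p hp1 hp3 y
  rw [← hcomp, mul_assoc, hpp, mul_one] at h1
  have h3 := (Subgroup.center H).mul_mem h1 (inv_mem h2)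
  have hby : φ p y * y = y * φ p y := mul_right_cancel (b := y)
    ((Subgroup.mem_center_iff.1 h2 y).symm.trans (mul_assoc _ _ _).symm)
  rw [hby, mul_inv_rev, mul_assoc, mul_inv_cancel_left] at h3
  rw [show y⁻¹ * φ q y = y⁻¹ * (φ q y * y⁻¹) * y by group, Subgroup.mem_center_iff.1 h3 y⁻¹,
    inv_mul_cancel_right]
  exact h3

end group

end CfsgLib.MetacyclicP
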