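import Mathlib
import Cfsg.Agent.Lib.MetacyclicP.FPFS3

/-!
A solvable group with a coprime fixed-point-free `S₃` has nilpotent derived subgroup.
-/

set_option autoImplicit false
set_option linter.style.haveILetI false

open Cfsg
open scoped IsMulCommutative commutatorElement

namespace CfsgLib.MetacyclicP

universe u v

/-- A nilpotent group represented faithfully with a fixed-point-free `S₃` is abelian. -/
theorem comm_of_nilpotent_s3 {M : Type v} [AddCommGroup M] [Finite M]
    {ε : Equiv.Perm (Fin 3) →* AddMonoid.End M}
    (hfix : ∀ w, (∀ a, ε a w = w) → w = 0) : ∀ (n : ℕ) (H : Type u) [Group H] [Finite H]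
    [Group.IsNilpotent H] (ρ : H →* AddMonoid.End M) (φ : Equiv.Perm (Fin 3) →* MulAut H),
    Nat.card H ≤ n → Compat ρ ε φ → Function.Injective ρ →
    (∀ h, (∀ a, φ a h = h) → h = 1) →
    (Nat.card (Equiv.Perm (Fin 3))).Coprime (Nat.card H) →
    (∀ D : Subgroup H, IsUnit (Nat.card D : AddMonoid.End M)) → ∀ x y : H, x * y = y * x := by
  intro n
  induction n with
  | zero =>
    intro H _ _ _ ρ φ hn
    exact absurd hn (Nat.not_le.2 Nat.card_pos)
  | succ n ih =>
    intro H _ _ _ ρ φ hn hc hinj hfixH hcop hu
    rcases subsingleton_or_nontrivial H with hs | hnt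
    · exact fun x y => Subsingleton.elim _ _
    have hDi : Inv φ (commutator H) := inv_of_characteristic φ _
    have hlt : commutator H < ⊤ := Group.IsSolvable.commutator_lt_top_of_nontrivial H
    have hcardD : Nat.card (commutator H) ≤ n := by
      have hne : Nat.card (commutator H) ≠ Nat.card H :=
        fun e => hlt.ne ((Subgroup.card_eq_iff_eq_top _).1 e)
      have := Nat.le_of_dvd Nat.card_pos (commutator H).card_subgroup_dvd_card
      omega
    have hab := ih (commutator H) (ρ.comp (commutator H).subtype) (restrictAct φ _ hDi) hcardD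
      (fun a d => hc a d) (hinj.comp (commutator H).subtype_injective)
      (fun d hd => Subtype.ext (hfixH d fun a => congrArg Subtype.val (hd a)))
      (hcop.coprime_dvd_right (commutator H).card_subgroup_dvd_card)
      (fun D => by
        rw [← Subgroup.card_map_of_injective (K := D) (commutator H).subtype_injective]
        exact hu _)
    have hcen : commutator H ≤ Subgroup.center H :=
      center_of_abelian_normal_s3 hc hinj hfix hfixH hcop inferInstance hDi
        (fun x hx y hy => congrArg Subtype.val (hab ⟨x, hx⟩ ⟨y, hy⟩)) (fun D _ => hu D)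
    exact comm_of_classTwo_s3 hc hinj hfix hfixH hcop hu fun x y =>
      hcen (Subgroup.commutator_mem_commutator (Subgroup.mem_top x) (Subgroup.mem_top y))

variable {G : Type u} [Group G] [Finite G]

/-- The derived subgroup centralises every minimal factor. -/
theorem commutator_le_centralizer_of_fpf_s3 [Group.IsSolvable G]
    {φ : Equiv.Perm (Fin 3) →* MulAut G} (hfix : ∀ g, (∀ a, φ a g = g) → g = 1)
    (hcop : (Nat.card (Equiv.Perm (Fin 3))).Coprime (Nat.card G)) {M : Subgroup G}
    (hM : IsMinimalFactor φ M) : commutator G ≤ Subgroup.centralizer (M : Set G) := by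
  haveI := hM.normal
  haveI := hM.comm
  haveI := solvable_perm_three
  set C := Subgroup.centralizer (M : Set G)
  have hCi := inv_centralizer M hM.inv
  set ψ := quotAct φ C hCi
  set ε := actEnd M φ hM.inv
  have hfixM : ∀ w, (∀ a, ε a w = w) → w = 0 := by
    intro w hw
    have h1 : ((Additive.toMul w : M) : G) = 1 :=
      hfix _ fun a => congrArg (fun u : Additive M => ((Additive.toMul u : M) : G)) (hw a)
    exact (Additive.toMul (α := M)).injective (Subtype.ext h1)
  have hcopH : (Nat.card (Equiv.Perm (Fin 3))).Coprime (Nat.card (G ⧸ C)) :=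
    hcop.coprime_dvd_right (Subgroup.card_quotient_dvd_card _)
  have hfixH : ∀ x, (∀ a, ψ a x = x) → x = 1 := by
    intro x hx
    induction x using QuotientGroup.induction_on with | _ g => ?_
    rw [QuotientGroup.eq_one_iff]
    refine mem_of_invariant_coset hcop hfix hCi fun a => ?_
    have := hx a
    rw [quotAct_mk, eq_comm, QuotientGroup.eq] at this
    exact this
  obtain ⟨r, hr, hMr, hrd⟩ := exists_prime_exponent M hM.inv hM.ne_bot hM.minimal
  haveI := Fact.mk hr
  set K := fittingSubgroup (G ⧸ C)
  haveI hKnil : Group.IsNilpotent K := CfsgLib.Cores.isNilpotent_fittingSubgroup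
  have hKinv : Inv ψ K := inv_of_characteristic _ K
  have hrK : ¬ r ∣ Nat.card K := by
    intro hd
    have hcore : pCore r (G ⧸ C) = ⊥ :=
      eq_bot_of_isPGroup_quot M hM.inv hM.minimal hrd _ inferInstance (inv_of_characteristic _ _)
        (CfsgLib.Cores.isPGroup_pCore r _)
    obtain ⟨S⟩ : Nonempty (Sylow r K) := inferInstance
    have h1 : (S : Subgroup K).map K.subtype ≤ pCore r (G ⧸ C) :=
      (Subgroup.map_mono (CfsgLib.Cores.le_pCore (N := (S : Subgroup K)) S.isPGroup')).trans
        (CfsgLib.Cores.map_subtype_pCore_le (Subgroup.Normal.isSubnormal inferInstance))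
    rw [hcore, le_bot_iff, Subgroup.map_eq_bot_iff, Subgroup.ker_subtype, le_bot_iff] at h1
    exact S.ne_bot_of_dvd_card hd h1
  have hu : ∀ D : Subgroup (G ⧸ C), D ≤ K → IsUnit (Nat.card D : AddMonoid.End (Additive M)) :=
    fun D hD => isUnit_natCast_End hMr fun hd => hrK (hd.trans (Subgroup.card_dvd_of_le hD))
  have hab := comm_of_nilpotent_s3 (ε := ε) hfixM (Nat.card K) K ((quotEnd M).comp K.subtype)
    (restrictAct ψ K hKinv) le_rfl (fun a d => compat_quotEnd M hM.inv a d)
    ((quotEnd_injective M).comp K.subtype_injective)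
    (fun d hd => Subtype.ext (hfixH d fun a => congrArg Subtype.val (hd a)))
    (hcopH.coprime_dvd_right K.card_subgroup_dvd_card)
    (fun D => by
      rw [← Subgroup.card_map_of_injective (K := D) K.subtype_injective]
      exact hu _ (Subgroup.map_subtype_le D))
  have hKz : K ≤ Subgroup.center (G ⧸ C) :=
    center_of_abelian_normal_s3 (compat_quotEnd M hM.inv) (quotEnd_injective M) hfixM hfixH hcopH
      inferInstance hKinv (fun x hx y hy => congrArg Subtype.val (hab ⟨x, hx⟩ ⟨y, hy⟩)) hu
  have hall : ∀ x : G ⧸ C, x ∈ Subgroup.center (G ⧸ C) := fun x =>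
    hKz (CfsgLib.Cores.centralizer_fittingSubgroup_le
      (Subgroup.mem_centralizer_iff.2 fun k hk => (Subgroup.mem_center_iff.1 (hKz hk) x).symm))
  rw [commutator_def, Subgroup.commutator_le]
  intro a _ b _
  rw [← QuotientGroup.eq_one_iff]
  show QuotientGroup.mk' _ ⁅a, b⁆ = 1
  rw [map_commutatorElement, commutatorElement_eq_one_iff_mul_comm]
  exact Subgroup.mem_center_iff.1 (hall _) _

/-- A coprime fixed-point-free action of `S₃` forces a nilpotent derived subgroup. -/
theorem isNilpotent_commutator_of_fpf_s3 [Group.IsSolvable G]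
    {φ : Equiv.Perm (Fin 3) →* MulAut G} (hfix : ∀ g, (∀ a, φ a g = g) → g = 1)
    (hcop : (Nat.card (Equiv.Perm (Fin 3))).Coprime (Nat.card G)) :
    Group.IsNilpotent (commutator G) := by
  haveI := solvable_perm_three
  refine isNilpotent_of_chief φ _ fun N M h => ?_
  haveI := h.2.1
  refine commutator_le_of_quotient ?_
  rw [commutator_def, Subgroup.map_commutator, Subgroup.map_top_of_surjective _
    (QuotientGroup.mk'_surjective N), ← commutator_def]
  refine commutator_le_centralizer_of_fpf_s3 (φ := quotAct φ N h.2.2.2.1) (fun x hx => ?_)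
    (hcop.coprime_dvd_right (Subgroup.card_quotient_dvd_card _))
    (quotient_isMinimalFactor h.2.2.2.1 h)
  induction x using QuotientGroup.induction_on with | _ g => ?_
  rw [QuotientGroup.eq_one_iff]
  refine mem_of_invariant_coset hcop hfix h.2.2.2.1 fun a => ?_
  have := hx a
  rw [quotAct_mk, eq_comm, QuotientGroup.eq] at this
  exact this

end CfsgLib.MetacyclicP
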