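import Mathlib
import Cfsg.Agent.Lib.CoprimeAction.Abelian
import Cfsg.Agent.Lib.MetacyclicP.FPFGroup

/-!
Tools for solvable groups with one class of involutions: a Chevalley-Warning bound for anisotropic
quadratic maps, the order of abelian odd groups acting faithfully on abelian 2-groups, independence of
sign-eigen elements, and sign-eigen elements for elementary abelian 2-groups.
-/

set_option autoImplicit false
set_option linter.style.haveILetI false

open scoped IsMulCommutative

namespace CfsgLib.MetacyclicP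

section deg

variable {U U' : Type*} [AddCommGroup U] [AddCommGroup U']

/-- Polynomial degree at most `d`, by finite differences. -/
def DegLE : ℕ → (U → ZMod 2) → Prop
  | 0, g => ∀ u v, g u = g v
  | d + 1, g => ∀ h, DegLE d fun u => g (u + h) + g u

theorem degLE_succ : ∀ {d : ℕ} {g : U → ZMod 2}, DegLE d g → DegLE (d + 1) g := by
  intro d
  induction d with
  | zero => intro g H h u v; show g (u + h) + g u = g (v + h) + g v; rw [H (u + h) (v + h), H u v]
  | succ d ih => intro g H h; exact ih (H h)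

theorem degLE_mono {d e : ℕ} (hde : d ≤ e) {g : U → ZMod 2} (h : DegLE d g) : DegLE e g := by
  induction hde with
  | refl => exact h
  | step _ ih => exact degLE_succ ih

theorem degLE_zero_fun : ∀ d : ℕ, DegLE d (fun _ : U => (0 : ZMod 2)) := fun d =>
  degLE_mono (Nat.zero_le d) fun _ _ => rfl

theorem degLE_add : ∀ {d : ℕ} {g k : U → ZMod 2}, DegLE d g → DegLE d k →
    DegLE d fun u => g u + k u := by
  intro d
  induction d with
  | zero => intro g k hg hk u v; show g u + k u = g v + k v; rw [hg u v, hk u v]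
  | succ d ih =>
    intro g k hg hk h
    have e : (fun u => (g (u + h) + k (u + h)) + (g u + k u)) =
        fun u => (g (u + h) + g u) + (k (u + h) + k u) := funext fun u => by ring
    show DegLE d fun u => (g (u + h) + k (u + h)) + (g u + k u)
    rw [e]; exact ih (hg h) (hk h)

theorem degLE_shift : ∀ {d : ℕ} {g : U → ZMod 2} (a : U), DegLE d g → DegLE d fun u => g (u + a) := by
  intro d
  induction d with
  | zero => intro g a hg u v; exact hg _ _
  | succ d ih =>
    intro g a hg h
    have e : (fun u => g (u + h + a) + g (u + a)) = fun u => (fun w => g (w + h) + g w) (u + a) :=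
      funext fun u => by rw [add_right_comm u h a]
    show DegLE d fun u => g (u + h + a) + g (u + a)
    rw [e]; exact ih a (hg h)

theorem degLE_comp (φ : U' →+ U) : ∀ {d : ℕ} {g : U → ZMod 2}, DegLE d g →
    DegLE d fun u => g (φ u) := by
  intro d
  induction d with
  | zero => intro g hg u v; exact hg _ _
  | succ d ih =>
    intro g hg h
    show DegLE d fun u => g (φ (u + h)) + g (φ u)
    simp only [map_add]
    exact ih (g := fun w => g (w + φ h) + g w) (hg (φ h))

theorem degLE_const_mul {d : ℕ} {g : U → ZMod 2} (hg : DegLE d g) (c : ZMod 2) :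
    DegLE d fun u => c * g u := by
  fin_cases c
  · show DegLE d fun u => (0 : ZMod 2) * g u
    simp only [zero_mul]; exact degLE_zero_fun d
  · show DegLE d fun u => (1 : ZMod 2) * g u
    simp only [one_mul]; exact hg

theorem degLE_mul : ∀ {a b : ℕ} {g k : U → ZMod 2}, DegLE a g → DegLE b k →
    DegLE (a + b) fun u => g u * k u := by
  intro a
  induction a with
  | zero =>
    intro b g k hg hk
    rw [Nat.zero_add, show (fun u => g u * k u) = fun u => g 0 * k u from funext fun u => by rw [hg u 0]]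
    exact degLE_const_mul hk _
  | succ a iha =>
    intro b
    induction b with
    | zero =>
      intro g k hg hk
      rw [show (fun u => g u * k u) = fun u => k 0 * g u from funext fun u => by rw [hk u 0, mul_comm]]
      exact degLE_const_mul hg _
    | succ b ihb =>
      intro g k hg hk h
      have e : (fun u => g (u + h) * k (u + h) + g u * k u) =
          fun u => (g (u + h) + g u) * k (u + h) + g u * (k (u + h) + k u) := funext fun u => by
        generalize g (u + h) = a1
        generalize g u = a0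
        generalize k (u + h) = b1
        generalize k u = b0
        revert a1 a0 b1 b0
        decide
      show DegLE (a + 1 + b) fun u => g (u + h) * k (u + h) + g u * k u
      rw [e]
      refine degLE_add ?_ (ihb hg (hk h))
      have h1 := iha (hg h) (degLE_shift h hk)
      rwa [show a + 1 + b = a + (b + 1) by omega]

theorem sum_eq_zero_of_degLE : ∀ {n d : ℕ}, d < n → ∀ {g : (Fin n → ZMod 2) → ZMod 2}, DegLE d g →
    ∑ u, g u = 0 := by
  intro n
  induction n with
  | zero => intro d h; omega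
  | succ n ih =>
    intro d hd g hg
    let φ : (Fin n → ZMod 2) →+ (Fin (n + 1) → ZMod 2) :=
      AddMonoidHom.mk' (fun v => Fin.cons 0 v) fun a b => by
        funext i; refine Fin.cases ?_ (fun j => ?_) i <;> simp
    set e : Fin (n + 1) → ZMod 2 := Fin.cons 1 0 with he
    have hcons : ∀ v : Fin n → ZMod 2, (Fin.cons 1 v : Fin (n + 1) → ZMod 2) = φ v + e := by
      intro v; funext i; refine Fin.cases ?_ (fun j => ?_) i <;> simp [φ, he]
    rw [← (Fin.consEquiv fun _ : Fin (n + 1) => ZMod 2).sum_comp, Fintype.sum_prod_type,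
      show (Finset.univ : Finset (ZMod 2)) = {0, 1} from rfl,
      Finset.sum_pair (show (0 : ZMod 2) ≠ 1 by decide), ← Finset.sum_add_distrib]
    show ∑ v : Fin n → ZMod 2, (g (Fin.cons 0 v) + g (Fin.cons 1 v)) = 0
    have hrw : ∀ v : Fin n → ZMod 2, g (Fin.cons 0 v) + g (Fin.cons 1 v) = g (φ v + e) + g (φ v) :=
      fun v => by rw [hcons, add_comm]; rfl
    simp only [hrw]
    rcases d with _ | d
    · refine Finset.sum_eq_zero fun v _ => ?_
      rw [hg (φ v + e) (φ v), ← two_mul, show (2 : ZMod 2) = 0 from rfl, zero_mul]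
    · exact ih (by omega) (degLE_comp φ (hg e))

/-- An anisotropic quadratic map from `(ZMod 2)^n` to `(ZMod 2)^r` has `n ≤ 2 r`. -/
theorem le_two_mul_of_anisotropic {n r : ℕ} (f : (Fin n → ZMod 2) → (Fin r → ZMod 2))
    (h0 : f 0 = 0) (haniso : ∀ u, f u = 0 → u = 0)
    (hquad : ∀ u v h k, f (u + h + k) + f (u + h) + (f (u + k) + f u) =
      f (v + h + k) + f (v + h) + (f (v + k) + f v)) : n ≤ 2 * r := by
  classical
  by_contra hlt
  push Not at hlt
  have hdeg : ∀ s : Finset (Fin r), DegLE (2 * s.card) fun u => ∏ i ∈ s, (1 + f u i) := by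
    intro s
    induction s using Finset.induction_on with
    | empty => intro u v; rfl
    | insert i s hi ih =>
      rw [Finset.card_insert_of_notMem hi, Nat.mul_succ, Nat.add_comm]
      simp only [Finset.prod_insert hi]
      refine degLE_mul ?_ ih
      intro h k u v
      show (1 + f (u + k + h) i + (1 + f (u + k) i)) + (1 + f (u + h) i + (1 + f u i)) =
        (1 + f (v + k + h) i + (1 + f (v + k) i)) + (1 + f (v + h) i + (1 + f v i))
      have h1 := congrFun (hquad u v k h) i
      simp only [Pi.add_apply] at h1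
      linear_combination h1
  have hsum := sum_eq_zero_of_degLE (g := fun u => ∏ i, (1 + f u i))
    (show 2 * (Finset.univ : Finset (Fin r)).card < n by simpa using hlt) (hdeg Finset.univ)
  rw [Finset.sum_eq_single (0 : Fin n → ZMod 2)] at hsum
  · simp [h0] at hsum
  · intro u _ hu
    obtain ⟨i, hi⟩ : ∃ i, f u i ≠ 0 := by
      by_contra h
      push Not at h
      exact hu (haniso u (funext h))
    refine Finset.prod_eq_zero (Finset.mem_univ i) ?_
    revert hi
    generalize f u i = a
    revert a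
    decide
  · simp

end deg

/-- Elementary abelian 2-groups in coordinates. -/
theorem exists_equiv_pi (U : Type*) [CommGroup U] [Finite U] (h : ∀ x : U, x ^ 2 = 1) :
    ∃ n : ℕ, Nat.card U = 2 ^ n ∧ Nonempty (Additive U ≃+ (Fin n → ZMod 2)) := by
  letI : Module (ZMod 2) (Additive U) := AddCommGroup.zmodModule (n := 2) fun x => h x.toMul
  haveI : Module.Finite (ZMod 2) (Additive U) := Module.Finite.of_finite
  let b := Module.finBasis (ZMod 2) (Additive U)
  refine ⟨_, ?_, ⟨b.equivFun.toAddEquiv⟩⟩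
  show Nat.card (Additive U) = _
  rw [Nat.card_congr b.equivFun.toEquiv, Nat.card_fun, Nat.card_zmod, Nat.card_fin]

/-- An anisotropic quadratic map between elementary abelian 2-groups. -/
theorem card_le_sq_of_anisotropic {U E : Type*} [CommGroup U] [Finite U] [CommGroup E] [Finite E]
    (hU : ∀ x : U, x ^ 2 = 1) (hE : ∀ x : E, x ^ 2 = 1) (f : U → E)
    (h0 : f 1 = 1) (haniso : ∀ u, f u = 1 → u = 1)
    (hquad : ∀ u v h k, f (u * h * k) * f (u * h) * (f (u * k) * f u) =
      f (v * h * k) * f (v * h) * (f (v * k) * f v)) : Nat.card U ≤ Nat.card E ^ 2 := by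
  obtain ⟨n, hn, ⟨e⟩⟩ := exists_equiv_pi U hU
  obtain ⟨r, hr, ⟨e'⟩⟩ := exists_equiv_pi E hE
  have hle : n ≤ 2 * r := by
    refine le_two_mul_of_anisotropic (fun u => e' (Additive.ofMul (f (e.symm u).toMul))) ?_ ?_ ?_
    · rw [map_zero, toMul_zero, h0, ofMul_one, map_zero]
    · intro u hu
      rw [AddEquiv.map_eq_zero_iff, ofMul_eq_zero] at hu
      have h1 : e.symm u = 0 := by rw [← ofMul_toMul (e.symm u), haniso _ hu]; rfl
      exact (AddEquiv.map_eq_zero_iff e.symm).1 h1
    · intro u v h k
      simp only [map_add, toMul_add]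
      simp only [← map_add e', ← ofMul_mul]
      exact congrArg (fun z => e' (Additive.ofMul z)) (hquad _ _ _ _)
  rw [hn, hr, ← pow_mul, Nat.mul_comm r 2]
  exact Nat.pow_le_pow_right two_pos hle

/-- An abelian group of odd order acting faithfully on an abelian 2-group is no larger. -/
theorem card_le_of_faithful_abelian : ∀ (n : ℕ) {X U : Type*} [CommGroup X] [Finite X] [CommGroup U]
    [Finite U], Nat.card U ≤ n → Odd (Nat.card X) → IsPGroup 2 U → ∀ φ : X →* MulAut U,
    Function.Injective φ → Nat.card X ≤ Nat.card U := by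
  intro n
  induction n with
  | zero => intro X U _ _ _ _ h; exact absurd h (not_le.2 Nat.card_pos)
  | succ n ih =>
    intro X U _ _ _ _ hn hodd hU φ hφ
    rcases subsingleton_or_nontrivial U with hs | hnt
    · haveI : Subsingleton X := ⟨fun a b => hφ (MulEquiv.ext fun u => Subsingleton.elim _ _)⟩
      rw [Nat.card_unique, Nat.card_unique]
    obtain ⟨u, hu⟩ := exists_ne (1 : U)
    set U0 := Subgroup.closure (Set.range fun x => φ x u) with hU0
    have hinv : ∀ x, ∀ w ∈ U0, φ x w ∈ U0 := by
      intro x w hw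
      induction hw using Subgroup.closure_induction with
      | mem w hw =>
        obtain ⟨y, rfl⟩ := hw
        exact Subgroup.subset_closure ⟨x * y, by simp⟩
      | one => rw [map_one]; exact U0.one_mem
      | mul a b _ _ ha hb => rw [map_mul]; exact U0.mul_mem ha hb
      | inv a _ ha => rw [map_inv]; exact U0.inv_mem ha
    by_cases htop : U0 = ⊤
    · refine Nat.card_le_card_of_injective (fun x => φ x u) fun x y hxy => hφ (MulEquiv.ext fun w => ?_)
      have hw : w ∈ U0 := htop ▸ Subgroup.mem_top w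
      induction hw using Subgroup.closure_induction with
      | mem w hw =>
        obtain ⟨z, rfl⟩ := hw
        show φ x (φ z u) = φ y (φ z u)
        rw [← MulAut.mul_apply, ← map_mul, ← MulAut.mul_apply, ← map_mul, mul_comm x, mul_comm y,
          map_mul, map_mul, MulAut.mul_apply, MulAut.mul_apply]
        exact congrArg (φ z) hxy
      | one => rw [map_one, map_one]
      | mul a b _ _ ha hb => rw [map_mul, map_mul, ha, hb]
      | inv a _ ha => rw [map_inv, map_inv, ha]
    have huU0 : u ∈ U0 := Subgroup.subset_closure ⟨1, by simp⟩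
    have hbot : U0 ≠ ⊥ := fun h => hu (Subgroup.mem_bot.1 (h ▸ huU0))
    let φ0 : X →* MulAut U0 :=
      { toFun := fun x =>
          { toFun := fun w => ⟨φ x w, hinv x w w.2⟩
            invFun := fun w => ⟨φ x⁻¹ w, hinv _ w w.2⟩
            left_inv := fun w => Subtype.ext (by simp [map_inv])
            right_inv := fun w => Subtype.ext (by simp [map_inv])
            map_mul' := fun a b => Subtype.ext (by simp) }
        map_one' := MulEquiv.ext fun w => Subtype.ext (by simp)
        map_mul' := fun x y => MulEquiv.ext fun w => Subtype.ext (by simp) }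
    have hIU : Inv φ U0 := hinv
    let φ1 := quotAct φ U0 hIU
    have hlt0 : Nat.card U0 < Nat.card U :=
      lt_of_le_of_ne U0.card_le_card_group fun e => htop (Subgroup.eq_top_of_card_eq U0 e)
    have hcardeq := U0.card_eq_card_quotient_mul_card_subgroup
    have hlt1 : Nat.card (U ⧸ U0) < Nat.card U := by
      rw [hcardeq]
      exact lt_mul_of_one_lt_right Nat.card_pos ((Subgroup.one_lt_card_iff_ne_bot U0).2 hbot)
    have h0 := ih (X := X ⧸ φ0.ker) (U := U0) (by omega)
      (hodd.of_dvd_nat φ0.ker.card_quotient_dvd_card) (hU.to_subgroup U0) (QuotientGroup.kerLift φ0)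
      (QuotientGroup.kerLift_injective φ0)
    have h1 := ih (X := X ⧸ φ1.ker) (U := U ⧸ U0) (by omega)
      (hodd.of_dvd_nat φ1.ker.card_quotient_dvd_card) (hU.to_quotient U0) (QuotientGroup.kerLift φ1)
      (QuotientGroup.kerLift_injective φ1)
    have hinj : Function.Injective fun x : X => ((x : X ⧸ φ0.ker), (x : X ⧸ φ1.ker)) := by
      suffices hk : ∀ x, φ0 x = 1 → φ1 x = 1 → x = 1 by
        intro x y hxy
        simp only [Prod.mk.injEq] at hxy
        have e0 : φ0 x = φ0 y := congrArg (QuotientGroup.kerLift φ0) hxy.1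
        have e1 : φ1 x = φ1 y := congrArg (QuotientGroup.kerLift φ1) hxy.2
        exact mul_inv_eq_one.1 (hk (x * y⁻¹) (by rw [map_mul, e0, ← map_mul, mul_inv_cancel, map_one])
          (by rw [map_mul, e1, ← map_mul, mul_inv_cancel, map_one]))
      intro x hx0 hx1
      refine hφ ?_
      rw [map_one]
      refine MulEquiv.ext fun w => ?_
      show φ x w = w
      have hc : w⁻¹ * φ x w ∈ U0 := by
        have h := DFunLike.congr_fun hx1 (w : U ⧸ U0)
        rw [quotAct_mk, MulAut.one_apply, QuotientGroup.eq] at h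
        simpa [mul_comm] using U0.inv_mem h
      set c := w⁻¹ * φ x w with hcdef
      have hfix : φ x c = c := congrArg Subtype.val (DFunLike.congr_fun hx0 ⟨c, hc⟩)
      have hw : φ x w = w * c := by rw [hcdef, mul_inv_cancel_left]
      have hpow : ∀ k : ℕ, φ (x ^ k) w = w * c ^ k := by
        intro k
        induction k with
        | zero => simp
        | succ k ihk =>
          rw [pow_succ', map_mul, MulAut.mul_apply, ihk, map_mul, map_pow, hfix, hw, pow_succ',
            mul_assoc]
      have hc1 := hpow (orderOf x)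
      rw [pow_orderOf_eq_one, map_one, MulAut.one_apply] at hc1
      have hc2 : c ^ orderOf x = 1 := mul_eq_left.1 hc1.symm
      obtain ⟨j, hj⟩ := IsPGroup.iff_orderOf.1 hU c
      have hcop : (2 ^ j).Coprime (orderOf x) :=
        (Nat.coprime_two_left.2 (hodd.of_dvd_nat (orderOf_dvd_natCard x))).pow_left j
      have : orderOf c = 1 := Nat.eq_one_of_dvd_coprimes hcop (hj ▸ dvd_rfl) (orderOf_dvd_of_pow_eq_one hc2)
      rw [hw, orderOf_eq_one_iff.1 this, mul_one]
    calc Nat.card X ≤ Nat.card ((X ⧸ φ0.ker) × (X ⧸ φ1.ker)) := Nat.card_le_card_of_injective _ hinj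
      _ = Nat.card (X ⧸ φ0.ker) * Nat.card (X ⧸ φ1.ker) := Nat.card_prod _ _
      _ ≤ Nat.card U0 * Nat.card (U ⧸ U0) := Nat.mul_le_mul h0 h1
      _ = Nat.card U := by rw [hcardeq, mul_comm]

/-- Independence of sign-eigen elements of odd order for a family of endomorphisms. -/
theorem three_pow_card_le {A : Type*} [CommGroup A] [Finite A] (hA : Odd (Nat.card A)) {ι : Type*}
    [Finite ι] (x : ι → A) (hx : ∀ i, x i ≠ 1) (T : Set (A →* A))
    (hsign : ∀ a ∈ T, ∀ i, a (x i) = x i ∨ a (x i) = (x i)⁻¹)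
    (hsep : ∀ i j, i ≠ j → ∃ a ∈ T, ¬ (a (x i) = x i ↔ a (x j) = x j)) :
    3 ^ Nat.card ι ≤ Nat.card A := by
  classical
  haveI := Fintype.ofFinite ι
  have hsq : ∀ y : A, y * y = 1 → y = 1 := by
    intro y hy
    have h1 : orderOf y ∣ 2 := orderOf_dvd_of_pow_eq_one (by rw [sq]; exact hy)
    have h2 := hA.of_dvd_nat (orderOf_dvd_natCard y)
    rcases (Nat.dvd_prime Nat.prime_two).1 h1 with h | h
    · exact orderOf_eq_one_iff.1 h
    · rw [h] at h2; exact absurd h2 (by decide)
  have key : ∀ s : Finset ι, ∀ y : ι → A, (∀ i ∈ s, y i ∈ Subgroup.zpowers (x i)) →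
      ∏ i ∈ s, y i = 1 → ∀ i ∈ s, y i = 1 := by
    intro s
    induction s using Finset.strongInduction with
    | _ s ih =>
      intro y hy hprod i hi
      by_cases hone : ∀ j ∈ s, j = i
      · rwa [Finset.prod_eq_single i (fun j hj hne => absurd (hone j hj) hne) (fun h => absurd hi h)]
          at hprod
      push Not at hone
      obtain ⟨j, hj, hji⟩ := hone
      obtain ⟨a, ha, hsep⟩ := hsep j i hji
      let P : ι → Prop := fun k => a (x k) = x k
      have hfix : ∀ k ∈ s, P k → a (y k) = y k := by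
        intro k hk hP
        obtain ⟨m, hm⟩ := Subgroup.mem_zpowers_iff.1 (hy k hk)
        rw [← hm, map_zpow, hP]
      have hflip : ∀ k ∈ s, ¬ P k → a (y k) = (y k)⁻¹ := by
        intro k hk hP
        obtain ⟨m, hm⟩ := Subgroup.mem_zpowers_iff.1 (hy k hk)
        rw [← hm, map_zpow, (hsign a ha k).resolve_left hP, inv_zpow]
      set s1 := s.filter P with hs1
      set s2 := s.filter fun k => ¬ P k with hs2
      have hsplit : (∏ k ∈ s1, y k) * ∏ k ∈ s2, y k = 1 := by
        rw [Finset.prod_filter_mul_prod_filter_not]; exact hprod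
      have happ := congrArg a hsplit
      rw [map_mul, map_one, map_prod, map_prod,
        Finset.prod_congr rfl (fun k hk => hfix k (Finset.mem_filter.1 hk).1 (Finset.mem_filter.1 hk).2),
        Finset.prod_congr rfl (fun k hk => hflip k (Finset.mem_filter.1 hk).1 (Finset.mem_filter.1 hk).2),
        Finset.prod_inv_distrib] at happ
      have h2 : ∏ k ∈ s2, y k = 1 := hsq _ (by
        have := hsplit.trans happ.symm
        rw [mul_right_inj] at this
        nth_rw 2 [this]; rw [mul_inv_cancel])
      have h1 : ∏ k ∈ s1, y k = 1 := by rwa [h2, mul_one] at hsplit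
      have hex : (∃ k ∈ s, ¬ P k) ∧ ∃ k ∈ s, P k := by
        by_cases hPi : P i
        · exact ⟨⟨j, hj, fun h => hsep ⟨fun _ => hPi, fun _ => h⟩⟩, ⟨i, hi, hPi⟩⟩
        · refine ⟨⟨i, hi, hPi⟩, ⟨j, hj, ?_⟩⟩
          by_contra h
          exact hsep ⟨fun h' => absurd h' h, fun h' => absurd h' hPi⟩
      obtain ⟨⟨k2, hk2, hk2'⟩, k1, hk1, hk1'⟩ := hex
      by_cases hPi : P i
      · exact ih s1 (Finset.filter_ssubset.2 ⟨k2, hk2, hk2'⟩) y
          (fun k hk => hy k (Finset.mem_filter.1 hk).1) h1 i (Finset.mem_filter.2 ⟨hi, hPi⟩)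
      · exact ih s2 (Finset.filter_ssubset.2 ⟨k1, hk1, not_not.2 hk1'⟩) y
          (fun k hk => hy k (Finset.mem_filter.1 hk).1) h2 i (Finset.mem_filter.2 ⟨hi, hPi⟩)
  have hinj : Function.Injective fun a : (i : ι) → Subgroup.zpowers (x i) => ∏ i, (a i : A) := by
    intro a b hab
    funext i
    apply Subtype.ext
    refine mul_inv_eq_one.1 (key Finset.univ (fun k => (a k : A) * (b k : A)⁻¹)
      (fun k _ => Subgroup.mul_mem _ (a k).2 (Subgroup.inv_mem _ (b k).2)) ?_ i (Finset.mem_univ i))
    rw [Finset.prod_mul_distrib, Finset.prod_inv_distrib, mul_inv_eq_one]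
    exact hab
  refine le_trans ?_ (Nat.card_le_card_of_injective _ hinj)
  rw [Nat.card_pi, Nat.card_eq_fintype_card, ← Finset.card_univ, ← Finset.prod_const]
  refine Finset.prod_le_prod' fun i _ => ?_
  rw [Nat.card_zpowers]
  have h1 := hA.of_dvd_nat (orderOf_dvd_natCard (x i))
  have h2 : orderOf (x i) ≠ 1 := fun h => hx i (orderOf_eq_one_iff.1 h)
  obtain ⟨k, hk⟩ := h1
  omega

variable {G : Type*} [Group G] [Finite G]

/-- An element of odd order fixing the involutions of an abelian 2-group it normalises fixes all of it. -/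
theorem commute_of_fixes_involutions {A : Subgroup G} (hA : IsPGroup 2 A)
    (hcomm : ∀ a ∈ A, ∀ b ∈ A, a * b = b * a) {h : G} (hh : Odd (orderOf h))
    (hn : h ∈ Subgroup.normalizer (A : Set G))
    (hfix : ∀ a ∈ A, a ^ 2 = 1 → h * a * h⁻¹ = a) : ∀ a ∈ A, h * a * h⁻¹ = a := by
  suffices key : ∀ k : ℕ, ∀ a ∈ A, a ^ 2 ^ k = 1 → h * a * h⁻¹ = a by
    intro a ha
    obtain ⟨k, hk⟩ := hA ⟨a, ha⟩
    exact key k a ha (congrArg Subtype.val hk)
  intro k
  induction k with
  | zero => intro a ha h1; rw [pow_zero, pow_one] at h1; rw [h1]; group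
  | succ k ih =>
    intro a ha hk
    have hsq : h * a ^ 2 * h⁻¹ = a ^ 2 :=
      ih _ (A.pow_mem ha 2) (by rw [← pow_mul, ← pow_succ']; exact hk)
    have hca : h * a * h⁻¹ ∈ A := (Subgroup.mem_normalizer_iff.1 hn a).1 ha
    set e := a⁻¹ * (h * a * h⁻¹) with he
    have heA : e ∈ A := A.mul_mem (A.inv_mem ha) hca
    have he2 : e ^ 2 = 1 := by
      have hc : Commute a⁻¹ (h * a * h⁻¹) := hcomm _ (A.inv_mem ha) _ hca
      rw [he, hc.mul_pow, inv_pow, conj_pow, hsq, inv_mul_cancel]
    have hfe : h * e * h⁻¹ = e := hfix e heA he2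
    have hha : h * a * h⁻¹ = a * e := by rw [he, mul_inv_cancel_left]
    have hpow : ∀ m : ℕ, h ^ m * a * (h ^ m)⁻¹ = a * e ^ m := by
      intro m
      induction m with
      | zero => simp
      | succ m ihm =>
        rw [pow_succ', mul_inv_rev,
          show h * h ^ m * a * ((h ^ m)⁻¹ * h⁻¹) = h * (h ^ m * a * (h ^ m)⁻¹) * h⁻¹ by group, ihm,
          show h * (a * e ^ m) * h⁻¹ = (h * a * h⁻¹) * (h * e ^ m * h⁻¹) by group, hha,
          ← conj_pow, hfe, mul_assoc, ← pow_succ']
    have h1 := hpow (orderOf h)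
    rw [pow_orderOf_eq_one, one_mul, inv_one, mul_one] at h1
    have h2 : e ^ orderOf h = 1 := mul_eq_left.1 h1.symm
    obtain ⟨m, hm⟩ := hh
    rw [hm, pow_succ, pow_mul, he2, one_pow, one_mul] at h2
    rw [hha, h2, mul_one]

/-- A sign-eigen element for an elementary abelian 2-group acting on a subgroup of odd order. -/
theorem exists_sign_eigen {V R : Subgroup G} (hV2 : ∀ v ∈ V, v * v = 1)
    (hVc : ∀ u ∈ V, ∀ v ∈ V, u * v = v * u) (hVR : V ≤ Subgroup.normalizer (R : Set G))
    (hR : Odd (Nat.card R)) (hne : ¬ R ≤ Subgroup.centralizer (V : Set G)) :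
    ∃ x ∈ R, x ≠ 1 ∧ ∃ V0 : Subgroup G, V0 ≤ V ∧ (∃ v ∈ V, v ∉ V0) ∧
      (∀ v ∈ V0, v * x * v⁻¹ = x) ∧ ∀ v ∈ V, v ∉ V0 → v * x * v⁻¹ = x⁻¹ := by
  classical
  obtain ⟨V0, ⟨hV0, hV0'⟩, hmax⟩ := (Set.toFinite {M : Subgroup G | M ≤ V ∧
      ¬ R ⊓ Subgroup.centralizer (M : Set G) ≤ Subgroup.centralizer (V : Set G)}).exists_maximal
    ⟨⊥, bot_le, fun h => hne fun x hx => h ⟨hx, by simp [Subgroup.mem_centralizer_iff]⟩⟩
  set S := R ⊓ Subgroup.centralizer (V0 : Set G) with hS
  have hfixmax : ∀ a ∈ V, a ∉ V0 → S ⊓ Subgroup.centralizer ({a} : Set G) ≤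
      Subgroup.centralizer (V : Set G) := by
    intro a ha ha0
    by_contra hc
    have hle : V0 ⊔ Subgroup.zpowers a ≤ V := sup_le hV0 (Subgroup.zpowers_le.2 ha)
    have h1 : S ⊓ Subgroup.centralizer ({a} : Set G) ≤
        R ⊓ Subgroup.centralizer ((V0 ⊔ Subgroup.zpowers a : Subgroup G) : Set G) := by
      rintro y ⟨⟨hyR, hy0⟩, hya⟩
      refine ⟨hyR, ?_⟩
      have : V0 ⊔ Subgroup.zpowers a ≤ Subgroup.centralizer ({y} : Set G) := by
        refine sup_le (fun b hb => Subgroup.mem_centralizer_singleton_iff.2 (hy0 b hb))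
          (Subgroup.zpowers_le.2 (Subgroup.mem_centralizer_singleton_iff.2 (hya a rfl)))
      exact fun b hb => Subgroup.mem_centralizer_singleton_iff.1 (this hb)
    have := hmax ⟨hle, fun h => hc (h1.trans h)⟩ le_sup_left
    exact ha0 (this (Subgroup.mem_sup_right (Subgroup.mem_zpowers a)))
  have hVS : ∀ v ∈ V, v ∈ Subgroup.normalizer (S : Set G) := by
    intro v hv
    refine CfsgLib.CoprimeAction.mem_normalizer_of_conj_mem fun y hy => ?_
    refine ⟨(Subgroup.mem_normalizer_iff.1 (hVR hv) y).1 hy.1, fun b hb => ?_⟩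
    have e := hy.2 b hb
    have hc := hVc b (hV0 hb) v hv
    have hc' : b * v⁻¹ = v⁻¹ * b := (Commute.inv_right (a := b) (b := v) hc).eq
    calc b * (v * y * v⁻¹) = v * (b * y) * v⁻¹ := by rw [← mul_assoc, ← mul_assoc, hc]; group
      _ = v * y * (b * v⁻¹) := by rw [e]; group
      _ = v * y * v⁻¹ * b := by rw [hc', ← mul_assoc]
  -- the index of `V0` is two
  have hprod : ∀ u ∈ V, u ∉ V0 → ∀ v ∈ V, v ∉ V0 → u * v ∈ V0 := by
    intro u hu hu0 v hv hv0
    by_contra huv
    apply hV0'
    let B : Subgroup G :=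
      { carrier := {1, u, v, u * v}
        one_mem' := Or.inl rfl
        mul_mem' := fun {a b} ha hb => by
          have h1 := hV2 u hu; have h2 := hV2 v hv; have h3 := hVc u hu v hv
          have h4 : ∀ c, u * (u * c) = c := fun c => by rw [← mul_assoc, h1, one_mul]
          have h5 : ∀ c, v * (u * c) = u * (v * c) := fun c => by rw [← mul_assoc, ← h3, mul_assoc]
          rcases ha with rfl | rfl | rfl | rfl <;> rcases hb with rfl | rfl | rfl | rfl <;>
            simp [mul_assoc, h1, h2, h3.symm, h4, h5]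
        inv_mem' := fun {a} ha => by
          have h1 := hV2 u hu; have h2 := hV2 v hv
          have h3 := hV2 _ (V.mul_mem hu hv)
          rcases ha with rfl | rfl | rfl | rfl
          · simp
          · rw [inv_eq_of_mul_eq_one_right h1]; simp
          · rw [inv_eq_of_mul_eq_one_right h2]; simp
          · rw [inv_eq_of_mul_eq_one_right h3]; simp }
    have hBV : B ≤ V := by
      rintro a (rfl | rfl | rfl | rfl)
      · exact V.one_mem
      · exact hu
      · exact hv
      · exact V.mul_mem hu hv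
    have hB0 : ∀ a ∈ B, a ≠ 1 → a ∉ V0 := by
      rintro a (rfl | rfl | rfl | rfl) ha
      · exact absurd rfl ha
      · exact hu0
      · exact hv0
      · exact huv
    haveI : IsMulCommutative B := ⟨⟨fun a b => Subtype.ext (hVc _ (hBV a.2) _ (hBV b.2))⟩⟩
    have hcard : Nat.card B = 4 := by
      show Nat.card (({1, u, v, u * v} : Set G) : Set G) = 4
      rw [Nat.card_coe_set_eq]
      have h1 : (1 : G) ∉ ({u, v, u * v} : Set G) := by
        simp only [Set.mem_insert_iff, Set.mem_singleton_iff, not_or]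
        exact ⟨fun h => hu0 (h ▸ V0.one_mem), fun h => hv0 (h ▸ V0.one_mem), fun h => huv (h ▸ V0.one_mem)⟩
      have h2 : u ∉ ({v, u * v} : Set G) := by
        simp only [Set.mem_insert_iff, Set.mem_singleton_iff, not_or]
        refine ⟨fun h => huv ?_, fun h => hv0 ?_⟩
        · rw [← h, hV2 u hu]; exact V0.one_mem
        · rw [mul_eq_left.1 h.symm]; exact V0.one_mem
      have h3 : v ∉ ({u * v} : Set G) := by
        simp only [Set.mem_singleton_iff]
        intro h; apply hu0; rw [mul_eq_right.1 h.symm]; exact V0.one_mem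
      rw [Set.ncard_insert_of_notMem h1, Set.ncard_insert_of_notMem h2,
        Set.ncard_insert_of_notMem h3, Set.ncard_singleton]
    have hnc : ¬ IsCyclic B := by
      intro hcyc
      obtain ⟨g, hg⟩ := IsCyclic.exists_ofOrder_eq_natCard (α := B)
      have : orderOf g ∣ 2 := orderOf_dvd_of_pow_eq_one (Subtype.ext (by
        rw [SubmonoidClass.coe_pow, sq]; exact hV2 _ (hBV g.2)))
      rw [hg, hcard] at this
      exact absurd this (by decide)
    refine CfsgLib.CoprimeAction.le_of_centralizers hnc (fun b hb => hVS b (hBV hb)) ?_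
      fun a ha ha1 => hfixmax a (hBV ha) (hB0 a ha ha1)
    rw [hcard]
    have hSodd : Odd (Nat.card S) := hR.of_dvd_nat (Subgroup.card_dvd_of_le inf_le_left)
    exact (Nat.coprime_two_left.2 hSodd).pow_left 2
  obtain ⟨s, hs, hsV⟩ := SetLike.not_le_iff_exists.1 hV0'
  obtain ⟨v, hv, hvs⟩ : ∃ v ∈ V, v * s ≠ s * v := by
    by_contra h
    push Not at h
    exact hsV fun b hb => h b hb
  have hv0 : v ∉ V0 := fun h => hvs (hs.2 v h)
  set x := s⁻¹ * (v * s * v⁻¹) with hx
  have hxS : x ∈ S := S.mul_mem (S.inv_mem hs) ((Subgroup.mem_normalizer_iff.1 (hVS v hv) s).1 hs)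
  have hxv : v * x * v⁻¹ = x⁻¹ := by
    have hvi : v⁻¹ = v := inv_eq_of_mul_eq_one_right (hV2 v hv)
    rw [hx, mul_inv_rev, inv_inv, hvi]
    calc v * (s⁻¹ * (v * s * v)) * v = v * s⁻¹ * v * (s * (v * v)) := by group
      _ = v * s⁻¹ * v * s := by rw [hV2 v hv, mul_one]
      _ = (v * s * v⁻¹)⁻¹ * s := by rw [mul_inv_rev, mul_inv_rev, inv_inv, hvi, mul_assoc v s⁻¹ v]
      _ = (v * s * v)⁻¹ * s := by rw [hvi]
  have hx0 : ∀ u ∈ V0, u * x * u⁻¹ = x := fun u hu => by
    rw [hxS.2 u hu, mul_inv_cancel_right]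
  refine ⟨x, hxS.1, fun h => hvs ?_, V0, hV0, ⟨v, hv, hv0⟩, hx0, fun u hu hu0 => ?_⟩
  · have h1 : s = v * s * v⁻¹ := inv_mul_eq_one.1 (hx ▸ h)
    calc v * s = v * s * v⁻¹ * v := by group
      _ = s * v := by rw [← h1]
  · have h1 := hx0 _ (hprod v hv hv0 u hu hu0)
    have hvi : v⁻¹ = v := inv_eq_of_mul_eq_one_right (hV2 v hv)
    calc u * x * u⁻¹ = v⁻¹ * (v * u * x * (v * u)⁻¹) * v := by group
      _ = v * x * v⁻¹ := by rw [h1, hvi]
      _ = x⁻¹ := hxv

end CfsgLib.MetacyclicP
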