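import Mathlib
import Cfsg.Agent.Lib.MetacyclicP.InvConjTools
import Cfsg.Agent.Lib.Transfer.Critical
import Cfsg.Agent.Lib.Hall.Existence
import Cfsg.Agent.Lib.PSolvable.Series
import Cfsg.Agent.Lib.CoprimeAction.Basic
import Cfsg.Agent.Lib.PGroups.Frattini

/-!
A solvable group with trivial odd core in which the involutions form one class with at least two
members has a normal Sylow 2-subgroup.

Elementary proof: with `Q = O_2(G)` the involutions together with `1` form an elementary abelian normal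
subgroup `Z` on which `G` is transitive.  An odd subgroup without fixed points on `Z` has a normaliser of
odd order.  If `G/Q` had even order, an elementary abelian 2-subgroup `V` of `C_G(Z)/Q` normalised by a
Hall 2'-subgroup `W` of its normaliser would have too few sign characters on an odd subgroup of
`C_G(Z)/Q`, by the Chevalley-Warning bound for the squaring map on a critical subgroup of `Q`.
-/

set_option autoImplicit false
set_option linter.style.haveILetI false

open scoped IsMulCommutative commutatorElement Pointwise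

namespace CfsgLib.MetacyclicP

open Cfsg CfsgLib.Cores

/-- In a group, an element of odd order inverted by `v` commutes with one fixed by `v` as soon as their
commutator is fixed by `v`. -/
theorem commute_of_inverted {G : Type*} [Group G] {v x y : G} (hy : Odd (orderOf y))
    (hvx : v * x * v⁻¹ = x) (hvy : v * y * v⁻¹ = y⁻¹) (hfix : v * ⁅x, y⁆ * v⁻¹ = ⁅x, y⁆) :
    Commute x y := by
  have h1 : ⁅x, y⁻¹⁆ = ⁅x, y⁆ := by
    rw [← hvy]; nth_rw 1 [← hvx]
    rw [← hfix]; simp only [commutatorElement_def]; group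
  simp only [commutatorElement_def, inv_inv, mul_assoc] at h1
  have h2 : y⁻¹ * (x⁻¹ * y) = y * (x⁻¹ * y⁻¹) := mul_left_cancel h1
  have h3 : Commute x⁻¹ (y * y) := by
    show x⁻¹ * (y * y) = y * y * x⁻¹
    calc x⁻¹ * (y * y) = y * (y⁻¹ * (x⁻¹ * y)) * y := by group
      _ = y * (y * (x⁻¹ * y⁻¹)) * y := by rw [h2]
      _ = y * y * x⁻¹ := by group
  obtain ⟨m, hm⟩ := hy
  have h4 : (y * y) ^ (m + 1) = y := by
    rw [← sq, ← pow_mul, show 2 * (m + 1) = orderOf y + 1 by omega, pow_succ, pow_orderOf_eq_one, one_mul]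
  have h5 := h3.inv_left.pow_right (m + 1)
  rwa [inv_inv, h4] at h5

theorem conj_conj_eq {G : Type*} [Group G] (v g x : G) :
    v * (g * x * g⁻¹) * v⁻¹ = g * (g⁻¹ * v * g * x * (g⁻¹ * v * g)⁻¹) * g⁻¹ := by group

theorem conj_mul_eq {G : Type*} [Group G] (u v x : G) :
    u * v * x * (u * v)⁻¹ = u * (v * x * v⁻¹) * u⁻¹ := by group

theorem conj_inv_eq {G : Type*} [Group G] (u x : G) : u * x⁻¹ * u⁻¹ = (u * x * u⁻¹)⁻¹ := by group

theorem mul_conj_mul_eq {G : Type*} [Group G] (u v x : G) :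
    u * (v * x * v⁻¹) * u⁻¹ = u * v * x * (u * v)⁻¹ := by group

/-- A normal odd core bound: in a solvable group without normal 2-subgroups the odd core contains its
centraliser. -/
theorem centralizer_pPrimeCore_two_le {X : Type*} [Group X] [Finite X] [Group.IsSolvable X]
    (h : pCore 2 X = ⊥) :
    Subgroup.centralizer (pPrimeCore 2 X : Set X) ≤ pPrimeCore 2 X := by
  haveI := Fact.mk Nat.prime_two
  have hF : fittingSubgroup X ≤ pPrimeCore 2 X := by
    rw [fittingSubgroup_eq_iSup_pCore]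
    refine iSup_le fun q => ?_
    have hq := Nat.prime_of_mem_primeFactors q.2
    haveI := Fact.mk hq
    by_cases hq2 : (q : ℕ) = 2
    · rw [hq2, h]; exact bot_le
    · obtain ⟨k, hk⟩ := IsPGroup.iff_card.1 (isPGroup_pCore (q : ℕ) X)
      exact le_pPrimeCore (by rw [hk]; exact ((Nat.coprime_primes hq Nat.prime_two).2 hq2).pow_left k)
  exact ((Subgroup.centralizer_le hF).trans centralizer_fittingSubgroup_le).trans hF

set_option maxHeartbeats 2000000 in
/-- The main theorem: the index of `O_2(G)` is odd. -/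
theorem odd_index_pCore_two {G : Type*} [Group G] [Finite G] [Group.IsSolvable G]
    (hO : pPrimeCore 2 G = ⊥)
    (htwo : ∃ x y : G, x ≠ y ∧ x ≠ 1 ∧ x * x = 1 ∧ y ≠ 1 ∧ y * y = 1)
    (hconj : ∀ x y : G, x ≠ 1 → x * x = 1 → y ≠ 1 → y * y = 1 → IsConj x y) :
    Odd (pCore 2 G).index := by
  classical
  haveI := Fact.mk Nat.prime_two
  have hsolv : IsPSolvable 2 G := CfsgLib.PSolvable.isPSolvable_of_isSolvable
  obtain ⟨e₁, e₂, he, he₁, he₁', he₂, he₂'⟩ := htwo
  haveI : Nontrivial G := ⟨e₁, 1, he₁⟩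
  set Q := pCore 2 G with hQ
  have hQp : IsPGroup 2 Q := isPGroup_pCore 2 G
  have hQ1 : Q ≠ ⊥ := (CfsgLib.PSolvable.core_ne_bot hsolv).resolve_right (not_not.2 hO)
  have hCQ : Subgroup.centralizer (Q : Set G) ≤ Q := CfsgLib.PSolvable.centralizer_pCore_le hsolv hO
  -- all involutions are central in `Q`
  have hinvQ : ∀ g : G, g * g = 1 → g ∈ Q ∧ ∀ q ∈ Q, q * g = g * q := by
    haveI : Nontrivial Q := (Subgroup.nontrivial_iff_ne_bot Q).2 hQ1
    haveI : Nontrivial (Subgroup.center Q) := hQp.center_nontrivial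
    obtain ⟨k, hk0, hk⟩ := (hQp.to_subgroup (Subgroup.center Q)).nontrivial_iff_card.1 inferInstance
    obtain ⟨c, hc⟩ := exists_prime_orderOf_dvd_card' (G := Subgroup.center Q) 2
      (hk ▸ dvd_pow_self 2 hk0.ne')
    have hc2 : ((c : Q) : G) * ((c : Q) : G) = 1 := by
      have h := pow_orderOf_eq_one c
      rw [hc, sq] at h
      exact congrArg (fun z : Subgroup.center Q => ((z : Q) : G)) h
    have hc1 : ((c : Q) : G) ≠ 1 := by
      intro h
      have : c = 1 := Subtype.ext (Subtype.ext h)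
      rw [this, orderOf_one] at hc; omega
    intro g hg
    by_cases hg1 : g = 1
    · rw [hg1]; exact ⟨Q.one_mem, fun q _ => by simp⟩
    obtain ⟨a, ha⟩ := isConj_iff.1 (hconj _ g hc1 hc2 hg1 hg)
    have hQn : Q.Normal := inferInstance
    refine ⟨ha ▸ hQn.conj_mem _ (c : Q).2 a, fun q hq => ?_⟩
    have hq' : a⁻¹ * q * a ∈ Q := by simpa using hQn.conj_mem q hq a⁻¹
    have h := congrArg (fun z : Q => (z : G)) (Subgroup.mem_center_iff.1 c.2 ⟨_, hq'⟩)
    simp only [Subgroup.coe_mul] at h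
    rw [← ha]
    calc q * (a * ((c : Q) : G) * a⁻¹) = a * (a⁻¹ * q * a * ((c : Q) : G)) * a⁻¹ := by group
      _ = a * (((c : Q) : G) * (a⁻¹ * q * a)) * a⁻¹ := by rw [h]
      _ = _ := by group
  let Z : Subgroup G :=
    { carrier := {g | g * g = 1}
      one_mem' := mul_one 1
      mul_mem' := fun {a b} ha hb => by
        show a * b * (a * b) = 1
        have h := (hinvQ b hb).2 a (hinvQ a ha).1
        calc a * b * (a * b) = a * b * (b * a) := by rw [h]
          _ = a * (b * b) * a := by group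
          _ = 1 := by rw [hb, mul_one, ha]
      inv_mem' := fun {a} ha => by
        show a⁻¹ * a⁻¹ = 1
        rw [← mul_inv_rev, ha, inv_one] }
  have hZmem : ∀ g, g ∈ Z ↔ g * g = 1 := fun g => Iff.rfl
  haveI hZn : Z.Normal := ⟨fun z hz g => by
    rw [hZmem] at hz ⊢
    rw [show g * z * g⁻¹ * (g * z * g⁻¹) = g * (z * z) * g⁻¹ by group, hz]; group⟩
  have hZQ : Z ≤ Q := fun z hz => (hinvQ z hz).1
  have hZp : IsPGroup 2 Z := hQp.to_le hZQ
  obtain ⟨r, hr⟩ := IsPGroup.iff_card.1 hZp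
  have hr2 : 2 ≤ r := by
    have h3 : ({1, e₁, e₂} : Set G).ncard = 3 := by
      rw [Set.ncard_insert_of_notMem (by simp [he₁.symm, he₂.symm]), Set.ncard_pair he]
    have h4 : 3 ≤ Nat.card Z := by
      rw [← h3, ← SetLike.coe_sort_coe, Nat.card_coe_set_eq]
      refine Set.ncard_le_ncard ?_ (Set.toFinite _)
      rintro z (rfl | rfl | rfl) <;> [exact Z.one_mem; exact he₁'; exact he₂']
    rw [hr] at h4
    by_contra h; interval_cases r <;> omega
  -- the centraliser of an involution has index `2 ^ r - 1`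
  have hindex : ∀ z ∈ Z, z ≠ 1 → (Subgroup.centralizer ({z} : Set G)).index = 2 ^ r - 1 := by
    intro z hz hz1
    have horb : MulAction.orbit (ConjAct G) z = (Z : Set G) \ {1} := by
      ext w
      rw [ConjAct.mem_orbit_conjAct]
      constructor
      · intro h
        obtain ⟨g, hg⟩ := isConj_iff.1 h.symm
        refine ⟨hg ▸ hZn.conj_mem z hz g, fun h1 => hz1 ?_⟩
        rw [Set.mem_singleton_iff] at h1
        exact conj_eq_one_iff.1 (hg.trans h1)
      · rintro ⟨hw, hw1⟩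
        exact (hconj z w hz1 hz hw1 hw).symm
    have h := MulAction.index_stabilizer (G := ConjAct G) z
    rw [horb, Set.ncard_sdiff_singleton_of_mem Z.one_mem, ← Nat.card_coe_set_eq] at h
    rw [SetLike.coe_sort_coe, hr] at h
    rw [← h, ConjAct.stabilizer_eq_centralizer]
    rfl
  -- an odd subgroup without fixed involution has a normaliser of odd order
  have hoddN : ∀ W : Subgroup G, Odd (Nat.card W) →
      (∀ z ∈ Z, (∀ w ∈ W, w * z = z * w) → z = 1) →
      Odd (Nat.card (Subgroup.normalizer (W : Set G))) := by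
    intro W hW hfix
    by_contra hev
    rw [Nat.not_odd_iff_even, even_iff_two_dvd] at hev
    obtain ⟨t, ht⟩ := exists_prime_orderOf_dvd_card' 2 hev
    have ht2 : (t : G) * t = 1 := by
      have h := pow_orderOf_eq_one t
      rw [ht, sq] at h
      exact congrArg Subtype.val h
    have ht1 : (t : G) ≠ 1 := by
      intro h
      have : t = 1 := Subtype.ext h
      rw [this, orderOf_one] at ht; omega
    refine ht1 (hfix t ht2 fun w hw => ?_)
    have h1 : w * t * w⁻¹ * (t : G)⁻¹ ∈ W := by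
      have := W.mul_mem hw ((Subgroup.mem_normalizer_iff.1 t.2 w⁻¹).1 (W.inv_mem hw))
      simpa [mul_assoc] using this
    have h2 : w * t * w⁻¹ * (t : G)⁻¹ ∈ Z := Z.mul_mem (hZn.conj_mem _ ht2 w) (Z.inv_mem ht2)
    have h3 : w * t * w⁻¹ * (t : G)⁻¹ = 1 := by
      by_contra hne
      have hdvd : orderOf (⟨_, h1⟩ : W) ∣ 2 :=
        orderOf_dvd_of_pow_eq_one (Subtype.ext (by rw [sq]; exact h2))
      rcases (Nat.dvd_prime Nat.prime_two).1 hdvd with h | h
      · exact hne (congrArg Subtype.val (orderOf_eq_one_iff.1 h))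
      · have := hW.of_dvd_nat (orderOf_dvd_natCard (⟨_, h1⟩ : W))
        rw [h] at this; exact absurd this (by decide)
    rw [mul_inv_eq_one, mul_inv_eq_iff_eq_mul] at h3
    exact h3
  set C := Subgroup.centralizer (Z : Set G) with hC
  haveI hCn : C.Normal := Subgroup.normal_centralizer
  have hQC : Q ≤ C := fun q hq => Subgroup.mem_centralizer_iff.2 fun z hz => ((hinvQ z hz).2 q hq).symm
  have hirr : ∀ M : Subgroup G, M.Normal → ∀ z ∈ Z, z ≠ 1 → (∀ m ∈ M, m * z = z * m) → M ≤ C := by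
    intro M hM z hz hz1 hfix m hm
    refine Subgroup.mem_centralizer_iff.2 fun w hw => ?_
    by_cases hw1 : w = 1
    · simp [hw1]
    obtain ⟨g, hg⟩ := isConj_iff.1 (hconj z w hz1 hz hw1 hw)
    have hm' : g⁻¹ * m * g ∈ M := by simpa using hM.conj_mem m hm g⁻¹
    have h := hfix _ hm'
    rw [← hg]
    calc g * z * g⁻¹ * m = g * (z * (g⁻¹ * m * g)) * g⁻¹ := by group
      _ = g * (g⁻¹ * m * g * z) * g⁻¹ := by rw [h]
      _ = m * (g * z * g⁻¹) := by group
  by_cases hev : 2 ∣ Q.relIndex C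
  swap
  · -- `C / Q` of odd order
    have hCtop : C ≠ ⊤ := by
      intro htop
      obtain ⟨g, hg⟩ := isConj_iff.1 (hconj e₁ e₂ he₁ he₁' he₂ he₂')
      have hgC : g ∈ C := htop ▸ Subgroup.mem_top g
      exact he (by rw [← hg, ← Subgroup.mem_centralizer_iff.1 hgC e₁ he₁', mul_inv_cancel_right])
    have hcore : pCore 2 (G ⧸ C) = ⊥ := by
      set L := (pCore 2 (G ⧸ C)).comap (QuotientGroup.mk' C) with hL
      have hCL : C ≤ L := QuotientGroup.le_comap_mk' C _
      suffices hLC : L ≤ C by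
        rw [← Subgroup.map_comap_eq_self_of_surjective (QuotientGroup.mk'_surjective C) (pCore 2 (G ⧸ C)),
          ← hL, Subgroup.map_eq_bot_iff, QuotientGroup.ker_mk']
        exact hLC
      obtain ⟨P⟩ := (Sylow.nonempty : Nonempty (Sylow 2 L))
      letI : MulAction P.1 Z :=
        { smul := fun u z => ⟨((u : L) : G) * z * ((u : L) : G)⁻¹, hZn.conj_mem z z.2 _⟩
          one_smul := fun z => Subtype.ext (show ((1 : L) : G) * (z : G) * ((1 : L) : G)⁻¹ = z by simp)
          mul_smul := fun u v z => Subtype.ext (show (((u * v : P.1) : L) : G) * (z : G) * (((u * v : P.1) : L) : G)⁻¹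
            = ((u : L) : G) * (((v : L) : G) * z * ((v : L) : G)⁻¹) * ((u : L) : G)⁻¹ by
              simp [mul_assoc]) }
      obtain ⟨z, hz, hz1⟩ := P.isPGroup'.exists_fixed_point_of_prime_dvd_card_of_fixed_point (α := Z)
        (hr ▸ dvd_pow_self 2 (by omega)) (a := 1) (fun u => Subtype.ext (show
          ((u : L) : G) * ((1 : Z) : G) * ((u : L) : G)⁻¹ = ((1 : Z) : G) by simp))
      have hzne : (z : G) ≠ 1 := fun h => hz1 (Subtype.ext h).symm
      refine hirr L inferInstance z z.2 hzne ?_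
      set E := (Subgroup.centralizer ({(z : G)} : Set G)).subgroupOf L with hE
      have hPE : P.1 ≤ E := fun u hu => by
        rw [hE, Subgroup.mem_subgroupOf, Subgroup.mem_centralizer_singleton_iff]
        exact mul_inv_eq_iff_eq_mul.1 (congrArg Subtype.val (hz ⟨u, hu⟩))
      have h1 : ¬ 2 ∣ E.index := fun h => P.not_dvd_index (h.trans (Subgroup.index_dvd_of_le hPE))
      have h2 : E.index ∣ C.relIndex L := Subgroup.index_dvd_of_le fun u hu => by
        rw [hE, Subgroup.mem_subgroupOf, Subgroup.mem_centralizer_singleton_iff]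
        exact (Subgroup.mem_centralizer_iff.1 hu z z.2).symm
      obtain ⟨k, hk⟩ := IsPGroup.iff_card.1 (isPGroup_pCore 2 (G ⧸ C))
      have h3 : C.relIndex L = 2 ^ k := by
        rw [CfsgLib.PSolvable.relIndex_eq_card_map, hL,
          Subgroup.map_comap_eq_self_of_surjective (QuotientGroup.mk'_surjective C), hk]
      rw [h3] at h2
      obtain ⟨i, -, hi⟩ := (Nat.dvd_prime_pow Nat.prime_two).1 h2
      rcases i with _ | i
      · have htop : E = ⊤ := Subgroup.index_eq_one.1 hi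
        intro m hm
        have hmE : (⟨m, hm⟩ : L) ∈ E := htop ▸ Subgroup.mem_top _
        exact Subgroup.mem_centralizer_singleton_iff.1 hmE
      · exact absurd (hi ▸ dvd_pow_self 2 (Nat.succ_ne_zero i)) h1
    set K := (pPrimeCore 2 (G ⧸ C)).comap (QuotientGroup.mk' C) with hK
    have hCK : C ≤ K := QuotientGroup.le_comap_mk' C _
    have hKC : ¬ K ≤ C := by
      intro hle
      haveI : Nontrivial (G ⧸ C) := QuotientGroup.nontrivial_iff.2 hCtop
      refine (CfsgLib.PSolvable.core_ne_bot (CfsgLib.PSolvable.isPSolvable_of_isSolvable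
        (p := 2) (G := G ⧸ C))).elim (fun h => h hcore) (fun h => h ?_)
      rw [← Subgroup.map_comap_eq_self_of_surjective (QuotientGroup.mk'_surjective C)
        (pPrimeCore 2 (G ⧸ C)), ← hK, Subgroup.map_eq_bot_iff, QuotientGroup.ker_mk']
      exact hle
    haveI hKn : K.Normal := inferInstance
    have hKodd : Odd (Q.relIndex K) := by
      rw [← Subgroup.relIndex_mul_relIndex Q C K hQC hCK]
      refine Nat.odd_mul.2 ⟨Nat.not_even_iff_odd.1 fun h => hev (even_iff_two_dvd.1 h), ?_⟩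
      rw [CfsgLib.PSolvable.relIndex_eq_card_map, hK,
        Subgroup.map_comap_eq_self_of_surjective (QuotientGroup.mk'_surjective C)]
      exact Nat.coprime_two_left.1 (card_pPrimeCore_coprime 2).symm
    have hQK : Q ≤ K := hQC.trans hCK
    obtain ⟨nQ, hnQ⟩ := IsPGroup.iff_card.1 hQp
    obtain ⟨W', hW'⟩ := Subgroup.exists_right_complement'_of_coprime (N := Q.subgroupOf K) (by
      rw [Nat.card_congr (Subgroup.subgroupOfEquivOfLe hQK).toEquiv, hnQ]
      exact (Nat.coprime_two_left.2 hKodd).pow_left nQ)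
    set W := W'.map K.subtype with hW
    have hWK : W ≤ K := Subgroup.map_subtype_le W'
    have hWodd : Odd (Nat.card W) := by
      rw [hW, Subgroup.card_subtype, ← hW'.symm.index_eq_card]; exact hKodd
    have hKle : K ≤ Q ⊔ W := by
      intro k hk
      obtain ⟨⟨u, v⟩, e⟩ := hW'.2 ⟨k, hk⟩
      rw [← show ((u : K) : G) * ((v : K) : G) = k from congrArg Subtype.val e]
      exact Subgroup.mul_mem_sup u.2 ⟨v, v.2, rfl⟩
    have hN := hoddN W hWodd fun z hz hfix => by
      by_contra hz1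
      refine hKC (hirr K hKn z hz hz1 fun m hm => ?_)
      have hle : Q ⊔ W ≤ Subgroup.centralizer ({z} : Set G) :=
        sup_le (fun q hq => Subgroup.mem_centralizer_singleton_iff.2 ((hinvQ z hz).2 q hq))
          fun w hw => Subgroup.mem_centralizer_singleton_iff.2 (hfix w hw)
      exact Subgroup.mem_centralizer_singleton_iff.1 (hle (hKle hm))
    have hfr : ∀ g : G, ∃ q ∈ Q, q⁻¹ * g ∈ Subgroup.normalizer (W : Set G) := by
      intro g
      have hB : (MulAut.conj g • W : Subgroup G) ≤ Q ⊔ W := by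
        refine le_trans ?_ hKle
        rintro _ ⟨l, hl, rfl⟩
        exact hKn.conj_mem l (hWK hl) g
      obtain ⟨q, hq, hle⟩ := CfsgLib.CoprimeAction.exists_le_conj_of_coprime
        (by rw [Subgroup.normalizer_eq_top_iff.2 (inferInstance : Q.Normal)]; exact le_top) hB
        (by rw [CfsgLib.CoprimeAction.card_conj_smul, hnQ]
            exact (Nat.coprime_two_left.2 hWodd).symm.pow_right nQ)
        (Or.inr inferInstance)
      have heq : (MulAut.conj g • W : Subgroup G) = MulAut.conj q • W :=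
        Subgroup.eq_of_le_of_card_ge hle (by
          rw [CfsgLib.CoprimeAction.card_conj_smul, CfsgLib.CoprimeAction.card_conj_smul])
      refine ⟨q, hq, ?_⟩
      rw [← CfsgLib.CoprimeAction.conj_smul_eq_self, map_mul, mul_smul, heq, map_inv, inv_smul_smul]
    have hsurj : Function.Surjective ((QuotientGroup.mk' Q).comp
        (Subgroup.normalizer (W : Set G)).subtype) := by
      intro y
      obtain ⟨g, rfl⟩ := QuotientGroup.mk'_surjective Q y
      obtain ⟨q, hq, hqg⟩ := hfr g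
      refine ⟨⟨_, hqg⟩, ?_⟩
      show QuotientGroup.mk' Q (q⁻¹ * g) = _
      rw [map_mul, map_inv, show QuotientGroup.mk' Q q = 1 from (QuotientGroup.eq_one_iff q).2 hq, inv_one,
        one_mul]
    rw [Subgroup.index_eq_card]
    exact hN.of_dvd_nat (Subgroup.card_dvd_of_surjective _ hsurj)
  -- `C / Q` of even order
  exfalso
  obtain ⟨T⟩ := (Sylow.nonempty : Nonempty (Sylow 2 C))
  set T1 := (T : Subgroup C).map C.subtype with hT1
  have hT1C : T1 ≤ C := Subgroup.map_subtype_le _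
  have hT1p : IsPGroup 2 T1 := T.isPGroup'.map _
  have hQT : Q ≤ T1 := by
    intro q hq
    haveI : (Q.subgroupOf C).Normal := Subgroup.normal_subgroupOf
    have hp : IsPGroup 2 (Q.subgroupOf C) := hQp.comap_of_injective C.subtype C.subtype_injective
    exact ⟨⟨q, hQC hq⟩, pCore_le_sylow T (le_pCore hp (show (⟨q, hQC hq⟩ : C) ∈ Q.subgroupOf C from hq)), rfl⟩
  set N := Subgroup.normalizer (T1 : Set G) with hN
  have hNC : N ⊔ C = ⊤ := Sylow.normalizer_sup_eq_top T
  obtain ⟨WN, hWN⟩ := CfsgLib.Hall.exists_isPiHall (G := N) {p | p ≠ 2}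
  set W := WN.map N.subtype with hW
  have hWN' : W ≤ N := Subgroup.map_subtype_le _
  have hWodd : Odd (Nat.card W) := by
    rw [hW, Subgroup.card_subtype]
    rw [← Nat.not_even_iff_odd, even_iff_two_dvd]
    exact fun h => hWN.1 2 Nat.prime_two h rfl
  obtain ⟨k2, hk2⟩ : ∃ k, WN.index = 2 ^ k := by
    refine ⟨_, Nat.eq_prime_pow_of_unique_prime_dvd Subgroup.index_ne_zero_of_finite fun {d} hd hdvd => ?_⟩
    by_contra hne
    exact hWN.2 d hd hne hdvd
  -- fixed points of subgroups of `W` on `Z`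
  have hfixW : ∀ W' : Subgroup G, W' ≤ W → W'.relIndex W < 2 ^ r - 1 →
      ∀ z ∈ Z, (∀ w ∈ W', w * z = z * w) → z = 1 := by
    intro W' hW'le hlt z hz hfix
    by_contra hz1
    set Gz := Subgroup.centralizer ({z} : Set G) with hGz
    have hCGz : C ≤ Gz := fun c hc =>
      Subgroup.mem_centralizer_singleton_iff.2 (Subgroup.mem_centralizer_iff.1 hc z hz).symm
    have hidx : Gz.relIndex N = 2 ^ r - 1 := by
      rw [← hindex z hz hz1]
      let f : N ⧸ Gz.subgroupOf N → G ⧸ Gz := Quotient.map' (fun n => (n : G)) fun a b hab => by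
        rw [QuotientGroup.leftRel_apply] at hab ⊢
        exact hab
      refine Nat.card_congr (Equiv.ofBijective f ⟨?_, ?_⟩)
      · intro a b
        induction a using QuotientGroup.induction_on with | _ a =>
        induction b using QuotientGroup.induction_on with | _ b =>
        intro hab
        have h : (a : G)⁻¹ * (b : G) ∈ Gz := QuotientGroup.eq.1 hab
        exact QuotientGroup.eq.2 h
      · intro y
        induction y using QuotientGroup.induction_on with | _ g =>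
        obtain ⟨n, hn, c, hc, rfl⟩ : ∃ n ∈ N, ∃ c ∈ C, n * c = g := by
          have hg : g ∈ (((N ⊔ C : Subgroup G)) : Set G) := by rw [hNC]; trivial
          rw [Subgroup.mul_normal] at hg
          exact hg
        exact ⟨(⟨n, hn⟩ : N), QuotientGroup.eq.2 (by simpa using hCGz hc)⟩
    have hW'Gz : W' ≤ Gz ⊓ N := le_inf
      (fun w hw => Subgroup.mem_centralizer_singleton_iff.2 (hfix w hw)) (hW'le.trans hWN')
    have h1 : Nat.card N = Nat.card W * 2 ^ k2 := by
      rw [hW, Subgroup.card_subtype, ← hk2, Subgroup.card_mul_index]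
    have h2 : Nat.card ↥(Gz ⊓ N) * (2 ^ r - 1) = Nat.card N := by
      rw [← hidx, ← Subgroup.inf_relIndex_right Gz N]
      have h := Subgroup.card_mul_index ((Gz ⊓ N).subgroupOf N)
      rwa [Nat.card_congr (Subgroup.subgroupOfEquivOfLe inf_le_right).toEquiv] at h
    have h3 : Nat.card W' * W'.relIndex W = Nat.card W := by
      have h := Subgroup.card_mul_index (W'.subgroupOf W)
      rwa [Nat.card_congr (Subgroup.subgroupOfEquivOfLe hW'le).toEquiv] at h
    obtain ⟨c, hc⟩ := Subgroup.card_dvd_of_le hW'Gz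
    have h4 : Nat.card W' * (c * (2 ^ r - 1)) = Nat.card W' * (W'.relIndex W * 2 ^ k2) := by
      rw [← mul_assoc, ← hc, h2, h1, ← mul_assoc, h3]
    have h5 : 2 ^ r - 1 ∣ W'.relIndex W * 2 ^ k2 :=
      ⟨c, by rw [← Nat.eq_of_mul_eq_mul_left Nat.card_pos h4, mul_comm]⟩
    have h6 : (2 ^ r - 1).Coprime (2 ^ k2) := by
      refine Nat.Coprime.pow_right k2 (Nat.coprime_two_right.2 ?_)
      exact Nat.Even.sub_odd Nat.one_le_two_pow (Nat.even_pow.2 ⟨even_two, by omega⟩) odd_one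
    have h7 : 2 ^ r - 1 ≤ W'.relIndex W := Nat.le_of_dvd (Nat.pos_of_ne_zero Subgroup.index_ne_zero_of_finite)
      (h6.dvd_of_dvd_mul_right h5)
    omega
  -- the quotient by `Q`
  set π := QuotientGroup.mk' Q with hπ
  have hπs := QuotientGroup.mk'_surjective Q
  have hπ1 : ∀ g, π g = 1 ↔ g ∈ Q := fun g => QuotientGroup.eq_one_iff g
  set Tb := T1.map π with hTb
  set Cb := C.map π with hCb
  haveI hCbn : Cb.Normal := hCn.map π hπs
  have hTb1 : Tb ≠ ⊥ := by
    intro h
    rw [hTb, Subgroup.map_eq_bot_iff, hπ, QuotientGroup.ker_mk'] at h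
    have heq : T1 = Q := le_antisymm h hQT
    have h1 : (T : Subgroup C) = Q.subgroupOf C := by
      rw [← heq, hT1, Subgroup.subgroupOf, Subgroup.comap_map_eq_self_of_injective C.subtype_injective]
    exact T.not_dvd_index (h1 ▸ hev)
  let V : Subgroup (G ⧸ Q) :=
    { carrier := {v | v ∈ Tb ∧ v * v = 1 ∧ ∀ t ∈ Tb, t * v = v * t}
      one_mem' := ⟨Tb.one_mem, mul_one 1, fun t _ => by simp⟩
      mul_mem' := fun {a b} ha hb => ⟨Tb.mul_mem ha.1 hb.1, by
        calc a * b * (a * b) = a * (b * a) * b := by group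
          _ = a * (a * b) * b := by rw [hb.2.2 a ha.1]
          _ = (a * a) * (b * b) := by group
          _ = 1 := by rw [ha.2.1, hb.2.1, one_mul],
        fun t ht => by rw [← mul_assoc, ha.2.2 t ht, mul_assoc, hb.2.2 t ht, mul_assoc]⟩
      inv_mem' := fun {a} ha => by
        rw [inv_eq_of_mul_eq_one_right ha.2.1]; exact ha }
  have hV2 : ∀ v ∈ V, v * v = 1 := fun v hv => hv.2.1
  have hVc : ∀ u ∈ V, ∀ v ∈ V, u * v = v * u := fun u hu v hv => hv.2.2 u hu.1
  have hVC : V ≤ Cb := fun v hv => Subgroup.map_mono hT1C hv.1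
  obtain ⟨v₁, hv₁, hv₁1⟩ : ∃ v ∈ V, v ≠ 1 := by
    haveI : Nontrivial Tb := (Subgroup.nontrivial_iff_ne_bot Tb).2 hTb1
    have hTbp : IsPGroup 2 Tb := hT1p.map π
    haveI : Nontrivial (Subgroup.center Tb) := hTbp.center_nontrivial
    obtain ⟨k, hk0, hk⟩ := (hTbp.to_subgroup (Subgroup.center Tb)).nontrivial_iff_card.1 inferInstance
    obtain ⟨c, hc⟩ := exists_prime_orderOf_dvd_card' (G := Subgroup.center Tb) 2
      (hk ▸ dvd_pow_self 2 hk0.ne')
    refine ⟨((c : Tb) : G ⧸ Q), ⟨(c : Tb).2, ?_, fun t ht =>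
      congrArg Subtype.val (Subgroup.mem_center_iff.1 c.2 ⟨t, ht⟩)⟩, fun h => ?_⟩
    · have h := pow_orderOf_eq_one c
      rw [hc, sq] at h
      exact congrArg (fun z : Subgroup.center Tb => ((z : Tb) : G ⧸ Q)) h
    · have : c = 1 := Subtype.ext (Subtype.ext h)
      rw [this, orderOf_one] at hc; omega
  have hWT : ∀ w ∈ W, ∀ t ∈ Tb, π w * t * (π w)⁻¹ ∈ Tb := by
    rintro w hw _ ⟨t, ht, rfl⟩
    exact ⟨w * t * w⁻¹, (Subgroup.mem_normalizer_iff.1 (hWN' hw) t).1 ht, by simp⟩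
  have hWV : ∀ w ∈ W, ∀ v ∈ V, π w * v * (π w)⁻¹ ∈ V := by
    intro w hw v hv
    refine ⟨hWT w hw v hv.1, ?_, fun t ht => ?_⟩
    · rw [show π w * v * (π w)⁻¹ * (π w * v * (π w)⁻¹) = π w * (v * v) * (π w)⁻¹ by group, hv.2.1]
      group
    · have h' := hWT w⁻¹ (W.inv_mem hw) t ht
      rw [map_inv, inv_inv] at h'
      have h := hv.2.2 _ h'
      calc t * (π w * v * (π w)⁻¹) = π w * ((π w)⁻¹ * t * π w * v) * (π w)⁻¹ := by group
        _ = π w * (v * ((π w)⁻¹ * t * π w)) * (π w)⁻¹ := by rw [h]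
        _ = π w * v * (π w)⁻¹ * t := by group
  have hfpf : ∀ W' : Subgroup G, W' ≤ W → (∀ z ∈ Z, (∀ w ∈ W', w * z = z * w) → z = 1) →
      ∀ v ∈ V, (∀ w ∈ W', π w * v * (π w)⁻¹ = v) → v = 1 := by
    intro W' hW'le hfix v hv hcomm
    obtain ⟨y, hy, rfl⟩ := hv.1
    have hodd' : Odd (Nat.card W') := hWodd.of_dvd_nat (Subgroup.card_dvd_of_le hW'le)
    obtain ⟨nQ, hnQ⟩ := IsPGroup.iff_card.1 hQp
    obtain ⟨c, hc, hcQ⟩ := CfsgLib.CoprimeAction.exists_centralizer_mem_coset (A := W') (N := Q)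
      (by rw [Subgroup.normalizer_eq_top_iff.2 (inferInstance : Q.Normal)]; exact le_top)
      (by rw [hnQ]; exact (Nat.coprime_two_left.2 hodd').symm.pow_right nQ)
      (Or.inr inferInstance) y (fun a ha => by
        rw [← hπ1, map_mul, map_inv, map_mul, map_mul, map_inv, hcomm a ha, inv_mul_cancel])
    have hcT : c ∈ T1 := by
      have := T1.mul_mem hy (hQT hcQ)
      rwa [mul_inv_cancel_left] at this
    have hcN : c ∈ Subgroup.normalizer (W' : Set G) := Subgroup.centralizer_le_normalizer _ hc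
    have h1 : Odd (orderOf c) := (hoddN W' hodd' hfix).of_dvd_nat
      (Subgroup.orderOf_mk c hcN ▸ orderOf_dvd_natCard _)
    obtain ⟨j, hj⟩ := IsPGroup.iff_orderOf.1 hT1p ⟨c, hcT⟩
    rw [Subgroup.orderOf_mk] at hj
    have h2 : c = 1 := by
      rcases j with _ | j
      · rw [pow_zero] at hj; exact orderOf_eq_one_iff.1 hj
      · rw [hj] at h1
        exact absurd h1 (Nat.not_odd_iff_even.2 (Nat.even_pow.2 ⟨even_two, Nat.succ_ne_zero j⟩))
    rw [h2, mul_one] at hcQ
    exact (hπ1 y).2 (inv_mem_iff.1 hcQ)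
  -- an odd section on which `V` acts
  have hcoreX : pCore 2 (G ⧸ Q) = ⊥ := pCore_quotient_pCore 2 G
  set R0 := pPrimeCore 2 (G ⧸ Q) ⊓ Cb with hR0
  have hOodd : Odd (Nat.card (pPrimeCore 2 (G ⧸ Q))) :=
    Nat.coprime_two_left.1 (card_pPrimeCore_coprime (G := G ⧸ Q) 2).symm
  have hR0odd : Odd (Nat.card R0) := hOodd.of_dvd_nat (Subgroup.card_dvd_of_le inf_le_left)
  have hR0V : ¬ R0 ≤ Subgroup.centralizer (V : Set (G ⧸ Q)) := by
    intro hle
    have hv₁O : v₁ ∈ Subgroup.centralizer (pPrimeCore 2 (G ⧸ Q) : Set (G ⧸ Q)) := by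
      refine Subgroup.mem_centralizer_iff.2 fun o ho => ?_
      set c := o * v₁ * o⁻¹ * v₁⁻¹ with hc
      have hOn : (pPrimeCore 2 (G ⧸ Q)).Normal := inferInstance
      have hcO : c ∈ pPrimeCore 2 (G ⧸ Q) := by
        rw [hc, show o * v₁ * o⁻¹ * v₁⁻¹ = o * (v₁ * o⁻¹ * v₁⁻¹) by group]
        exact Subgroup.mul_mem _ ho (hOn.conj_mem _ (Subgroup.inv_mem _ ho) v₁)
      have hcC : c ∈ Cb := Cb.mul_mem (hCbn.conj_mem _ (hVC hv₁) o) (Cb.inv_mem (hVC hv₁))
      have hfixc : v₁ * c = c * v₁ := hle (show c ∈ R0 from ⟨hcO, hcC⟩) v₁ hv₁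
      have hvi : v₁⁻¹ = v₁ := inv_eq_of_mul_eq_one_right (hV2 v₁ hv₁)
      have hcv : v₁ * c * v₁⁻¹ = c⁻¹ := by
        rw [hc, mul_inv_rev, mul_inv_rev, mul_inv_rev, inv_inv, inv_inv, hvi]
        calc v₁ * (o * v₁ * o⁻¹ * v₁) * v₁ = v₁ * o * v₁ * o⁻¹ * (v₁ * v₁) := by group
          _ = _ := by rw [hV2 v₁ hv₁, mul_one]; group
      rw [hfixc, mul_inv_cancel_right] at hcv
      have hc1 : c = 1 := by
        have hodd' : Odd (orderOf c) := hOodd.of_dvd_nat (Subgroup.orderOf_mk c hcO ▸ orderOf_dvd_natCard _)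
        have h2 : orderOf c ∣ 2 := orderOf_dvd_of_pow_eq_one (by rw [sq]; nth_rw 1 [hcv]; rw [inv_mul_cancel])
        rcases (Nat.dvd_prime Nat.prime_two).1 h2 with h | h
        · exact orderOf_eq_one_iff.1 h
        · rw [h] at hodd'; exact absurd hodd' (by decide)
      exact mul_inv_eq_iff_eq_mul.1 (mul_inv_eq_one.1 hc1)
    have h1 := centralizer_pPrimeCore_two_le hcoreX hv₁O
    have h2 : orderOf v₁ = 2 := orderOf_eq_prime (by rw [sq]; exact hV2 v₁ hv₁) hv₁1
    have h3 := hOodd.of_dvd_nat (Subgroup.orderOf_mk v₁ h1 ▸ orderOf_dvd_natCard _)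
    rw [h2] at h3; exact absurd h3 (by decide)
  haveI hR0n : R0.Normal := inferInstance
  obtain ⟨R, ⟨hRR0, hRn, hRne⟩, hRmin⟩ := (Set.toFinite {M : Subgroup (G ⧸ Q) | M ≤ R0 ∧
      V ⊔ W.map π ≤ Subgroup.normalizer (M : Set (G ⧸ Q)) ∧
      ¬ M ≤ Subgroup.centralizer (V : Set (G ⧸ Q))}).exists_minimal
    ⟨R0, le_rfl, by rw [Subgroup.normalizer_eq_top_iff.2 hR0n]; exact le_top, hR0V⟩
  have hRder : ⁅R, R⁆ ≤ Subgroup.centralizer (V : Set (G ⧸ Q)) := by
    by_contra h
    have hR1 : R ≠ ⊥ := fun hb => hRne (hb ▸ bot_le)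
    have hlt : ⁅R, R⁆ < R := CfsgLib.CoprimeAction.commutator_lt_of_isSolvable R hR1
    exact hlt.not_ge (hRmin ⟨hlt.le.trans hRR0,
      hRn.trans (CfsgLib.CoprimeAction.normalizer_le_normalizer_commutator R), h⟩ hlt.le)
  have hRodd : Odd (Nat.card R) := hR0odd.of_dvd_nat (Subgroup.card_dvd_of_le hRR0)
  have hRord : ∀ x ∈ R, Odd (orderOf x) := fun x hx =>
    hRodd.of_dvd_nat (Subgroup.orderOf_mk x hx ▸ orderOf_dvd_natCard _)
  let Λ := {V0 : Subgroup (G ⧸ Q) // V0 ≤ V ∧ (∃ v ∈ V, v ∉ V0) ∧ ∃ x ∈ R, x ≠ 1 ∧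
      (∀ v ∈ V0, v * x * v⁻¹ = x) ∧ ∀ v ∈ V, v ∉ V0 → v * x * v⁻¹ = x⁻¹}
  choose xs hxR hx1 hxfix hxinv using fun l : Λ => l.2.2.2
  obtain ⟨l₀⟩ : Nonempty Λ := by
    obtain ⟨x, hx, hx1, V0, h1, h2, h3, h4⟩ :=
      exists_sign_eigen hV2 hVc (le_sup_left.trans hRn) hRodd hRne
    exact ⟨⟨V0, h1, h2, x, hx, hx1, h3, h4⟩⟩
  have hne_inv : ∀ x ∈ R, x ≠ 1 → x⁻¹ ≠ x := by
    intro x hx hx1 h
    have h2 : orderOf x ∣ 2 := orderOf_dvd_of_pow_eq_one (by rw [sq]; nth_rw 1 [← h]; exact inv_mul_cancel x)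
    rcases (Nat.dvd_prime Nat.prime_two).1 h2 with h' | h'
    · exact hx1 (orderOf_eq_one_iff.1 h')
    · have := hRord x hx; rw [h'] at this; exact absurd this (by decide)
  have hsepV : ∀ i j : Λ, i ≠ j → ∃ v ∈ V, ¬ (v ∈ i.1 ↔ v ∈ j.1) := by
    intro i j hij
    by_contra h
    push Not at h
    exact hij (Subtype.ext (Subgroup.ext fun v => ⟨fun hv => (h v (i.2.1 hv)).1 hv,
      fun hv => (h v (j.2.1 hv)).2 hv⟩))
  have hxcomm : ∀ i j : Λ, Commute (xs i) (xs j) := by
    intro i j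
    by_cases hij : i = j
    · rw [hij]
    obtain ⟨v, hv, hsep⟩ := hsepV i j hij
    have hmem : ∀ a ∈ R, ∀ b ∈ R, v * ⁅a, b⁆ * v⁻¹ = ⁅a, b⁆ := fun a ha b hb => by
      rw [(Subgroup.mem_centralizer_iff.1 (hRder (Subgroup.commutator_mem_commutator ha hb)) v hv),
        mul_inv_cancel_right]
    by_cases hi : v ∈ i.1
    · have hj : v ∉ j.1 := fun h => hsep ⟨fun _ => h, fun _ => hi⟩
      exact commute_of_inverted (hRord _ (hxR j)) (hxfix i v hi) (hxinv j v hv hj)
        (hmem _ (hxR i) _ (hxR j))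
    · have hj : v ∈ j.1 := by
        by_contra h; exact hsep ⟨fun h' => absurd h' hi, fun h' => absurd h' h⟩
      exact (commute_of_inverted (hRord _ (hxR i)) (hxfix j v hj) (hxinv i v hv hi)
        (hmem _ (hxR j) _ (hxR i))).symm
  set X1 := Subgroup.closure (Set.range xs) with hX1
  have hX1R : X1 ≤ R := (Subgroup.closure_le _).2 (by rintro _ ⟨i, rfl⟩; exact hxR i)
  haveI : IsMulCommutative X1 := Subgroup.isMulCommutative_closure (by
    rintro _ ⟨i, rfl⟩ _ ⟨j, rfl⟩
    exact hxcomm i j)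
  have hX1odd : Odd (Nat.card X1) := hRodd.of_dvd_nat (Subgroup.card_dvd_of_le hX1R)
  have hlow : 3 ^ Nat.card Λ ≤ Nat.card X1 := by
    refine three_pow_card_le (A := X1) hX1odd (fun i => ⟨xs i, Subgroup.subset_closure ⟨i, rfl⟩⟩)
      (fun i h => hx1 i (congrArg Subtype.val h))
      {a : X1 →* X1 | ∃ v ∈ V, ∀ y : X1, ((a y : X1) : G ⧸ Q) = v * (y : G ⧸ Q) * v⁻¹} ?_ ?_
    · rintro a ⟨v, hv, ha⟩ i
      by_cases hi : v ∈ i.1
      · exact Or.inl (Subtype.ext ((ha _).trans (hxfix i v hi)))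
      · exact Or.inr (Subtype.ext ((ha _).trans (hxinv i v hv hi)))
    · intro i j hij
      obtain ⟨v, hv, hsep⟩ := hsepV i j hij
      have hmap : X1.map (MulAut.conj v).toMonoidHom ≤ X1 := by
        rw [hX1, MonoidHom.map_closure, Subgroup.closure_le]
        rintro _ ⟨_, ⟨k, rfl⟩, rfl⟩
        show v * xs k * v⁻¹ ∈ X1
        by_cases hk : v ∈ k.1
        · rw [hxfix k v hk]; exact Subgroup.subset_closure ⟨k, rfl⟩
        · rw [hxinv k v hv hk]; exact X1.inv_mem (Subgroup.subset_closure ⟨k, rfl⟩)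
      let a : X1 →* X1 :=
        { toFun := fun y => ⟨v * (y : G ⧸ Q) * v⁻¹, hmap ⟨y, y.2, rfl⟩⟩
          map_one' := Subtype.ext (by simp)
          map_mul' := fun y y' => Subtype.ext (by simp [mul_assoc]) }
      refine ⟨a, ⟨v, hv, fun y => rfl⟩, fun h => hsep ?_⟩
      have key : ∀ k : Λ, v ∈ k.1 ↔ v * xs k * v⁻¹ = xs k := fun k =>
        ⟨hxfix k v, fun he => by
          by_contra hk
          exact hne_inv _ (hxR k) (hx1 k) ((hxinv k v hv hk).symm.trans he)⟩
      rw [key i, key j]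
      exact ⟨fun h' => congrArg Subtype.val (h.1 (Subtype.ext h')),
        fun h' => congrArg Subtype.val (h.2 (Subtype.ext h'))⟩
  -- lift `X1` to `G`
  set P1 := X1.comap π with hP1
  have hQP1 : Q ≤ P1 := fun q hq => by
    show π q ∈ X1
    rw [(hπ1 q).2 hq]; exact X1.one_mem
  have hrel : Q.relIndex P1 = Nat.card X1 := by
    rw [CfsgLib.PSolvable.relIndex_eq_card_map, hP1, ← hπ, Subgroup.map_comap_eq_self_of_surjective hπs]
  obtain ⟨H', hH'⟩ := Subgroup.exists_right_complement'_of_coprime (N := Q.subgroupOf P1) (by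
    obtain ⟨n, hn⟩ := IsPGroup.iff_card.1 hQp
    rw [Nat.card_congr (Subgroup.subgroupOfEquivOfLe hQP1).toEquiv, hn]
    show (2 ^ n).Coprime (Q.relIndex P1)
    rw [hrel]; exact (Nat.coprime_two_left.2 hX1odd).pow_left n)
  set H := H'.map P1.subtype with hH
  have hHcard : Nat.card H = Nat.card X1 := by
    rw [hH, Subgroup.card_subtype, ← hH'.symm.index_eq_card]; exact hrel
  have hHP : H ≤ P1 := Subgroup.map_subtype_le _
  have hHodd : Odd (Nat.card H) := hHcard ▸ hX1odd
  have hHord : ∀ g ∈ H, Odd (orderOf g) := fun g hg =>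
    hHodd.of_dvd_nat (Subgroup.orderOf_mk g hg ▸ orderOf_dvd_natCard _)
  have hHQ : ∀ g ∈ H, g ∈ Q → g = 1 := by
    intro g hg hgQ
    obtain ⟨k, hk⟩ := IsPGroup.iff_orderOf.1 hQp ⟨g, hgQ⟩
    rw [Subgroup.orderOf_mk] at hk
    have := hHord g hg
    rw [hk] at this
    rcases k with _ | k
    · exact orderOf_eq_one_iff.1 (by rw [hk, pow_zero])
    · exact absurd this (Nat.not_odd_iff_even.2 (Nat.even_pow.2 ⟨even_two, Nat.succ_ne_zero k⟩))
  haveI : IsMulCommutative H := ⟨⟨fun a b => Subtype.ext (by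
    have h1 : π ((a : G) * b) = π ((b : G) * a) := by
      rw [map_mul, map_mul]
      exact congrArg Subtype.val (mul_comm (⟨_, hHP a.2⟩ : X1) ⟨_, hHP b.2⟩)
    show (a : G) * b = (b : G) * a
    refine (mul_inv_eq_one.1 (hHQ _ (H.mul_mem (H.mul_mem a.2 b.2) (H.inv_mem (H.mul_mem b.2 a.2))) ?_))
    rw [← hπ1, map_mul, map_inv, h1, mul_inv_cancel])⟩⟩
  have hHC : H ≤ C := by
    intro g hg
    obtain ⟨c, hc, hcg⟩ := (hRR0 (hX1R (hHP hg))).2
    have h1 : c⁻¹ * g ∈ Q := by rw [← hπ1, map_mul, map_inv, hcg, inv_mul_cancel]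
    simpa using C.mul_mem hc (hQC h1)
  -- a critical subgroup of `Q`
  obtain ⟨Hc, hHcc, hHc1, hHc2, hHc3⟩ := CfsgLib.Transfer.exists_critical hQp
  haveI := hHcc
  set Kc := Hc.map Q.subtype with hKc
  haveI hKcn : Kc.Normal := normal_map_subtype Q Hc
  have hKQ : Kc ≤ Q := Subgroup.map_subtype_le _
  set A := Kc ⊓ Subgroup.centralizer (Kc : Set G) with hA
  haveI hAn : A.Normal := by
    haveI : (Subgroup.centralizer (Kc : Set G)).Normal := Subgroup.normal_centralizer
    rw [hA]; infer_instance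
  have hcenHc : ∀ y : Q, y ∈ Subgroup.centralizer (Hc : Set Q) →
      (y : G) ∈ Subgroup.centralizer (Kc : Set G) := by
    intro y hy
    refine Subgroup.mem_centralizer_iff.2 ?_
    rintro _ ⟨h, hh, rfl⟩
    exact congrArg Subtype.val (Subgroup.mem_centralizer_iff.1 hy h hh)
  have hsqA : ∀ k ∈ Kc, k * k ∈ A := by
    rintro _ ⟨h, hh, rfl⟩
    refine ⟨Kc.mul_mem ⟨h, hh, rfl⟩ ⟨h, hh, rfl⟩, ?_⟩
    have h1 := CfsgLib.PGroups.pow_mem_frattini (hQp.to_subgroup Hc) (⟨h, hh⟩ : Hc)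
    have h2 := hcenHc _ (hHc1 ⟨_, h1, rfl⟩)
    simpa [sq] using h2
  have hcomA : ∀ k ∈ Kc, ∀ l ∈ Kc, ⁅k, l⁆ ∈ A := by
    rintro _ ⟨h, hh, rfl⟩ _ ⟨h', hh', rfl⟩
    have h1 := hHc2 (Subgroup.commutator_mem_commutator hh (Subgroup.mem_top h'))
    have h2 : ((⁅h, h'⁆ : Q) : G) ∈ A := ⟨⟨_, h1.1, rfl⟩, hcenHc _ h1.2⟩
    exact h2
  have hselfK : ∀ y ∈ Q, (∀ k ∈ Kc, k * y = y * k) → y ∈ Kc := by
    intro y hy hcomm
    exact ⟨⟨y, hy⟩, hHc3 (fun h hh => Subtype.ext (hcomm _ ⟨h, hh, rfl⟩)), rfl⟩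
  have hAc : ∀ a ∈ A, ∀ k ∈ Kc, k * a = a * k := fun a ha k hk =>
    Subgroup.mem_centralizer_iff.1 ha.2 k hk
  have hAK : A ≤ Kc := inf_le_left
  have hAp : IsPGroup 2 A := hQp.to_le (hAK.trans hKQ)
  have hZA : ∀ z ∈ Z, z ∈ Kc → z ∈ A := fun z hz hzK =>
    ⟨hzK, Subgroup.mem_centralizer_iff.2 fun k hk => (hinvQ z hz).2 k (hKQ hk)⟩
  have hHA : ∀ g ∈ H, ∀ a ∈ A, g * a * g⁻¹ = a := by
    intro g hg
    refine commute_of_fixes_involutions hAp (fun a ha b hb => hAc b hb a (hAK ha)) (hHord g hg)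
      (by rw [Subgroup.normalizer_eq_top_iff.2 hAn]; trivial) fun a _ ha2 => ?_
    rw [← Subgroup.mem_centralizer_iff.1 (hHC hg) a (by rw [SetLike.mem_coe, hZmem, ← sq]; exact ha2),
      mul_inv_cancel_right]
  -- the quadratic map
  haveI : IsMulCommutative A := ⟨⟨fun a b => Subtype.ext (hAc _ b.2 _ (hAK a.2))⟩⟩
  set A' := A.subgroupOf Kc with hA'
  haveI : A'.Normal := Subgroup.normal_subgroupOf
  haveI : IsMulCommutative (Kc ⧸ A') := ⟨⟨fun a b => by
    induction a using QuotientGroup.induction_on with | _ k =>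
    induction b using QuotientGroup.induction_on with | _ l =>
    rw [← QuotientGroup.mk_mul, ← QuotientGroup.mk_mul, QuotientGroup.eq]
    show ((k * l)⁻¹ * (l * k) : Kc).1 ∈ A
    have h := hcomA _ (Kc.inv_mem l.2) _ (Kc.inv_mem k.2)
    simpa [commutatorElement_def, mul_assoc] using h⟩⟩
  set sqA : A →* A := powMonoidHom 2 with hsqAdef
  set E := A ⧸ sqA.range with hEdef
  have hE2 : ∀ x : E, x ^ 2 = 1 := by
    intro x
    induction x using QuotientGroup.induction_on with | _ a =>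
    rw [← QuotientGroup.mk_pow, QuotientGroup.eq_one_iff]
    exact ⟨a, rfl⟩
  have hEcard : Nat.card E ≤ 2 ^ r := by
    have h1 := Subgroup.card_mul_index sqA.ker
    rw [Subgroup.index_ker] at h1
    have h2 := Subgroup.card_mul_index sqA.range
    have h3 : Nat.card E = Nat.card sqA.ker := by
      rw [hEdef, ← Subgroup.index_eq_card]
      refine Nat.eq_of_mul_eq_mul_left (Nat.card_pos (α := sqA.range)) ?_
      rw [h2, ← h1, mul_comm]
    rw [h3, ← hr]
    refine Nat.card_le_card_of_injective (fun a => ⟨((a : A) : G), ?_⟩) fun a b hab => ?_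
    · have h := congrArg Subtype.val (MonoidHom.mem_ker.1 a.2)
      rw [hZmem]
      simpa [hsqAdef, sq] using h
    · exact Subtype.ext (Subtype.ext (congrArg (fun z : Z => (z : G)) hab))
  let F : Kc → E := fun k => QuotientGroup.mk (⟨(k : G) * k, hsqA k k.2⟩ : A)
  let cb : Kc → Kc → E := fun k l =>
    QuotientGroup.mk (⟨⁅(k : G)⁻¹, (l : G)⁆, hcomA _ (Kc.inv_mem k.2) _ l.2⟩ : A)
  have hFmul : ∀ k l : Kc, F (k * l) = F k * F l * cb k l := by
    intro k l
    show (QuotientGroup.mk _ : E) = QuotientGroup.mk _ * QuotientGroup.mk _ * QuotientGroup.mk _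
    rw [← QuotientGroup.mk_mul, ← QuotientGroup.mk_mul]
    refine congrArg _ (Subtype.ext ?_)
    simp only [Subgroup.coe_mul]
    have hc := hAc _ (hcomA _ (Kc.inv_mem k.2) _ l.2) _ (Kc.mul_mem l.2 l.2)
    rw [mul_assoc _ ((l : G) * l), hc, commutatorElement_def]
    group
  have hFA : ∀ k a : Kc, a ∈ A' → F (k * a) = F k := by
    intro k a ha
    show (QuotientGroup.mk _ : E) = QuotientGroup.mk _
    rw [QuotientGroup.eq]
    refine ⟨(⟨(a : G), ha⟩ : A)⁻¹, Subtype.ext ?_⟩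
    have hc : (k : G) * a = (a : G) * k := hAc _ ha _ k.2
    simp only [hsqAdef, powMonoidHom_apply, Subgroup.coe_mul, Subgroup.coe_inv, SubmonoidClass.coe_pow]
    rw [sq, show (k : G) * a * ((k : G) * a) = (k : G) * k * ((a : G) * a) from
      calc (k : G) * a * ((k : G) * a) = (k : G) * ((a : G) * k) * a := by group
        _ = (k : G) * ((k : G) * a) * a := by rw [← hc]
        _ = _ := by group]
    group
  have hcbmul : ∀ k l l' : Kc, cb k (l * l') = cb k l * cb k l' := by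
    intro k l l'
    show (QuotientGroup.mk _ : E) = QuotientGroup.mk _ * QuotientGroup.mk _
    rw [← QuotientGroup.mk_mul]
    refine congrArg _ (Subtype.ext ?_)
    simp only [Subgroup.coe_mul]
    have hc := hAc _ (hcomA _ (Kc.inv_mem k.2) _ l'.2) _ l.2
    calc ⁅(k : G)⁻¹, (l : G) * l'⁆ = ⁅(k : G)⁻¹, (l : G)⁆ * ((l : G) * ⁅(k : G)⁻¹, (l' : G)⁆ * (l : G)⁻¹) := by
          simp only [commutatorElement_def]; group
      _ = _ := by rw [hc, mul_inv_cancel_right]
  have hEsq : ∀ x : E, x * x = 1 := fun x => by rw [← sq]; exact hE2 x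
  have hFquad : ∀ u h k : Kc, F (u * h * k) * F (u * h) * (F (u * k) * F u) = F (h * k) * F h * F k := by
    intro u h k
    rw [mul_assoc u h k, hFmul u (h * k), hFmul u h, hFmul u k]
    have hcb : cb u (h * k) * cb u h * cb u k = 1 := by rw [hcbmul, mul_assoc, hEsq]
    calc F u * F (h * k) * cb u (h * k) * (F u * F h * cb u h) * (F u * F k * cb u k * F u)
        = (F u * F u) * (F u * F u) * (F (h * k) * F h * F k) * (cb u (h * k) * cb u h * cb u k) := by
          ac_rfl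
      _ = _ := by simp only [hcb, hEsq, one_mul, mul_one]
  let f : Kc ⧸ A' → E := Quotient.lift F fun k l hkl => by
    have hkl' : k⁻¹ * l ∈ A' := QuotientGroup.leftRel_apply.1 hkl
    have h := hFA k _ hkl'
    rw [mul_inv_cancel_left] at h
    exact h.symm
  have hfmk : ∀ k : Kc, f (k : Kc ⧸ A') = F k := fun _ => rfl
  have hUbound : Nat.card (Kc ⧸ A') ≤ (2 ^ r) ^ 2 := by
    refine le_trans (card_le_sq_of_anisotropic ?_ hE2 f ?_ ?_ ?_) (Nat.pow_le_pow_left hEcard 2)
    · intro x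
      induction x using QuotientGroup.induction_on with | _ k =>
      rw [← QuotientGroup.mk_pow, QuotientGroup.eq_one_iff]
      show ((k ^ 2 : Kc) : G) ∈ A
      rw [SubmonoidClass.coe_pow, sq]; exact hsqA k k.2
    · rw [← QuotientGroup.mk_one, hfmk]
      show (QuotientGroup.mk _ : E) = 1
      rw [QuotientGroup.eq_one_iff]
      exact ⟨1, Subtype.ext (by simp)⟩
    · intro x
      induction x using QuotientGroup.induction_on with | _ k =>
      intro hx
      rw [hfmk] at hx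
      obtain ⟨a, ha⟩ := (QuotientGroup.eq_one_iff _).1 hx
      have ha' : (a : G) * a = (k : G) * k := by
        have h := congrArg Subtype.val ha
        simpa [hsqAdef, sq] using h
      rw [QuotientGroup.eq_one_iff]
      show (k : G) ∈ A
      have hz : (k : G) * (a : G)⁻¹ ∈ Z := by
        rw [hZmem]
        have hc : Commute (k : G) (a : G)⁻¹ := (show Commute (k : G) a from hAc _ a.2 _ k.2).inv_right
        rw [hc.symm.mul_mul_mul_comm, ← ha']; group
      have h2 := A.mul_mem (hZA _ hz (Kc.mul_mem k.2 (Kc.inv_mem (hAK a.2)))) a.2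
      rwa [inv_mul_cancel_right] at h2
    · intro u v h k
      induction u using QuotientGroup.induction_on with | _ u =>
      induction v using QuotientGroup.induction_on with | _ v =>
      induction h using QuotientGroup.induction_on with | _ h =>
      induction k using QuotientGroup.induction_on with | _ k =>
      simp only [← QuotientGroup.mk_mul, hfmk]
      rw [hFquad, hFquad]
  let φK : H →* MulAut Kc := (MulAut.conjNormal (H := Kc)).comp H.subtype
  have hφK : ∀ (g : H) (k : Kc), ((φK g k : Kc) : G) = (g : G) * k * (g : G)⁻¹ :=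
    fun g k => MulAut.conjNormal_apply _ _
  have hinvA : Inv φK A' := fun g k hk => by
    show ((φK g k : Kc) : G) ∈ A
    rw [hφK]; exact hAn.conj_mem _ hk _
  set φU := quotAct φK A' hinvA with hφU
  have hfaith : Function.Injective φU := by
    rw [← MonoidHom.ker_eq_bot_iff, Subgroup.eq_bot_iff_forall]
    intro g hg
    set Hk := φU.ker.map H.subtype with hHk
    have hHkH : Hk ≤ H := Subgroup.map_subtype_le _
    obtain ⟨nQ, hnQ⟩ := IsPGroup.iff_card.1 hQp
    have hcop : ∀ M : Subgroup G, M ≤ Q → (Nat.card Hk).Coprime (Nat.card M) := fun M hM =>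
      (((Nat.coprime_two_left.2 (hHodd.of_dvd_nat (Subgroup.card_dvd_of_le hHkH))).pow_left nQ).symm
        |> fun h => (hnQ ▸ h : (Nat.card Hk).Coprime (Nat.card Q))).coprime_dvd_right
        (Subgroup.card_dvd_of_le hM)
    have h1 : Hk ≤ Subgroup.centralizer (Kc : Set G) := by
      refine CfsgLib.CoprimeAction.le_centralizer_of_series hAK (hcop A (hAK.trans hKQ))
        (fun a ha => Subgroup.mem_centralizer_iff.2 fun b hb => ?_) ?_
      · exact (mul_inv_eq_iff_eq_mul.1 (hHA a (hHkH ha) b hb)).symm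
      · rintro _ ⟨a, ha, rfl⟩ k hk
        have h := DFunLike.congr_fun (MonoidHom.mem_ker.1 ha) ((⟨k, hk⟩ : Kc) : Kc ⧸ A')
        rw [hφU, quotAct_mk, MulAut.one_apply, eq_comm, QuotientGroup.eq] at h
        have h' : ((⟨k, hk⟩⁻¹ * φK a ⟨k, hk⟩ : Kc) : G) ∈ A := h
        rwa [Subgroup.coe_mul, hφK] at h'
    have h2 : Hk ≤ Subgroup.centralizer (Q : Set G) := by
      refine CfsgLib.CoprimeAction.le_centralizer_of_series hKQ (hcop Kc hKQ) h1 fun a ha y hy => ?_
      refine hselfK _ (Q.mul_mem (Q.inv_mem hy) ((inferInstance : Q.Normal).conj_mem y hy a)) fun k hk => ?_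
      have hCK : (Subgroup.centralizer (Kc : Set G)).Normal := Subgroup.normal_centralizer
      have hm : y⁻¹ * (a * y * a⁻¹) ∈ Subgroup.centralizer (Kc : Set G) := by
        rw [show y⁻¹ * (a * y * a⁻¹) = y⁻¹ * a * y * a⁻¹ by group]
        exact Subgroup.mul_mem _ (by simpa using hCK.conj_mem _ (h1 ha) y⁻¹) (Subgroup.inv_mem _ (h1 ha))
      exact Subgroup.mem_centralizer_iff.1 hm k hk
    exact Subtype.ext (hHQ g g.2 (hCQ (h2 ⟨g, hg, rfl⟩)))
  have hupp : Nat.card X1 ≤ (2 ^ r) ^ 2 := hHcard ▸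
    (card_le_of_faithful_abelian _ le_rfl hHodd ((hQp.to_le hKQ).to_quotient A') φU hfaith).trans hUbound
  have hΛ : Nat.card Λ < 2 ^ r - 1 := by
    by_contra hle
    push Not at hle
    have h := (Nat.pow_le_pow_right (by norm_num : 0 < 3) hle).trans (hlow.trans hupp)
    obtain ⟨s, rfl⟩ : ∃ s, r = s + 2 := ⟨r - 2, by omega⟩
    rcases s with _ | s
    · norm_num at h
    · have h2 : ∀ m : ℕ, 2 * m + 6 ≤ 2 ^ (m + 3) - 1 := by
        intro m
        induction m with
        | zero => norm_num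
        | succ m ih =>
          have : 2 ^ (m + 1 + 3) = 2 * 2 ^ (m + 3) := by ring
          omega
      have h3 : 3 ^ (2 * s + 6) ≤ (2 ^ (s + 1 + 2)) ^ 2 :=
        (Nat.pow_le_pow_right (by norm_num) (h2 s)).trans h
      rw [show 2 * s + 6 = (s + 3) * 2 by ring, pow_mul, show s + 1 + 2 = s + 3 by omega] at h3
      exact absurd ((Nat.pow_le_pow_iff_left (by norm_num)).1 h3)
        (not_le.2 (Nat.pow_lt_pow_left (by norm_num) (by omega)))
  -- the stabiliser of a character in `W`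
  set V0 := l₀.1 with hV0
  set W' := W ⊓ (Subgroup.normalizer (V0 : Set (G ⧸ Q))).comap π with hW'
  have hWR : ∀ w ∈ W, π w ∈ Subgroup.normalizer (R : Set (G ⧸ Q)) := fun w hw =>
    hRn (Subgroup.mem_sup_right ⟨w, hw, rfl⟩)
  have himg : ∀ w : W, (MulAut.conj (π w) • V0 : Subgroup (G ⧸ Q)) ≤ V ∧
      (∃ v ∈ V, v ∉ (MulAut.conj (π w) • V0 : Subgroup (G ⧸ Q))) ∧ ∃ x ∈ R, x ≠ 1 ∧
      (∀ v ∈ (MulAut.conj (π w) • V0 : Subgroup (G ⧸ Q)), v * x * v⁻¹ = x) ∧
      ∀ v ∈ V, v ∉ (MulAut.conj (π w) • V0 : Subgroup (G ⧸ Q)) → v * x * v⁻¹ = x⁻¹ := by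
    intro w
    set g := π (w : G) with hg
    have hback : ∀ v ∈ V, g⁻¹ * v * g ∈ V := fun v hv => by
      have := hWV _ (W.inv_mem w.2) v hv
      rwa [map_inv, inv_inv] at this
    refine ⟨?_, ?_, g * xs l₀ * g⁻¹, (Subgroup.mem_normalizer_iff.1 (hWR w w.2) _).1 (hxR l₀),
      fun h => hx1 l₀ (conj_eq_one_iff.1 h), fun v hv => ?_, fun v hv hv0 => ?_⟩
    · intro v hv
      rw [CfsgLib.CoprimeAction.mem_conj_iff] at hv
      have := hWV w w.2 _ (l₀.2.1 hv)
      simpa [← hg, mul_assoc] using this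
    · obtain ⟨v, hv, hv0⟩ := l₀.2.2.1
      refine ⟨g * v * g⁻¹, hWV w w.2 v hv, ?_⟩
      rw [CfsgLib.CoprimeAction.mem_conj_iff]
      simpa [mul_assoc] using hv0
    · rw [CfsgLib.CoprimeAction.mem_conj_iff] at hv
      have h := hxfix l₀ _ hv
      calc v * (g * xs l₀ * g⁻¹) * v⁻¹ = g * (g⁻¹ * v * g * xs l₀ * (g⁻¹ * v * g)⁻¹) * g⁻¹ :=
          conj_conj_eq _ _ _
        _ = _ := by rw [h]
    · rw [CfsgLib.CoprimeAction.mem_conj_iff] at hv0
      have h := hxinv l₀ _ (hback v hv) hv0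
      calc v * (g * xs l₀ * g⁻¹) * v⁻¹ = g * (g⁻¹ * v * g * xs l₀ * (g⁻¹ * v * g)⁻¹) * g⁻¹ :=
          conj_conj_eq _ _ _
        _ = g * (xs l₀)⁻¹ * g⁻¹ := by rw [h]
        _ = _ := conj_inv_eq _ _
  have hd : W'.relIndex W ≤ Nat.card Λ := by
    have hiff : ∀ a b : W, (a⁻¹ * b : W) ∈ W'.subgroupOf W ↔
        (MulAut.conj (π a) • V0 : Subgroup (G ⧸ Q)) = MulAut.conj (π b) • V0 := by
      intro a b
      rw [Subgroup.mem_subgroupOf, hW', Subgroup.mem_inf]
      simp only [SetLike.coe_mem, true_and, Subgroup.mem_comap]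
      rw [← CfsgLib.CoprimeAction.conj_smul_eq_self, Subgroup.coe_mul, Subgroup.coe_inv, map_mul,
        map_inv, map_mul, map_inv, mul_smul, inv_smul_eq_iff]
      exact eq_comm
    let F' : W → Λ := fun w => ⟨_, himg w⟩
    refine Nat.card_le_card_of_injective (Quotient.lift F' fun a b hab =>
      Subtype.ext ((hiff a b).1 (QuotientGroup.leftRel_apply.1 hab))) ?_
    intro a b
    induction a using QuotientGroup.induction_on with | _ a =>
    induction b using QuotientGroup.induction_on with | _ b =>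
    intro hab
    exact QuotientGroup.eq.2 ((hiff a b).2 (congrArg Subtype.val hab))
  have hfix' := hfixW W' inf_le_left (lt_of_le_of_lt hd hΛ)
  obtain ⟨v, hv, hv0⟩ := l₀.2.2.1
  haveI : IsMulCommutative V := ⟨⟨fun a b => Subtype.ext (hVc _ a.2 _ b.2)⟩⟩
  haveI := Fintype.ofFinite W'
  let c : W' → V := fun w => ⟨π w * v * (π w)⁻¹, hWV _ w.2.1 v hv⟩
  have hfixp : (∏ w, c w : V) = 1 := by
    refine Subtype.ext (hfpf W' inf_le_left hfix' _ (∏ w, c w : V).2 fun a ha => ?_)
    let θ : V →* V :=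
      { toFun := fun u => ⟨π a * u * (π a)⁻¹, hWV a ha.1 u u.2⟩
        map_one' := Subtype.ext (by simp)
        map_mul' := fun u u' => Subtype.ext (by simp [mul_assoc]) }
    have hθ : θ (∏ w, c w) = ∏ w, c w := by
      rw [map_prod]
      refine Fintype.prod_equiv (Equiv.mulLeft (⟨a, ha⟩ : W')) _ _ fun w => Subtype.ext ?_
      show π a * (π w * v * (π w)⁻¹) * (π a)⁻¹ = π (a * w) * v * (π (a * w))⁻¹
      rw [map_mul]; exact mul_conj_mul_eq _ _ _
    exact congrArg Subtype.val hθ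
  have hprod : ∀ u ∈ V, u ∉ V0 → ∀ u' ∈ V, u' ∉ V0 → u * u' ∈ V0 := by
    intro u hu hu0 u' hu' hu0'
    by_contra h
    refine hne_inv _ (hxR l₀) (hx1 l₀) ?_
    rw [← hxinv l₀ _ (V.mul_mem hu hu') h]
    calc u * u' * xs l₀ * (u * u')⁻¹ = u * (u' * xs l₀ * u'⁻¹) * u⁻¹ :=
        conj_mul_eq _ _ _
      _ = (u * xs l₀ * u⁻¹)⁻¹ := by rw [hxinv l₀ u' hu' hu0']; exact conj_inv_eq _ _
      _ = xs l₀ := by rw [hxinv l₀ u hu hu0, inv_inv]
  set V0' := V0.subgroupOf V with hV0'
  haveI : V0'.Normal := inferInstance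
  have hclass : ∀ w : W', (c w : V ⧸ V0') = ((⟨v, hv⟩ : V) : V ⧸ V0') := by
    intro w
    rw [QuotientGroup.eq]
    show (π (w : G) * v * (π (w : G))⁻¹)⁻¹ * v ∈ V0
    rw [inv_eq_of_mul_eq_one_right (hV2 _ (hWV _ w.2.1 v hv))]
    refine hprod _ (hWV _ w.2.1 v hv) (fun h => hv0 ?_) v hv hv0
    have hn := w.2.2
    exact (Subgroup.mem_normalizer_iff.1 hn v).2 h
  have h1 := congrArg (QuotientGroup.mk' V0') hfixp
  rw [map_prod, map_one, show (∏ w, QuotientGroup.mk' V0' (c w)) = ∏ _w : W', ((⟨v, hv⟩ : V) : V ⧸ V0') from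
    Finset.prod_congr rfl fun w _ => hclass w, Finset.prod_const,
    Finset.card_univ] at h1
  have hvsq : ((⟨v, hv⟩ : V) : V ⧸ V0') ^ 2 = 1 := by
    rw [← QuotientGroup.mk_pow, show (⟨v, hv⟩ : V) ^ 2 = 1 from Subtype.ext (by rw [SubmonoidClass.coe_pow, sq]; exact hV2 v hv)]
    rfl
  obtain ⟨j, hj⟩ : Odd (Fintype.card W') := by
    rw [← Nat.card_eq_fintype_card]; exact hWodd.of_dvd_nat (Subgroup.card_dvd_of_le inf_le_left)
  rw [hj, pow_succ, pow_mul, hvsq, one_pow, one_mul, QuotientGroup.eq_one_iff] at h1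
  exact hv0 h1

end CfsgLib.MetacyclicP
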